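import Cfsg.Agent.H41.CoType.Radical

/-! Standard pairs of vectors orthogonal to the first hyperbolic pair, and finite checks. -/

set_option autoImplicit false
set_option linter.unusedSimpArgs false

namespace Cfsg.Agent.H41.CoType

/-- First vector of the standard pair of a type. -/
def sa (k : ZMod 2) : F8 := eps 1 + k • eta 1

/-- Second vector of the standard pair of a type. -/
def sc (k : ZMod 2) : F8 := eps 2 + k • (eta 1 + eta 2)

/-- A pair of classes spanning a line of the given type. -/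
def IsPair (k : ZMod 2) (a c : F8) : Prop :=
  pr a = a ∧ pr c = c ∧ q8 a = k ∧ q8 c = k ∧ B8 a c = k ∧ a ≠ 0 ∧ c ≠ 0 ∧ a ≠ c

theorem sa_sc : ∀ k : ZMod 2, IsPair k (sa k) (sc k) := by
  unfold IsPair; decide +kernel

theorem comb_zero_iff {a : Fin 3 → F8} (h : ∀ c0 c1 c2 : ZMod 2,
    c0 • a 0 + c1 • a 1 + c2 • a 2 = 0 → c0 = 0 ∧ c1 = 0 ∧ c2 = 0) (c : Fin 3 → ZMod 2)
    (hc : comb a c = 0) : c = 0 := by
  obtain ⟨h0, h1, h2⟩ := h _ _ _ hc
  funext i
  fin_cases i <;> assumption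

theorem indep_pair {k : ZMod 2} {a c : F8} (h : IsPair k a c) (x : Fin 3 → ZMod 2)
    (hx : comb ![eps 0, a, c] x = 0) : x = 0 := by
  obtain ⟨hpa, hpc, -, -, -, ha, hc, hac⟩ := h
  refine comb_zero_iff (fun c0 c1 c2 e => ?_) x hx
  simp only [Matrix.cons_val_zero, Matrix.cons_val_one, Matrix.cons_val_two, Matrix.tail_cons,
    Matrix.head_cons] at e
  have hp := congrArg pr e
  rw [pr_add, pr_add, pr_zero] at hp
  rcases bit c1 with rfl | rfl <;> rcases bit c2 with rfl | rfl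
  · rcases bit c0 with rfl | rfl
    · simp
    · exfalso
      have := congrFun e (Sum.inl 0)
      simp [eps] at this
  · exfalso; rcases bit c0 with rfl | rfl <;> simp [pr_zero, pr_eps, hpc] at hp <;> exact hc hp
  · exfalso; rcases bit c0 with rfl | rfl <;> simp [pr_zero, pr_eps, hpa] at hp <;> exact ha hp
  · exfalso; rcases bit c0 with rfl | rfl <;> simp [pr_zero, pr_eps, hpa, hpc] at hp <;>
      exact hac (eq_of_add8 hp)

/-- Pairs of the same type are equivalent under the stabilizer of the first vector. -/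
theorem witt_pair {k : ZMod 2} {a c : F8} (h : IsPair k a c) :
    ∃ ω : O8, ω ∈ Om ∧ ap ω (eps 0) = eps 0 ∧ ap ω a = sa k ∧ ap ω c = sc k := by
  obtain ⟨hpa, hpc, hqa, hqc, hB, -⟩ := id h
  obtain ⟨hsa, hsc, hqsa, hqsc, hsB, -⟩ := id (sa_sc k)
  have e0 : q8 (eps 0) = 0 := by decide +kernel
  have hea : B8 (eps 0) a = 0 := by rw [← hpa, B_eps_pr]
  have hec : B8 (eps 0) c = 0 := by rw [← hpc, B_eps_pr]
  have hea' : B8 (eps 0) (sa k) = 0 := by rw [← hsa, B_eps_pr]
  have hec' : B8 (eps 0) (sc k) = 0 := by rw [← hsc, B_eps_pr]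
  obtain ⟨ω, hω, hω'⟩ := witt_three (a := ![eps 0, a, c]) (b := ![eps 0, sa k, sc k])
    (indep_pair h) (indep_pair (sa_sc k))
    (fun i => by fin_cases i <;> simp [hqa, hqc, hqsa, hqsc])
    (fun i j => by
      fin_cases i <;> fin_cases j <;>
        simp [B_self, hea, hec, hB, hea', hec', hsB, B_comm a (eps 0), B_comm c (eps 0), B_comm c a,
          B_comm (sa k) (eps 0), B_comm (sc k) (eps 0), B_comm (sc k) (sa k)])
    (eps 3 + eta 3) (by decide +kernel) (fun i => by
      revert i k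
      intro k
      rcases bit k with rfl | rfl <;> intros <;> rename_i i <;> fin_cases i <;> decide +kernel)
  exact ⟨ω, hω, hω' 0, hω' 1, hω' 2⟩

/-- A totally singular triple is equivalent to the standard one. -/
theorem witt_triple {e e' v' : F8} (h0 : q8 e = 0) (h1 : q8 e' = 0) (h2 : q8 v' = 0)
    (h01 : B8 e e' = 0) (h02 : B8 e v' = 0) (h12 : B8 e' v' = 0)
    (hind : ∀ c, comb ![e, e', v'] c = 0 → c = 0) :
    ∃ ω : O8, ω ∈ Om ∧ ap ω e = eps 0 ∧ ap ω e' = eps 1 ∧ ap ω v' = eps 2 := by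
  have hstd : ∀ i : Fin 4, q8 (eps i) = 0 := by decide +kernel
  have hstd' : ∀ i j : Fin 4, B8 (eps i) (eps j) = 0 := by decide +kernel
  obtain ⟨ω, hω, hω'⟩ := witt_three (a := ![e, e', v']) (b := ![eps 0, eps 1, eps 2]) hind
    (fun c hc => comb_zero_iff (fun c0 c1 c2 h => by
      revert c0 c1 c2; decide +kernel) c hc)
    (fun i => by fin_cases i <;> simp [h0, h1, h2, hstd])
    (fun i j => by
      fin_cases i <;> fin_cases j <;>
        simp [B_self, h01, h02, h12, hstd', B_comm e' e, B_comm v' e, B_comm v' e'])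
    (eps 3 + eta 3) (by decide +kernel) (fun i => by revert i; decide +kernel)
  exact ⟨ω, hω, hω' 0, hω' 1, hω' 2⟩

/-- A vector orthogonal to the first pair with prescribed values on a standard pair. -/
theorem exists_dual : ∀ k i j : ZMod 2, ∃ y : F8, pr y = y ∧ B8 y (sa k) = i ∧ B8 y (sc k) = j := by
  have h : ∀ k i j : ZMod 2,
      (pr (i • eta 1 + j • (if k = 1 then eps 2 else eta 2)) = i • eta 1 + j • (if k = 1 then eps 2 else eta 2)) ∧
      B8 (i • eta 1 + j • (if k = 1 then eps 2 else eta 2)) (sa k) = i ∧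
      B8 (i • eta 1 + j • (if k = 1 then eps 2 else eta 2)) (sc k) = j := by decide +kernel
  exact fun k i j => ⟨_, h k i j⟩

/-- The finite check behind the reduction of involutions of rank four. -/
theorem plane_check : ∀ a a' c c' β β' : ZMod 2,
    a * a' + (a * c' + c * a') + (β * c' + c * β') = 0 → c * c' + (a * c' + c * a') = 0 →
    β * β' = 0 →
    (c = 0 ∧ c' = 0) ∨ (a + β = 0 ∧ a' + β' = 0) ∨ (a + c + β = 0 ∧ a' + c' + β' = 0) := by
  decide +kernel

/-- Membership in the space of the finite check. -/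
def InY (y : F8) : Prop := pr y = y ∧ B8 (eps 1) y = 0 ∧ B8 (eps 2) y = 0

theorem inY_comp {y : F8} (h : InY y) :
    y (.inl 0) = 0 ∧ y (.inr 0) = 0 ∧ y (.inr 1) = 0 ∧ y (.inr 2) = 0 := by
  obtain ⟨hp, h1, h2⟩ := h
  rw [B_eps] at h1 h2
  refine ⟨?_, ?_, h1, h2⟩ <;> rw [← hp] <;> simp [pr]

theorem inY_B {x y : F8} (hx : InY x) (hy : InY y) :
    B8 x y = x (.inl 3) * y (.inr 3) + y (.inl 3) * x (.inr 3) := by
  obtain ⟨-, -, h1, h2⟩ := inY_comp hx
  obtain ⟨-, -, k1, k2⟩ := inY_comp hy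
  obtain ⟨a, b, -⟩ := inY_comp hx
  obtain ⟨a', b', -⟩ := inY_comp hy
  simp [B8, Fin.sum_univ_four, h1, h2, k1, k2, a, b, a', b']

theorem inY_q {x : F8} (hx : InY x) : q8 x = x (.inl 3) * x (.inr 3) := by
  obtain ⟨a, b, h1, h2⟩ := inY_comp hx
  simp [q8, Fin.sum_univ_four, h1, h2, a, b]

theorem inY_add {x y : F8} (hx : InY x) (hy : InY y) : InY (x + y) :=
  ⟨by rw [pr_add, hx.1, hy.1], by rw [B_add_right, hx.2.1, hy.2.1, add_zero],
    by rw [B_add_right, hx.2.2, hy.2.2, add_zero]⟩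

end Cfsg.Agent.H41.CoType
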