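import Cfsg.Agent.H41.CoType.Action
import Cfsg.Agent.H41.CoType.Standard

/-! Every involution is conjugate to `z` or into the radical, as one of two standard elements. -/

set_option autoImplicit false
set_option linter.unusedSimpArgs false
set_option linter.unusedSectionVars false

namespace Cfsg.Agent.H41.CoType

open Cfsg.Agent
open Cfsg.Agent.H18 (SingPt OrthPair)

theorem isConj_conj {G : Type*} [Group G] (x t : G) : IsConj t (x * t * x⁻¹) := isConj_iff.2 ⟨x, rfl⟩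

theorem conj_involution {G : Type*} [Group G] {t : G} (h : orderOf t = 2) (x : G) :
    orderOf (x * t * x⁻¹) = 2 := by
  rw [← h]
  exact orderOf_injective (MulAut.conj x).toMonoidHom (MulAut.conj x).injective t

theorem mul_self_of_order_two {G : Type*} [Group G] {t : G} (h : orderOf t = 2) : t * t = 1 := by
  rw [← pow_two, ← h]; exact pow_orderOf_eq_one t

theorem ne_one_of_order_two {G : Type*} [Group G] {t : G} (h : orderOf t = 2) : t ≠ 1 := fun e => by
  rw [e, orderOf_one] at h; exact absurd h (by norm_num)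

namespace Setting

variable {G : Type*} [Group G] [Finite G] (S : Setting G)

/-- Involutions of `F` are conjugate to `z`. -/
theorem isConj_of_mem_F {t : G} (ht : orderOf t = 2) (hF : t ∈ S.F) : IsConj t S.z := by
  by_cases h0 : S.co t = 0
  · rcases S.co_eq t hF h0 with e | e
    · exact absurd e (ne_one_of_order_two ht)
    · rw [e]
  · obtain ⟨g, hg, -⟩ := S.orthPair hF ((S.sq_iff t hF).1 (mul_self_of_order_two ht)) h0
    exact (isConj_iff.2 ⟨g, hg⟩).symm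

/-- The centralizer of `z` contains a Sylow 2-subgroup. -/
theorem exists_conj_mem_C {t : G} (ht : orderOf t = 2) : ∃ x, x * t * x⁻¹ ∈ S.C := by
  haveI : Fact (Nat.Prime 2) := ⟨Nat.prime_two⟩
  have hFC : S.F ≤ S.C := fun x hx => S.F_le_C hx
  obtain ⟨P, hP⟩ := (S.pt.isPGroup_two.of_equiv
    (Subgroup.subgroupOfEquivOfLe hFC).symm).exists_le_sylow
  obtain ⟨T, hT⟩ := (P.isPGroup'.map S.C.subtype).exists_le_sylow
  have hFT : ∀ x ∈ S.F, x ∈ (T : Subgroup G) := fun x hx =>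
    hT ⟨⟨x, hFC hx⟩, hP (Subgroup.mem_subgroupOf.2 hx), rfl⟩
  -- the Sylow subgroup of `C` is its own normalizer within the larger one
  have hTC : (T : Subgroup G) ≤ S.C := by
    by_contra hnot
    set H : Subgroup ↥(T : Subgroup G) := S.C.subgroupOf (T : Subgroup G) with hH
    haveI : Group.IsNilpotent ↥(T : Subgroup G) := T.isPGroup'.isNilpotent
    have hlt : H < Subgroup.normalizer (H : Set _) := Group.normalizerCondition_of_isNilpotent H
      (lt_top_iff_ne_top.2 fun e => hnot (Subgroup.subgroupOf_eq_top.1 e))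
    obtain ⟨n, hn, hnH⟩ := SetLike.exists_of_lt hlt
    refine hnH (Subgroup.mem_subgroupOf.2 (S.mem_C.2 ?_))
    have hzH : (⟨S.z, hFT _ S.pt.mem⟩ : (T : Subgroup G)) ∈ H :=
      Subgroup.mem_subgroupOf.2 (hFC S.pt.mem)
    have hc : ∀ w ∈ S.F, w * ((n : G) * S.z * (n : G)⁻¹) = (n : G) * S.z * (n : G)⁻¹ * w := by
      intro w hw
      have hwH : (⟨w, hFT w hw⟩ : (T : Subgroup G)) ∈ H := Subgroup.mem_subgroupOf.2 (hFC hw)
      have h1 : (⟨(n : G)⁻¹ * w * (n : G), mul_mem (mul_mem (inv_mem n.2) (hFT w hw)) n.2⟩ :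
          (T : Subgroup G)) ∈ H := by
        exact (Subgroup.mem_normalizer_iff''.1 hn _).1 hwH
      have h2 : ((n : G)⁻¹ * w * (n : G)) * S.z = S.z * ((n : G)⁻¹ * w * (n : G)) :=
        S.mem_C.1 (Subgroup.mem_subgroupOf.1 h1)
      calc w * ((n : G) * S.z * (n : G)⁻¹) = (n : G) * (((n : G)⁻¹ * w * n) * S.z) * (n : G)⁻¹ := by group
        _ = _ := by rw [h2]; group
    rcases S.pt.cent _ hc with e | e
    · exact absurd (conj_eq_one_iff.1 e) S.pt.xne
    · exact mul_inv_eq_iff_eq_mul.1 e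
  obtain ⟨T', hT'⟩ := (IsPGroup.of_card (p := 2) (n := 1) (G := Subgroup.zpowers t)
    (by rw [Nat.card_zpowers, ht, pow_one])).exists_le_sylow
  obtain ⟨x, hx⟩ := MulAction.exists_smul_eq G T' T
  refine ⟨x, hTC ?_⟩
  rw [← hx]
  exact Subgroup.smul_mem_pointwise_smul t (MulAut.conj x) _ (hT' (Subgroup.mem_zpowers t))

end Setting

namespace Frame

variable {G : Type*} [Group G] [Finite G] (T : Frame G)

theorem exists_t0 : ∃ t0, ∃ h0 : t0 ∈ T.D, t0 * t0 = 1 ∧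
    (∀ y, ap (T.im (T.D_le_C h0)) y + y = B8 (eps 2) y • eps 1 + B8 (eps 1) y • eps 2) ∧
    ∀ p ∈ T.P, B8 (eps 1) (T.S.co p) = 0 → B8 (eps 2) (T.S.co p) = 0 → t0 * p = p * t0 := by
  obtain ⟨ω, hω, hω0, hω1, hω2⟩ := witt_triple (e := eps 1) (e' := eps 2) (v' := eps 0)
    (by decide +kernel) (by decide +kernel) (by decide +kernel) (by decide +kernel) (by decide +kernel)
    (by decide +kernel) (fun c hc => comb_zero_iff (fun c0 c1 c2 h => by
      revert c0 c1 c2; decide +kernel) c hc)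
  obtain ⟨c, hc, hρ⟩ := T.S.exists_rho hω
  obtain ⟨w, hw, hwc⟩ := T.exists_ph (eps 1) (by decide +kernel)
  have hwD := T.P'_le_D hw
  have hwC := T.D_le_C hwD
  obtain ⟨τ, hτdef⟩ : ∃ τ, τ = T.im hwC := ⟨_, rfl⟩
  have hτη : ap τ (eta 0) = eta 0 + eps 1 := by
    have h1 : pr (ap τ (eta 0)) = eps 1 := by rw [hτdef, ← hwc]; exact T.im_R_eta (T.isCl_P' hw)
    have he : ap τ (eps 0) = eps 0 := by rw [hτdef]; exact T.rho_D hwD
    have h2 : B8 (eps 0) (ap τ (eta 0) + eta 0) = 0 := by rw [B_add_right, B_fix he, two0]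
    have h3 : pr (ap τ (eta 0) + eta 0 + eps 1) = 0 := by
      rw [pr_add, pr_add, h1, pr_eta, add_zero, show pr (eps 1) = eps 1 by decide +kernel, two8]
    rcases pr_eq_zero (by rw [B_add_right, h2]; decide +kernel) h3 with e | e
    · have := eq_of_add8 e
      rw [← this, add_comm (ap τ _), ← add_assoc, two8, zero_add]
    · exfalso
      have hq := ap_q τ (eta 0)
      rw [show ap τ (eta 0) = eps 0 + (eta 0 + eps 1) by
        rw [← e]; abel_nf; simp [two_smul, two8, show ((2 : ℤ) • eta 0 : F8) = 0 by rw [two_smul, two8],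
          show ((2 : ℤ) • eps 1 : F8) = 0 by rw [two_smul, two8]]] at hq
      exact absurd hq (by decide +kernel)
  have hτ : ∀ x, ap τ x + x = B8 (eps 1) x • eps 0 + B8 (eps 0) x • eps 1 := by
    intro x
    have hx0 : B8 (eps 0) (x + B8 (eps 0) x • eta 0) = 0 := by
      rw [B_add_right, B_smul_right, show B8 (eps 0) (eta 0) = 1 by decide +kernel, mul_one, two0]
    have h1 := T.im_R (T.isCl_P' hw) hx0
    rw [← hτdef, ap_add, ap_smul, hτη, hwc, smul_add] at h1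
    rw [B_add_left, B_smul_left, show B8 (eta 0) (eps 1) = 0 by decide +kernel, mul_zero, add_zero,
      B_comm x] at h1
    rw [← h1]
    generalize B8 (eps 0) x = k
    rcases bit k with rfl | rfl
    · simp
    · simp only [one_smul]
      rw [show ap τ x + (eta 0 + eps 1) + (x + eta 0) + eps 1 =
        (ap τ x + x) + (eta 0 + eta 0) + (eps 1 + eps 1) by abel, two8, two8, add_zero, add_zero]
  have hcz : c * T.z = T.z * c := T.S.mem_C.1 hc
  have hci : c⁻¹ ∈ T.S.C := inv_mem hc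
  have hωi : ∀ {x y : F8}, ap ω x = y → ap (ω⁻¹ : O8) y = x := fun h => by
    rw [← h, ← ap_mul, inv_mul_cancel, ap_one]
  have hρi : T.im hci = ω⁻¹ := by
    rw [Frame.im, ← hρ, ← map_inv]; rfl
  have hbc : c * T.b * c⁻¹ ∈ T.P := T.mem_P.2 ⟨T.S.norm hc T.b_mem, by
    rw [T.co_conj hc T.b_mem, T.hb, Frame.im, hρ, hω2]; decide +kernel⟩
  have hb0 : (c⁻¹ * w * c) ∈ T.D := by
    refine T.mem_D.2 ⟨T.S.mem_C.1 (mul_mem (mul_mem hci hwC) hc), ?_⟩
    have hcl : T.cl (c * T.b * c⁻¹) = eps 2 := by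
      rw [cl, T.co_conj hc T.b_mem, T.hb, Frame.im, hρ, hω2]; decide +kernel
    have h := T.comm_PP' hbc hw
    rw [hcl, hwc, show B8 (eps 2) (eps 1) = 0 by decide +kernel, vv_zero, one_mul] at h
    calc c⁻¹ * w * c * T.b = c⁻¹ * (w * (c * T.b * c⁻¹)) * c := by group
      _ = T.b * (c⁻¹ * w * c) := by rw [← h]; simp only [Frame.b]; group
  refine ⟨c⁻¹ * w * c, hb0, ?_, fun y => ?_, fun p hp h1 h2 => ?_⟩
  · rw [show c⁻¹ * w * c * (c⁻¹ * w * c) = c⁻¹ * (w * w) * c by group, T.sq_P' hw, hwc,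
      show q8 (eps 1) = 0 by decide +kernel, bp_zero]
    group
  · have him : T.im (T.D_le_C hb0) = ω⁻¹ * τ * ω := by
      have e1 := T.im_mul (mul_mem hci hwC) hc
      rw [T.im_mul hci hwC, hρi, ← hτdef, show T.im hc = ω from hρ] at e1
      exact e1
    rw [him, ap_mul, ap_mul]
    have h := hτ (ap ω y)
    have h' := congrArg (ap (ω⁻¹ : O8)) h
    rw [ap_add, ap_add, ap_smul, ap_smul, hωi hω0, hωi hω1, ← ap_mul ω⁻¹ ω, inv_mul_cancel,
      ap_one, show B8 (eps 0) (ap ω y) = B8 (eps 1) y by conv_lhs => rw [← hω0, ap_B],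
      show B8 (eps 1) (ap ω y) = B8 (eps 2) y by conv_lhs => rw [← hω1, ap_B]] at h'
    exact h'
  · have hcp : c * p * c⁻¹ ∈ T.P := T.mem_P.2 ⟨T.S.norm hc hp.1, by
      rw [T.co_conj hc hp.1, Frame.im, hρ, ← hω0, ap_B, h1]⟩
    have hcl : B8 (T.cl (c * p * c⁻¹)) (eps 1) = 0 := by
      rw [cl, T.co_conj hc hp.1, Frame.im, hρ, B_comm, B_eps,
        show pr (ap ω (T.S.co p)) (.inr 1) = ap ω (T.S.co p) (.inr 1) by simp [pr],
        ← B_eps 1 (ap ω (T.S.co p)), ← hω1, ap_B, h2]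
    have h := T.comm_PP' hcp hw
    rw [hwc, hcl, vv_zero, one_mul] at h
    calc c⁻¹ * w * c * p = c⁻¹ * (w * (c * p * c⁻¹)) * c := by group
      _ = p * (c⁻¹ * w * c) := by rw [← h]; group

/-- Enough elements of the second singular group fixed modulo `b` give a small conjugate. -/
theorem conj_small {t : G} (ht : t ∈ T.D)
    (hfix : ∀ w ∈ T.P', InY (T.ph w) → ∃ i, t * w * t⁻¹ = T.bp i * w) :
    ∃ t', ∃ ht' : t' ∈ T.S.C, IsConj t t' ∧ 16 < Set.ncard {x | ap (T.im ht') x = x} := by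
  classical
  have htb := (T.mem_D.1 ht).2
  have hC : T.g⁻¹ * t * T.g ∈ T.S.C := T.S.mem_C.2 (by
    calc T.g⁻¹ * t * T.g * T.z = T.g⁻¹ * (t * T.b) * T.g := by group
      _ = _ := by rw [htb]; group)
  refine ⟨T.g⁻¹ * t * T.g, hC, isConj_iff.2 ⟨T.g⁻¹, by group⟩, ?_⟩
  have hU : Nat.card {y : F8 // InY y} = 16 := by
    unfold InY
    rw [Nat.card_eq_fintype_card]; decide +kernel
  choose lift hlP hlc using fun y : {y : F8 // InY y} => T.exists_ph y.1 y.2.1
  let W := ZMod 2 × ZMod 2 × {y : F8 // InY y}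
  let el : W → G := fun k => T.vv k.1 k.2.1 * lift k.2.2
  have helP : ∀ k, el k ∈ T.P' := fun k => mul_mem (T.four_le_P' (T.vv_mem _ _)) (hlP _)
  have helc : ∀ k, T.ph (el k) = k.2.2.1 := fun k => by
    rw [T.ph_mul (T.four_le_P' (T.vv_mem _ _)) (hlP _), ph_vv, zero_add, hlc]
  have helinj : Function.Injective el := by
    intro k k' h
    have h2 : k.2.2 = k'.2.2 := Subtype.ext (by rw [← helc k, ← helc k', h])
    simp only [el] at h
    rw [h2] at h
    obtain ⟨e1, e2⟩ := T.vv_inj (mul_right_cancel h)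
    exact Prod.ext e1 (Prod.ext e2 h2)
  have hback : ∀ k, T.g⁻¹ * el k * T.g ∈ T.S.F := fun k => by
    obtain ⟨q, hq, e⟩ := (helP k).1
    have e' : T.g * q * T.g⁻¹ = el k := e
    rw [← e']
    rw [show T.g⁻¹ * (T.g * q * T.g⁻¹) * T.g = q by group]
    exact hq
  let f : W → {x // ap (T.im hC) x = x} := fun k => ⟨T.S.co (T.g⁻¹ * el k * T.g), by
    obtain ⟨i, hi⟩ := hfix _ (helP k) (by rw [helc]; exact k.2.2.2)
    rw [← T.co_conj hC (hback k)]
    have e : T.g⁻¹ * t * T.g * (T.g⁻¹ * el k * T.g) * (T.g⁻¹ * t * T.g)⁻¹ =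
        T.S.zp i * (T.g⁻¹ * el k * T.g) := by
      calc T.g⁻¹ * t * T.g * (T.g⁻¹ * el k * T.g) * (T.g⁻¹ * t * T.g)⁻¹
          = (T.g⁻¹ * (t * el k * t⁻¹) * T.g) := by group
        _ = (T.g⁻¹ * T.bp i * T.g) * (T.g⁻¹ * el k * T.g) := by rw [hi]; group
        _ = _ := by
          congr 1
          rcases bit i with rfl | rfl
          · rw [bp_zero, Setting.zp_zero]; group
          · rw [bp_one, Setting.zp_one]; group
    rw [e, T.S.co_mul _ (T.S.zp_mem i) _ (hback k), T.S.co_zp, zero_add]⟩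
  have hfib : ∀ k, ∀ k', f k = f k' → ∃ i, el k' = el k * T.bp i := fun k k' h => by
    obtain ⟨i, hi⟩ := T.S.exists_zp (hback k) (hback k') (congrArg Subtype.val h)
    refine ⟨i, ?_⟩
    calc el k' = T.g * (T.g⁻¹ * el k' * T.g) * T.g⁻¹ := by group
      _ = el k * (T.g * T.S.zp i * T.g⁻¹) := by rw [hi]; group
      _ = _ := by
        congr 1
        rcases bit i with rfl | rfl
        · rw [bp_zero, Setting.zp_zero]; group
        · rw [bp_one, Setting.zp_one]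
  have key : Nat.card W ≤ Nat.card ({x // ap (T.im hC) x = x} × ZMod 2) := by
    choose pre hpre using fun x : Set.range f => x.2
    have hex : ∀ k : W, ∃ i, el k = el (pre ⟨f k, k, rfl⟩) * T.bp i := fun k =>
      hfib _ k (hpre ⟨f k, k, rfl⟩)
    choose ex hexk using hex
    refine Nat.card_le_card_of_injective (fun k => (f k, ex k)) fun k k' h => helinj ?_
    simp only [Prod.mk.injEq] at h
    have e : (⟨f k, k, rfl⟩ : Set.range f) = ⟨f k', k', rfl⟩ := Subtype.ext h.1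
    rw [hexk k, hexk k', e, h.2]
  simp only [W, Nat.card_prod, Nat.card_zmod, hU] at key
  have e : Nat.card {x // ap (T.im hC) x = x} = Set.ncard {x | ap (T.im hC) x = x} :=
    Nat.card_coe_set_eq {x | ap (T.im hC) x = x}
  omega

/-- The reduction of an involution of rank four. -/
theorem rank_four {t : G} (htord : orderOf t = 2) (ht : t ∈ T.D)
    (hform : ∀ y, B8 (eps 0) y = 0 → ∃ c : ZMod 2, ap (T.im (T.D_le_C ht)) y + y =
      c • eps 0 + B8 (eps 1) y • eps 2 + B8 (eps 2) y • eps 1)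
    (hsmall : Set.ncard {x | ap (T.im (T.D_le_C ht)) x = x} ≤ 16) :
    ∃ t', ∃ ht' : t' ∈ T.S.C, IsConj t t' ∧ 16 < Set.ncard {x | ap (T.im ht') x = x} := by
  classical
  obtain ⟨t0, h0, ht0, him0, hP0⟩ := T.exists_t0
  have ht2 := mul_self_of_order_two htord
  have hinv0 : t0⁻¹ = t0 := inv_eq_of_mul_eq_one_right ht0
  have htt0 := mul_mem ht h0
  have hrR : t * t0 ∈ T.R := by
    refine T.mem_R_of_trivial htt0 fun y hy => ?_
    rw [show T.im (T.D_le_C htt0) = T.im (T.D_le_C ht) * T.im (T.D_le_C h0) from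
      T.im_mul (T.D_le_C ht) (T.D_le_C h0), ap_mul]
    have h1 := him0 y
    rw [show ap (T.im (T.D_le_C h0)) y = y + (B8 (eps 2) y • eps 1 + B8 (eps 1) y • eps 2) by
      rw [← h1, add_comm (ap (T.im (T.D_le_C h0)) y), ← add_assoc, two8, zero_add], ap_add, ap_add,
      ap_smul, ap_smul]
    obtain ⟨c, hc⟩ := hform y hy
    obtain ⟨c1, hc1⟩ := hform (eps 1) (by decide +kernel)
    obtain ⟨c2, hc2⟩ := hform (eps 2) (by decide +kernel)
    rw [show B8 (eps 1) (eps 1) = 0 by decide +kernel, show B8 (eps 2) (eps 1) = 0 by decide +kernel,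
      zero_smul, zero_smul, add_zero, add_zero] at hc1
    rw [show B8 (eps 1) (eps 2) = 0 by decide +kernel, show B8 (eps 2) (eps 2) = 0 by decide +kernel,
      zero_smul, zero_smul, add_zero, add_zero] at hc2
    rw [show ap (T.im (T.D_le_C ht)) y = y + (c • eps 0 + B8 (eps 1) y • eps 2 + B8 (eps 2) y • eps 1) by
        rw [← hc, add_comm (ap (T.im (T.D_le_C ht)) y), ← add_assoc, two8, zero_add],
      show ap (T.im (T.D_le_C ht)) (eps 1) = eps 1 + c1 • eps 0 by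
        rw [← hc1, add_comm (ap (T.im (T.D_le_C ht)) (eps 1)), ← add_assoc, two8, zero_add],
      show ap (T.im (T.D_le_C ht)) (eps 2) = eps 2 + c2 • eps 0 by
        rw [← hc2, add_comm (ap (T.im (T.D_le_C ht)) (eps 2)), ← add_assoc, two8, zero_add]]
    generalize B8 (eps 1) y = β1
    generalize B8 (eps 2) y = β2
    rcases bit β1 with rfl | rfl <;> rcases bit β2 with rfl | rfl <;>
      rcases bit c with rfl | rfl <;> rcases bit c1 with rfl | rfl <;> rcases bit c2 with rfl | rfl <;>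
      simp [pr_add, pr_zero, pr_eps, show pr (eps 1) = eps 1 by decide +kernel,
        show pr (eps 2) = eps 2 by decide +kernel] <;> abel_nf <;> simp [two_smul, two8]
  obtain ⟨r, hr⟩ : ∃ r, r = t * t0 := ⟨_, rfl⟩
  rw [← hr] at hrR
  have ht_eq : t = r * t0 := by rw [hr, mul_assoc, ht0, mul_one]
  obtain ⟨a, c, hcl⟩ := T.exists_isCl hrR
  obtain ⟨hpa, hpc⟩ := T.isCl_pr hcl
  have hfixY : ∀ y, pr y = y → pr (ap (T.im (T.D_le_C h0)) y) = y → InY y := by
    intro y hy hfy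
    have h := congrArg pr (him0 y)
    rw [pr_add, hfy, hy, two8, pr_add] at h
    refine ⟨hy, ?_⟩
    revert h
    generalize B8 (eps 1) y = β1
    generalize B8 (eps 2) y = β2
    revert β1 β2
    decide +kernel
  have hYfix : ∀ y, InY y → pr (ap (T.im (T.D_le_C h0)) y) = y := by
    intro y hy
    have h := him0 y
    rw [hy.2.1, hy.2.2, zero_smul, zero_smul, add_zero] at h
    rw [eq_of_add8 h, hy.1]
  have hinv : t0 * r * t0⁻¹ = r⁻¹ := by
    rw [eq_comm, inv_eq_of_mul_eq_one_right]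
    calc r * (t0 * r * t0⁻¹) = (r * t0) * (r * t0) := by rw [hinv0]; group
      _ = 1 := by rw [← ht_eq, ht2]
  have hYac : InY a ∧ InY c := by
    have h1 := T.isCl_conj h0 hcl
    rw [hinv] at h1
    obtain ⟨e1, e2⟩ := T.isCl_uniq h1 (T.isCl_inv hcl)
    exact ⟨hfixY a hpa e1, hfixY c hpc e2⟩
  -- transvections applied to the auxiliary involution
  obtain ⟨i0, hi0⟩ : ∃ i, T.u * t0 * T.u⁻¹ = T.S.zp i * t0 := by
    have hmem : T.u * (t0 * T.u⁻¹ * t0⁻¹) ∈ T.S.F :=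
      mul_mem T.hu (T.S.norm (T.D_le_C h0) (inv_mem T.hu))
    obtain ⟨i, hi⟩ := T.S.exists_zp_of_co hmem (by
      rw [T.S.co_mul _ T.hu _ (T.S.norm (T.D_le_C h0) (inv_mem T.hu)), T.u_inv,
        T.co_conj (T.D_le_C h0) T.hu, T.hcu, add_comm, him0]
      decide +kernel)
    exact ⟨i, by rw [← hi]; group⟩
  obtain ⟨κ, hκ⟩ : ∃ κ, κ = T.v * t0 * T.v⁻¹ * t0⁻¹ := ⟨_, rfl⟩
  have hκP : κ ∈ T.P' := by
    rw [hκ]
    refine ⟨?_, Subgroup.mem_centralizer_singleton_iff.2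
      (T.mem_D.1 (mul_mem (T.o.conj_CV (T.o.X_le_normalizer T.v_mem_X) h0) (inv_mem h0))).1⟩
    rw [show T.v * t0 * T.v⁻¹ * t0⁻¹ = T.v * (t0 * T.v⁻¹ * t0⁻¹) by group]
    exact mul_mem T.hv (T.o.CV_norm_F' h0 (inv_mem T.hv))
  -- the action of the auxiliary involution on the fixed part of `P'`
  have hw0 : ∀ w ∈ T.P', InY (T.ph w) → t0 * w * t0⁻¹ = T.vv (B8 (T.ph κ) (T.ph w)) 0 * w := by
    intro w hw hY
    have hwcl := T.isCl_P' hw
    have h1 := T.isCl_conj h0 hwcl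
    rw [ap_zero, pr_zero, hYfix _ hY] at h1
    obtain ⟨m, n, hmn⟩ := T.isCl_eq hwcl h1
    obtain ⟨φ, hφ⟩ : ∃ φ, φ = T.u * w * T.u⁻¹ * w⁻¹ := ⟨_, rfl⟩
    have hφP : φ ∈ T.P := hφ ▸ T.uw_mem hw
    have hn : n = 0 := by
      have hB : ∀ x : F8, InY (pr x) → B8 (eps 1) x = 0 ∧ B8 (eps 2) x = 0 := by
        intro x hx
        obtain ⟨-, g1, g2⟩ := hx
        rw [B_eps] at g1 g2 ⊢
        rw [B_eps]
        simp [pr] at g1 g2
        exact ⟨g1, g2⟩
      obtain ⟨hB1, hB2⟩ := hB (T.S.co φ) (by rw [hφ]; exact hY)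
      have hfφ : t0 * φ * t0⁻¹ = φ := by rw [hP0 φ hφP hB1 hB2, mul_inv_cancel_right]
      have e1 : T.u * (t0 * w * t0⁻¹) * T.u⁻¹ = T.vv (m + n) n * (φ * w) := by
        rw [hmn, ← T.u_vv, hφ]; group
      have e2 : T.u * (t0 * w * t0⁻¹) * T.u⁻¹ = T.vv m n * (φ * w) := by
        calc T.u * (t0 * w * t0⁻¹) * T.u⁻¹
            = (T.u * t0 * T.u⁻¹) * (T.u * w * T.u⁻¹) * (T.u * t0 * T.u⁻¹)⁻¹ := by group
          _ = T.S.zp i0 * ((t0 * φ * t0⁻¹) * (t0 * w * t0⁻¹)) * (T.S.zp i0)⁻¹ := by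
            rw [hi0, hφ]; group
          _ = (T.S.zp i0 * φ * T.vv m n) * w * (T.S.zp i0)⁻¹ := by rw [hfφ, hmn]; group
          _ = T.vv m n * (φ * w) := by
            rw [mul_assoc (T.S.zp i0), T.vv_comm (T.P_le_D hφP), mul_assoc (T.S.zp i0), ← T.S.zp_comm i0
              ((T.mem_D.1 (mul_mem (mul_mem (T.o.mem_CV_iff.2 (T.mem_D.1 (T.R_le_D (T.P_le_R
                (T.four_le_P (T.vv_mem m n)))))) (T.P_le_D hφP)) (T.P'_le_D hw))).1)]
            group
      have h3 := (T.vv_inj (mul_right_cancel (e1.symm.trans e2))).1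
      linear_combination h3
    subst hn
    suffices m = B8 (T.ph κ) (T.ph w) by rw [← this]; exact hmn
    obtain ⟨k, hk⟩ : ∃ k, T.v * w * T.v⁻¹ = T.bp k * w := by
      rcases T.o.h'.pair (T.o.h'.comm T.hv hw.1) with e | e
      · exact ⟨0, by rw [bp_zero, one_mul]; rwa [mul_inv_eq_one] at e⟩
      · exact ⟨1, by rw [bp_one, show T.b = T.v * w * T.v⁻¹ * w⁻¹ from e.symm, inv_mul_cancel_right]⟩
    have hbk : T.bp k = T.vv 0 k := by rw [vv, Setting.zp_zero, one_mul]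
    have e1 : T.v * (t0 * w * t0⁻¹) * T.v⁻¹ = T.vv m m * (T.bp k * w) := by
      rw [hmn, ← hk, show T.vv m m = T.v * T.vv m 0 * T.v⁻¹ by rw [T.v_vv, add_zero]]
      group
    have e2 : T.v * (t0 * w * t0⁻¹) * T.v⁻¹ = T.vv m (B8 (T.ph κ) (T.ph w)) * (T.bp k * w) := by
      have hκD := T.P'_le_D hκP
      calc T.v * (t0 * w * t0⁻¹) * T.v⁻¹ = κ * ((t0 * T.bp k) * w * t0⁻¹) * κ⁻¹ := by
            rw [show (t0 * T.bp k) * w * t0⁻¹ = t0 * (T.bp k * w) * t0⁻¹ by group, ← hk, hκ]; group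
        _ = κ * (T.bp k * (t0 * w * t0⁻¹)) * κ⁻¹ := by rw [hbk, T.vv_comm h0]; group
        _ = (κ * (T.bp k * T.vv m 0)) * w * κ⁻¹ := by rw [hmn]; group
        _ = T.bp k * T.vv m 0 * ((κ * w) * κ⁻¹) := by rw [hbk, vv_mul, T.vv_comm hκD]; group
        _ = T.bp k * T.vv m 0 * (T.bp (B8 (T.ph κ) (T.ph w)) * w) := by
          rw [T.comm_P' hκP hw]; group
        _ = _ := by
          rw [show T.bp (B8 (T.ph κ) (T.ph w)) = T.vv 0 (B8 (T.ph κ) (T.ph w)) by
            rw [vv, Setting.zp_zero, one_mul], hbk, ← mul_assoc, ← mul_assoc, vv_mul, vv_mul, vv_mul]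
          congr 2 <;> ring
    exact (T.vv_inj (mul_right_cancel (e1.symm.trans e2))).2
  have hκinv : t0 * κ * t0⁻¹ = κ⁻¹ := by
    rw [eq_comm, inv_eq_of_mul_eq_one_right]
    rw [hκ, hinv0]
    calc T.v * t0 * T.v⁻¹ * t0 * (t0 * (T.v * t0 * T.v⁻¹ * t0) * t0)
        = T.v * t0 * T.v⁻¹ * (t0 * t0) * T.v * t0 * T.v⁻¹ * (t0 * t0) := by group
      _ = T.v * (t0 * t0) * T.v⁻¹ := by
        conv_lhs => rw [ht0]
        group
      _ = 1 := by rw [ht0]; group
  have hκY : InY (T.ph κ) := by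
    refine hfixY _ (T.ph_pr κ) ?_
    have h1 := T.isCl_conj h0 (T.isCl_P' hκP)
    rw [hκinv] at h1
    exact (T.isCl_uniq h1 (T.isCl_inv (T.isCl_P' hκP))).2
  have hqβ : q8 (T.ph κ) = 0 := by
    have h1 := hw0 κ hκP hκY
    rw [B_self, vv_zero, one_mul, hκinv] at h1
    have h2 : κ * κ = 1 := by nth_rw 1 [← h1]; exact inv_mul_cancel κ
    rw [T.sq_P' hκP] at h2
    rcases bit (q8 (T.ph κ)) with e | e
    · exact e
    · rw [e, bp_one] at h2; exact absurd h2 T.o.h'.xne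
  -- the relations
  have hrel : q8 a + B8 a c + B8 (T.ph κ) c = 0 ∧ q8 c + B8 a c = 0 := by
    obtain ⟨p, hp, w, hw, hpw, hpa', hwc'⟩ := hcl
    have hfp : t0 * p * t0⁻¹ = p := by
      have hY : InY (pr (T.S.co p)) := by rw [show pr (T.S.co p) = a from hpa']; exact hYac.1
      obtain ⟨-, g1, g2⟩ := hY
      rw [B_eps] at g1 g2
      simp [pr] at g1 g2
      rw [hP0 p hp (by rw [B_eps]; exact g1) (by rw [B_eps]; exact g2), mul_inv_cancel_right]
    have h1 : t0 * r * t0⁻¹ = T.vv (B8 (T.ph κ) c) 0 * r := by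
      rw [hpw, show t0 * (p * w) * t0⁻¹ = (t0 * p * t0⁻¹) * (t0 * w * t0⁻¹) by group, hfp,
        hw0 w hw (hwc'.symm ▸ hYac.2), hwc', ← mul_assoc, T.vv_comm (T.P_le_D hp)]
      group
    have h2 : T.vv (q8 a + B8 a c + B8 (T.ph κ) c) (q8 c + B8 a c) = T.vv 0 0 := by
      rw [vv_zero]
      calc T.vv (q8 a + B8 a c + B8 (T.ph κ) c) (q8 c + B8 a c)
          = T.vv (B8 (T.ph κ) c) 0 * (r * r) := by
            rw [T.sq_R ⟨p, hp, w, hw, hpw, hpa', hwc'⟩, vv_mul]; congr 1 <;> ring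
        _ = (t0 * r * t0⁻¹) * r := by rw [h1]; group
        _ = 1 := by rw [hinv, inv_mul_cancel]
    exact T.vv_inj h2
  obtain ⟨hYa, hYc⟩ := hYac
  have hc3 := plane_check (a (.inl 3)) (a (.inr 3)) (c (.inl 3)) (c (.inr 3))
    (T.ph κ (.inl 3)) (T.ph κ (.inr 3))
    (by have := hrel.1; rwa [inY_q hYa, inY_B hYa hYc, inY_B hκY hYc] at this)
    (by have := hrel.2; rwa [inY_q hYc, inY_B hYa hYc] at this)
    (by rwa [inY_q hκY] at hqβ)
  have hw' : ∀ w ∈ T.P', InY (T.ph w) → t * w * t⁻¹ =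
      T.vv (B8 (T.ph κ) (T.ph w) + B8 a (T.ph w)) (B8 c (T.ph w) + B8 a (T.ph w)) * w := by
    intro w hw hY
    have h1 := T.comm_R hcl (T.isCl_P' hw)
    simp only [B_zero_right, B_zero_left, zero_add, add_zero] at h1
    calc t * w * t⁻¹ = r * (t0 * w * t0⁻¹) * r⁻¹ := by rw [ht_eq]; group
      _ = (r * T.vv (B8 (T.ph κ) (T.ph w)) 0) * w * r⁻¹ := by rw [hw0 w hw hY]; group
      _ = T.vv (B8 (T.ph κ) (T.ph w)) 0 * (r * w) * r⁻¹ := by rw [T.vv_comm (T.R_le_D hrR)]; group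
      _ = (T.vv (B8 (T.ph κ) (T.ph w)) 0 * T.vv (B8 a (T.ph w)) (B8 c (T.ph w) + B8 a (T.ph w))) * w := by
        rw [h1]; group
      _ = _ := by rw [vv_mul, zero_add]
  rcases hc3 with ⟨e1, e2⟩ | ⟨e1, e2⟩ | ⟨e1, e2⟩
  · exfalso
    -- too many fixed points
    have hsub : {y : F8 | y (.inr 0) = 0 ∧ y (.inr 1) = 0 ∧ y (.inr 2) = 0} ⊆
        {x | ap (T.im (T.D_le_C ht)) x = x} := by
      rintro y ⟨g0, g1, g2⟩
      obtain ⟨p, hp, hpy⟩ := T.S.co_surj y
      have hpP : p ∈ T.P := T.mem_P.2 ⟨hp, by rw [hpy, B_eps, g0]⟩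
      have hfp : t0 * p * t0⁻¹ = p := by
        rw [hP0 p hpP (by rw [hpy, B_eps, g1]) (by rw [hpy, B_eps, g2]), mul_inv_cancel_right]
      have hY : InY (T.cl p) := by
        refine ⟨T.cl_pr p, ?_, ?_⟩ <;> rw [cl, hpy, B_eps] <;> simp [pr, g1, g2]
      have h1 := T.comm_R hcl (T.isCl_P hpP)
      have hB : B8 (T.cl p) c = 0 := by rw [inY_B hY hYc, e1, e2]; ring
      show ap (T.im (T.D_le_C ht)) y = y
      rw [← hpy, ← T.co_conj (T.D_le_C ht) hp]
      have e : t * p * t⁻¹ = T.vv (B8 a (T.cl p) + B8 a 0 + B8 (T.cl p) c)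
          (B8 c 0 + B8 a 0 + B8 (T.cl p) c) * p := by
        calc t * p * t⁻¹ = r * (t0 * p * t0⁻¹) * r⁻¹ := by rw [ht_eq]; group
          _ = r * p * r⁻¹ := by rw [hfp]
          _ = _ := by rw [h1]; group
      rw [e, T.S.co_mul _ (T.vv_mem_F _ _) _ hp, co_vv, B_zero_right, B_zero_right, hB, zero_add,
        add_zero, zero_smul, zero_add]
    have h32 : Set.ncard {y : F8 | y (.inr 0) = 0 ∧ y (.inr 1) = 0 ∧ y (.inr 2) = 0} = 32 := by
      rw [Set.ncard_eq_toFinset_card']; decide +kernel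
    have := Set.ncard_le_ncard hsub (Set.toFinite _)
    omega
  · refine T.conj_small ht fun w hw hY => ?_
    refine ⟨B8 c (T.ph w) + B8 a (T.ph w), ?_⟩
    rw [hw' w hw hY, show B8 (T.ph κ) (T.ph w) + B8 a (T.ph w) = 0 by
      rw [inY_B hκY hY, inY_B hYa hY]
      linear_combination (T.ph w (.inr 3)) * e1 + (T.ph w (.inl 3)) * e2,
      vv, Setting.zp_zero, one_mul]
  · have huC := T.S.F_le_C T.hu
    have hnorm : T.u * t * T.u⁻¹ ∈ T.D := T.o.conj_CV (T.o.X_le_normalizer T.u_mem_X) ht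
    suffices h : ∀ w ∈ T.P', InY (T.ph w) →
        ∃ i, (T.u * t * T.u⁻¹) * w * (T.u * t * T.u⁻¹)⁻¹ = T.bp i * w by
      obtain ⟨t', ht', hcj, h32⟩ := T.conj_small hnorm h
      exact ⟨t', ht', (isConj_conj T.u t).trans hcj, h32⟩
    intro w hw hY
    obtain ⟨φ, hφ⟩ : ∃ φ, φ = T.u * w * T.u⁻¹ * w⁻¹ := ⟨_, rfl⟩
    have hφP : φ ∈ T.P := hφ ▸ T.uw_mem hw
    have hclφ : T.cl φ = T.ph w := by rw [hφ]; rfl
    obtain ⟨-, g1, g2⟩ := id (hclφ ▸ hY : InY (T.cl φ))
    rw [cl, B_eps] at g1 g2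
    simp [pr] at g1 g2
    have hfφ : t0 * φ * t0⁻¹ = φ := by
      rw [hP0 φ hφP (by rw [B_eps]; exact g1) (by rw [B_eps]; exact g2), mul_inv_cancel_right]
    have hφt : t * φ * t⁻¹ = T.vv (B8 a (T.ph w) + B8 (T.ph w) c) (B8 (T.ph w) c) * φ := by
      have h1 := T.comm_R hcl (T.isCl_P hφP)
      simp only [B_zero_right, add_zero, zero_add, hclφ] at h1
      calc t * φ * t⁻¹ = r * (t0 * φ * t0⁻¹) * r⁻¹ := by rw [ht_eq]; group
        _ = r * φ * r⁻¹ := by rw [hfφ]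
        _ = _ := by rw [h1]; group
    set i := B8 a (T.ph w) with hi
    have hz : B8 (T.ph κ) (T.ph w) = i + B8 c (T.ph w) := by
      rw [hi, inY_B hκY hY, inY_B hYa hY, inY_B hYc hY]
      linear_combination (T.ph w (.inr 3)) * e1 + (T.ph w (.inl 3)) * e2 -
        two0 (a (.inl 3) * T.ph w (.inr 3) + T.ph w (.inl 3) * a (.inr 3) +
          c (.inl 3) * T.ph w (.inr 3) + T.ph w (.inl 3) * c (.inr 3))
    have hboth : t * (φ * w) * t⁻¹ = T.vv i i * (φ * w) := by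
      calc t * (φ * w) * t⁻¹ = (t * φ * t⁻¹) * (t * w * t⁻¹) := by group
        _ = T.vv (i + B8 (T.ph w) c) (B8 (T.ph w) c) *
            (φ * T.vv (B8 (T.ph κ) (T.ph w) + i) (B8 c (T.ph w) + i)) * w := by
          rw [hφt, hw' w hw hY]; simp only [hi]; group
        _ = (T.vv (i + B8 (T.ph w) c) (B8 (T.ph w) c) *
            T.vv (B8 (T.ph κ) (T.ph w) + i) (B8 c (T.ph w) + i)) * (φ * w) := by
          rw [T.vv_comm (T.P_le_D hφP)]; group
        _ = _ := by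
          rw [vv_mul, hz, B_comm (T.ph w) c]
          congr 2 <;> (generalize i = x; generalize B8 c (T.ph w) = y; revert x y; decide)
    refine ⟨i, ?_⟩
    have huu := T.u_inv
    calc T.u * t * T.u⁻¹ * w * (T.u * t * T.u⁻¹)⁻¹ = T.u * (t * (T.u⁻¹ * w * T.u) * t⁻¹) * T.u⁻¹ := by group
      _ = T.u * (t * (φ * w) * t⁻¹) * T.u⁻¹ := by
        rw [hφ]; simp only [huu]; group
      _ = T.u * (T.vv i i * (φ * w)) * T.u⁻¹ := by rw [hboth]
      _ = (T.u * T.vv i i * T.u⁻¹) * ((T.u * T.u) * w * (T.u⁻¹ * T.u⁻¹)) := by rw [hφ]; group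
      _ = _ := by
        rw [T.u_vv, two0, huu, T.uu, vv, Setting.zp_zero]; group

/-- An involution in `C` with many fixed points is conjugate to `z` or lies, up to conjugacy,
in the radical. -/
theorem of_large {t : G} (ht : orderOf t = 2) (hC : t ∈ T.S.C)
    (hlarge : 16 < Set.ncard {x | ap (T.im hC) x = x}) :
    IsConj t T.z ∨ ∃ r ∈ T.R, IsConj t r := by
  have ht2 := mul_self_of_order_two ht
  by_cases hone : T.im hC = 1
  · exact Or.inl (T.S.isConj_of_mem_F ht ((T.S.rho_eq_one hC).1 hone))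
  have hinv : ∀ x, ap (T.im hC) (ap (T.im hC) x) = x := fun x => by
    rw [← ap_mul, ← T.im_mul]
    have : T.im (mul_mem hC hC) = 1 := (T.S.rho_eq_one _).2 (by rw [ht2]; exact one_mem _)
    rw [this, ap_one]
  rcases involution_struct (show T.im hC ∈ Om from T.S.rho_mem hC) hinv hone with
    ⟨e, u, he0, heq, hu, hfe, hform⟩ | ⟨h16, -⟩
  · right
    obtain ⟨ω, hω, hωe⟩ := witt_one he0 heq
    obtain ⟨c, hc, hρ⟩ := T.S.exists_rho hω
    have hC1 : c * t * c⁻¹ ∈ T.S.C := mul_mem (mul_mem hc hC) (inv_mem hc)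
    have hρc : T.im hc = ω := hρ
    have him : ∀ x, ap (T.im hC1) (ap ω x) = ap ω (ap (T.im hC) x) := fun x => by
      have e1 : T.im hC1 * T.im hc = T.im hc * T.im hC := by
        rw [← T.im_mul, ← T.im_mul]; congr 1; group
      rw [← hρc, ← ap_mul, e1, ap_mul]
    obtain ⟨x, hx, hxu⟩ := T.S.co_surj (ap ω u)
    obtain ⟨t1, ht1⟩ : ∃ t1, t1 = c * t * c⁻¹ := ⟨_, rfl⟩
    have ht1s : t1 * t1 = 1 := by rw [ht1, conj_mul, ht2]; group
    have hC1' : t1 ∈ T.S.C := ht1 ▸ hC1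
    obtain ⟨m, hm⟩ : ∃ m, m = x⁻¹ * (t1 * x * t1⁻¹) := ⟨_, rfl⟩
    have hmF : m ∈ T.S.F := hm ▸ mul_mem (inv_mem hx) (T.S.norm hC1' hx)
    have hmco : T.S.co m = eps 0 := by
      rw [hm, T.S.co_mul _ (inv_mem hx) _ (T.S.norm hC1' hx), T.S.co_inv hx, T.co_conj hC1' hx,
        show T.im hC1' = T.im hC1 by subst ht1; rfl, hxu, him, ← ap_add, add_comm, hu, hωe]
    have hm2 : m * m = 1 := (T.S.sq_iff m hmF).2 (by rw [hmco]; decide +kernel)
    have hmc : t1 * m = m * t1 := by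
      have ht1i : t1⁻¹ = t1 := inv_eq_of_mul_eq_one_right ht1s
      have h1 : t1 * m * t1 = m⁻¹ := by
        rw [hm, ht1i]
        calc t1 * (x⁻¹ * (t1 * x * t1)) * t1 = t1 * x⁻¹ * t1 * x * (t1 * t1) := by group
          _ = (x⁻¹ * (t1⁻¹ * x * t1⁻¹))⁻¹ := by rw [ht1s]; group
          _ = _ := by rw [ht1i]
      calc t1 * m = t1 * m * (t1 * t1) := by rw [ht1s, mul_one]
        _ = (t1 * m * t1) * t1 := by group
        _ = m * t1 := by rw [h1, inv_eq_of_mul_eq_one_right hm2]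
    obtain ⟨i, hi⟩ := T.S.exists_zp hmF T.b_mem (by rw [hmco, T.hb])
    have hD : c * t * c⁻¹ ∈ T.D := by
      rw [← ht1]
      refine T.mem_D.2 ⟨T.S.mem_C.1 hC1', ?_⟩
      rw [hi, ← mul_assoc, hmc, mul_assoc, T.S.zp_comm i (T.S.mem_C.1 hC1'), mul_assoc]
    refine ⟨c * t * c⁻¹, T.mem_R_of_trivial hD fun y hy => ?_, isConj_conj c t⟩
    obtain ⟨y', rfl⟩ := (ω : F8 ≃ₗ[ZMod 2] F8).surjective y
    change B8 (eps 0) (ap ω y') = 0 at hy
    rw [← hωe, ap_B] at hy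
    show pr (ap (T.im hC1) (ap ω y')) = pr (ap ω y')
    rw [him]
    rcases hform y' hy with h | h
    · rw [eq_of_add8 h]
    · rw [show ap (T.im hC) y' = e + y' by rw [← h, add_assoc, two8, add_zero], ap_add, hωe, pr_add,
        pr_eps, zero_add]
  · omega

/-- Every involution is conjugate to `z` or into the radical. -/
theorem exists_conj {t : G} (ht : orderOf t = 2) : IsConj t T.z ∨ ∃ r ∈ T.R, IsConj t r := by
  obtain ⟨x, hx⟩ := T.S.exists_conj_mem_C ht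
  suffices h : IsConj (x * t * x⁻¹) T.z ∨ ∃ r ∈ T.R, IsConj (x * t * x⁻¹) r by
    rcases h with h | ⟨r, hr, h⟩
    · exact Or.inl ((isConj_conj x t).trans h)
    · exact Or.inr ⟨r, hr, (isConj_conj x t).trans h⟩
  obtain ⟨s, hs⟩ : ∃ s, s = x * t * x⁻¹ := ⟨_, rfl⟩
  have hso : orderOf s = 2 := hs ▸ conj_involution ht x
  rw [← hs] at hx ⊢
  clear hs
  have hs2 := mul_self_of_order_two hso
  by_cases hone : T.im hx = 1
  · exact Or.inl (T.S.isConj_of_mem_F hso ((T.S.rho_eq_one hx).1 hone))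
  have hinv : ∀ y, ap (T.im hx) (ap (T.im hx) y) = y := fun y => by
    rw [← ap_mul, ← T.im_mul]
    have : T.im (mul_mem hx hx) = 1 := (T.S.rho_eq_one _).2 (by rw [hs2]; exact one_mem _)
    rw [this, ap_one]
  rcases lt_or_ge 16 (Set.ncard {y | ap (T.im hx) y = y}) with h | h
  · exact T.of_large hso hx h
  rcases involution_struct (show T.im hx ∈ Om from T.S.rho_mem hx) hinv hone with
    ⟨e, u, he0, heq, hu, hfe, hform⟩ | ⟨-, e, e', v', u, hu, q0, q1, q2, b01, b02, b12, hind, f0, f1, f2, hform⟩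
  · exfalso
    -- rank two fixes more
    classical
    have hS : Nat.card {y : F8 // B8 e y = 0} = 128 := by
      obtain ⟨ω, -, hωe⟩ := witt_one he0 heq
      rw [Nat.card_congr ((ω : F8 ≃ₗ[ZMod 2] F8).toEquiv.subtypeEquiv (q := fun y => B8 (eps 0) y = 0)
        fun y => by
          show _ ↔ B8 (eps 0) (ap ω y) = 0
          rw [← hωe, ap_B]), Nat.card_eq_fintype_card]
      decide +kernel
    set fx := {y | ap (T.im hx) y = y} with hfx
    obtain ⟨y0, hy0⟩ : ∃ y0, ∀ y, B8 e y = 0 → y ∉ fx → y + y0 ∈ fx := by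
      by_cases hex : ∃ y0, B8 e y0 = 0 ∧ y0 ∉ fx
      · obtain ⟨y0, h0, h0'⟩ := hex
        refine ⟨y0, fun y hy hy' => ?_⟩
        have e1 := (hform y hy).resolve_left fun h' => hy' (eq_of_add8 h')
        have e2 := (hform y0 h0).resolve_left fun h' => h0' (eq_of_add8 h')
        refine eq_of_add8 ?_
        rw [ap_add, show ap (T.im hx) y + ap (T.im hx) y0 + (y + y0) =
          (ap (T.im hx) y + y) + (ap (T.im hx) y0 + y0) by abel, e1, e2, two8]
      · exact ⟨0, fun y hy hy' => absurd ⟨y, hy, hy'⟩ hex⟩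
    let f : {y : F8 // B8 e y = 0} → fx × ZMod 2 := fun y =>
      if h' : y.1 ∈ fx then (⟨y.1, h'⟩, 0) else (⟨y.1 + y0, hy0 y.1 y.2 h'⟩, 1)
    have hle := Nat.card_le_card_of_injective f fun a b hab => by
      simp only [f] at hab
      split_ifs at hab with ha hb hb
      · exact Subtype.ext (congrArg (fun k : fx × ZMod 2 => (k.1 : F8)) hab)
      · exact absurd (congrArg Prod.snd hab) zero_ne_one
      · exact absurd (congrArg Prod.snd hab) one_ne_zero
      · exact Subtype.ext (add_right_cancel (congrArg (fun k : fx × ZMod 2 => (k.1 : F8)) hab))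
    rw [hS, Nat.card_prod, Nat.card_zmod, Nat.card_coe_set_eq] at hle
    omega
  · obtain ⟨ω, hω, w0, w1, w2⟩ := witt_triple q0 q1 q2 b01 b02 b12 hind
    obtain ⟨c, hc, hρ⟩ := T.S.exists_rho hω
    have hρc : T.im hc = ω := hρ
    have hC1 : c * s * c⁻¹ ∈ T.S.C := mul_mem (mul_mem hc hx) (inv_mem hc)
    have him : ∀ y, ap (T.im hC1) (ap ω y) = ap ω (ap (T.im hx) y) := fun y => by
      have e1 : T.im hC1 * T.im hc = T.im hc * T.im hx := by
        rw [← T.im_mul, ← T.im_mul]; congr 1; group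
      rw [← hρc, ← ap_mul, e1, ap_mul]
    obtain ⟨t1, ht1⟩ : ∃ t1, t1 = c * s * c⁻¹ := ⟨_, rfl⟩
    have ho1 : orderOf t1 = 2 := ht1 ▸ conj_involution hso c
    have ht1s := mul_self_of_order_two ho1
    have ht1i : t1⁻¹ = t1 := inv_eq_of_mul_eq_one_right ht1s
    have hC1' : t1 ∈ T.S.C := ht1 ▸ hC1
    obtain ⟨k, hk, hku⟩ := T.S.co_surj (ap ω u)
    obtain ⟨m, hm⟩ : ∃ m, m = k⁻¹ * (t1 * k * t1⁻¹) := ⟨_, rfl⟩
    have hmF : m ∈ T.S.F := hm ▸ mul_mem (inv_mem hk) (T.S.norm hC1' hk)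
    have hmco : T.S.co m = eps 0 := by
      rw [hm, T.S.co_mul _ (inv_mem hk) _ (T.S.norm hC1' hk), T.S.co_inv hk, T.co_conj hC1' hk,
        show T.im hC1' = T.im hC1 by subst ht1; rfl, hku, him, ← ap_add, add_comm, hu, w0]
    have hm2 : m * m = 1 := (T.S.sq_iff m hmF).2 (by rw [hmco]; decide +kernel)
    have hmc : t1 * m = m * t1 := by
      have h1 : t1 * m * t1 = m⁻¹ := by
        rw [hm, ht1i]
        calc t1 * (k⁻¹ * (t1 * k * t1)) * t1 = t1 * k⁻¹ * t1 * k * (t1 * t1) := by group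
          _ = (k⁻¹ * (t1⁻¹ * k * t1⁻¹))⁻¹ := by rw [ht1s]; group
          _ = _ := by rw [ht1i]
      calc t1 * m = t1 * m * (t1 * t1) := by rw [ht1s, mul_one]
        _ = (t1 * m * t1) * t1 := by group
        _ = m * t1 := by rw [h1, inv_eq_of_mul_eq_one_right hm2]
    obtain ⟨i, hi⟩ := T.S.exists_zp hmF T.b_mem (by rw [hmco, T.hb])
    have hD : c * s * c⁻¹ ∈ T.D := by
      rw [← ht1]
      refine T.mem_D.2 ⟨T.S.mem_C.1 hC1', ?_⟩
      rw [hi, ← mul_assoc, hmc, mul_assoc, T.S.zp_comm i (T.S.mem_C.1 hC1'), mul_assoc]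
    have hform1 : ∀ y, B8 (eps 0) y = 0 → ∃ d : ZMod 2, ap (T.im (T.D_le_C hD)) y + y =
        d • eps 0 + B8 (eps 1) y • eps 2 + B8 (eps 2) y • eps 1 := by
      intro y hy
      obtain ⟨y', rfl⟩ := (ω : F8 ≃ₗ[ZMod 2] F8).surjective y
      change B8 (eps 0) (ap ω y') = 0 at hy
      rw [← w0, ap_B] at hy
      obtain ⟨d, hd⟩ := hform y' hy
      refine ⟨d, ?_⟩
      show ap (T.im hC1) (ap ω y') + ap ω y' = _ + B8 (eps 1) (ap ω y') • _ + B8 (eps 2) (ap ω y') • _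
      rw [him, ← ap_add, hd, ap_add, ap_add, ap_smul, ap_smul, ap_smul, w0, w1, w2]
      conv_rhs => rw [← w1, ← w2, ap_B, ap_B, w1, w2]
    have hsm : Set.ncard {y | ap (T.im (T.D_le_C hD)) y = y} ≤ 16 := by
      refine le_trans ?_ h
      refine Set.ncard_le_ncard_of_injOn (fun y => ap ω⁻¹ y) (fun y hy => ?_)
        (fun a _ b _ hab => ap_inj _ hab) (Set.toFinite _)
      show ap (T.im hx) (ap ω⁻¹ y) = ap ω⁻¹ y
      apply ap_inj ω
      rw [← him, show ap ω (ap ω⁻¹ y) = y by rw [← ap_mul, mul_inv_cancel, ap_one]]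
      exact hy
    obtain ⟨t', ht', hcj, h32⟩ := T.rank_four (conj_involution hso c) hD hform1 hsm
    obtain ⟨y, hy⟩ := isConj_iff.1 hcj
    have hco := (isConj_conj c s).trans hcj
    rcases T.of_large (hy ▸ conj_involution (conj_involution hso c) y) ht' h32 with h' | ⟨r, hr, h'⟩
    · exact Or.inl (hco.trans h')
    · exact Or.inr ⟨r, hr, hco.trans h'⟩

/-- An involution of the radical is conjugate to `z` or has a pair of classes of some type. -/
theorem radical_cases {r : G} (hr : r ∈ T.R) (hord : orderOf r = 2) :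
    IsConj r T.z ∨ ∃ k a c, T.IsCl r a c ∧ IsPair k a c := by
  obtain ⟨a, c, h⟩ := T.exists_isCl hr
  obtain ⟨hpa, hpc⟩ := T.isCl_pr h
  have h2 := T.sq_R h
  rw [mul_self_of_order_two hord, ← T.vv_zero] at h2
  obtain ⟨e1, e2⟩ := T.vv_inj h2
  have hP' : ∀ {w : G}, orderOf w = 2 → w ∈ T.P' → IsConj w T.z := by
    intro w hw hwP
    obtain ⟨q, hq, e⟩ := hwP.1
    have e' : T.g * q * T.g⁻¹ = w := e
    have hc : IsConj q w := isConj_iff.2 ⟨T.g, e'⟩
    refine hc.symm.trans (T.S.isConj_of_mem_F ?_ hq)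
    have : q = T.g⁻¹ * w * T.g⁻¹⁻¹ := by rw [← e']; group
    rw [this]; exact conj_involution hw _
  by_cases hc0 : c = 0
  · subst hc0
    exact Or.inl (T.S.isConj_of_mem_F hord (T.isCl_zero_right h).1.1)
  by_cases ha0 : a = 0
  · subst ha0
    exact Or.inl (hP' hord (T.isCl_zero_left h).1)
  by_cases hac : a = c
  · subst hac
    have h' := T.isCl_conj_u h
    rw [two8] at h'
    exact Or.inl ((isConj_conj T.u r).trans (hP' (conj_involution hord _) (T.isCl_zero_left h').1))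
  refine Or.inr ⟨B8 a c, a, c, h, hpa, hpc, ?_, ?_, rfl, ha0, hc0, hac⟩
  · linear_combination -e1 - two0 (B8 a c)
  · linear_combination -e2 - two0 (B8 a c)

/-- Radical elements with pairs of classes of one type are conjugate. -/
theorem isConj_of_pair {k : ZMod 2} {r r' : G} {a c a' c' : F8} (h : T.IsCl r a c) (hk : IsPair k a c)
    (h' : T.IsCl r' a' c') (hk' : IsPair k a' c') : IsConj r r' := by
  suffices key : ∀ {r : G} {a c : F8}, T.IsCl r a c → IsPair k a c →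
      ∀ {r₀ : G}, T.IsCl r₀ (sa k) (sc k) → IsConj r r₀ by
    obtain ⟨hsa, hsc, -⟩ := id (sa_sc k)
    obtain ⟨r₀, -, hr₀⟩ := T.exists_isCl_of hsa hsc
    exact (key h hk hr₀).trans (key h' hk' hr₀).symm
  intro r a c h hk r₀ hr₀
  obtain ⟨ω, hω, he, hωa, hωc⟩ := witt_pair hk
  obtain ⟨d, hd, him⟩ := T.exists_D hω he
  have h1 := T.isCl_conj hd h
  rw [him, hωa, hωc] at h1
  obtain ⟨hsa, hsc, -⟩ := id (sa_sc k)
  rw [hsa, hsc] at h1
  obtain ⟨i, j, hij⟩ := T.isCl_eq h1 hr₀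
  obtain ⟨y, hy, hya, hyc⟩ := exists_dual k (i + j) j
  obtain ⟨p, hp, hpy⟩ := T.exists_cl y hy
  have hcomm := T.comm_R (T.isCl_P hp) h1
  rw [hpy, hya, hyc, B_zero_left, B_zero_right, add_zero, zero_add, add_zero] at hcomm
  refine ((isConj_conj d r).trans (isConj_iff.2 ⟨p, ?_⟩))
  rw [hij, hcomm]
  rw [show i + j + j = i by rw [add_assoc, two0, add_zero]]
  group

end Frame

end Cfsg.Agent.H41.CoType
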