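import Cfsg.Agent.H41.CoType.Standard

/-! Finite counts for the two types of pairs. -/

set_option autoImplicit false
set_option linter.unusedSimpArgs false

namespace Cfsg.Agent.H41.CoType

/-- A basis of the orthogonal space of the first vector and a standard pair. -/
def xb (k : ZMod 2) : Fin 5 → F8 :=
  ![eps 0, eps 3, eta 3, eps 1 + k • (eta 1 + eps 2), eps 2 + k • eta 2]

theorem xb_mem : ∀ k i, B8 (eps 0) (xb k i) = 0 ∧ B8 (sa k) (xb k i) = 0 ∧ B8 (sc k) (xb k i) = 0 := by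
  decide +kernel

theorem xb_perp : ∀ k : ZMod 2, ∀ y : F8, (∀ i, B8 (xb k i) y = 0) →
    ∃ c0 c1 c2 : ZMod 2, y = c0 • eps 0 + c1 • sa k + c2 • sc k := by
  decide +kernel

/-- Orthogonal to a vector and a standard pair. -/
def InX (k : ZMod 2) (x : F8) : Prop :=
  B8 (eps 0) x = 0 ∧ B8 (sa k) x = 0 ∧ B8 (sc k) x = 0

/-- The dual vector of the second member of a pair. -/
def du (k : ZMod 2) : F8 := if k = 1 then eps 2 else eta 2

theorem du_spec : ∀ k : ZMod 2, B8 (eps 0) (eta 1) = 0 ∧ B8 (eps 0) (du k) = 0 ∧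
    B8 (sa k) (eta 1) = 1 ∧ B8 (sa k) (du k) = 0 ∧ B8 (sc k) (eta 1) = 0 ∧ B8 (sc k) (du k) = 1 ∧
    B8 (sa k) (eta 0) = 0 ∧ B8 (sc k) (eta 0) = 0 ∧ B8 (eps 0) (eta 0) = 1 ∧
    B8 (eps 0) (sc k) = 0 ∧ B8 (sa k) (sc k) = k ∧ B8 (sc k) (sc k) = 0 := by
  decide +kernel

/-- Displacements. -/
def dis (k : ZMod 2) (c : ZMod 2 × ZMod 2 × ZMod 2) : F8 :=
  c.1 • eps 0 + c.2.1 • sa k + c.2.2 • sc k

/-- The constraints on the displacements of an isometry fixing the orthogonal space. -/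
def Good (k : ZMod 2)
    (c : (ZMod 2 × ZMod 2 × ZMod 2) × (ZMod 2 × ZMod 2 × ZMod 2) × (ZMod 2 × ZMod 2 × ZMod 2)) : Prop :=
  q8 (eta 0 + dis k c.1) = q8 (eta 0) ∧ q8 (eta 1 + dis k c.2.1) = q8 (eta 1) ∧
    q8 (du k + dis k c.2.2) = q8 (du k) ∧
    B8 (eta 0 + dis k c.1) (eta 1 + dis k c.2.1) = B8 (eta 0) (eta 1) ∧
    B8 (eta 0 + dis k c.1) (du k + dis k c.2.2) = B8 (eta 0) (du k) ∧
    B8 (eta 1 + dis k c.2.1) (du k + dis k c.2.2) = B8 (eta 1) (du k) ∧
    (k • dis k c.2.1 = 0 ∨ k • dis k c.2.1 = eps 0)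

instance (k : ZMod 2) : DecidablePred (Good k) := fun c => by unfold Good; infer_instance

theorem card_good : ∀ k : ZMod 2, Fintype.card {c // Good k c} ≤ 15 := by decide +kernel

/-- Number of pairs of a type. -/
def numPairs (k : ZMod 2) : ℕ :=
  ∑ a ∈ Finset.univ.filter (fun a : F8 => pr a = a ∧ q8 a = k ∧ a ≠ 0),
    (Finset.univ.filter fun c : F8 => pr c = c ∧ q8 c = k ∧ B8 a c = k ∧ c ≠ 0 ∧ a ≠ c).card

theorem numPairs_zero : numPairs 0 = 630 := by decide +kernel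

theorem numPairs_one : numPairs 1 = 336 := by decide +kernel

theorem card_isPair (k : ZMod 2) : Nat.card {x : F8 × F8 // IsPair k x.1 x.2} = numPairs k := by
  classical
  rw [numPairs, ← Finset.card_sigma, ← Nat.card_eq_finsetCard]
  refine Nat.card_congr
    { toFun := fun x => ⟨⟨x.1.1, x.1.2⟩, by
        obtain ⟨h1, h2, h3, h4, h5, h6, h7, h8⟩ := x.2
        simp [h1, h2, h3, h4, h5, h6, h7, h8]⟩
      invFun := fun s => ⟨(s.1.1, s.1.2), by
        have h := s.2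
        simp only [Finset.mem_sigma, Finset.mem_filter, Finset.mem_univ, true_and] at h
        obtain ⟨⟨h1, h3, h6⟩, h2, h4, h5, h7, h8⟩ := h
        exact ⟨h1, h2, h3, h4, h5, h6, h7, h8⟩⟩
      left_inv := fun x => rfl
      right_inv := fun s => rfl }

end Cfsg.Agent.H41.CoType
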