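import Cfsg.Agent.H41.CoType.Reduce
import Cfsg.Agent.H41.CoType.Count

/-! Radical involutions with a pair of classes are not conjugate to `z`. -/

set_option autoImplicit false
set_option linter.unusedSimpArgs false
set_option linter.unusedSectionVars false

namespace Cfsg.Agent.H41.CoType

open Cfsg.Agent
open Cfsg.Agent.H18 (SingPt OrthPair)

theorem card_two_perp (e w : F8) : 64 ≤ Nat.card {y : F8 // B8 e y = 0 ∧ B8 w y = 0} := by
  let L : F8 →+ ZMod 2 × ZMod 2 := AddMonoidHom.mk' (fun y => (B8 e y, B8 w y)) fun a b => by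
    simp [B_add_right]
  have h1 := L.ker.card_mul_index
  rw [AddSubgroup.index_ker, show Nat.card F8 = 256 by simp] at h1
  have h2 : Nat.card L.range ≤ 4 := by
    refine (Nat.card_le_card_of_injective Subtype.val Subtype.val_injective).trans ?_
    rw [Nat.card_prod, Nat.card_zmod]
  have h3 : Nat.card L.ker = Nat.card {y : F8 // B8 e y = 0 ∧ B8 w y = 0} :=
    Nat.card_congr (Equiv.subtypeEquivRight fun y => by simp [L, AddMonoidHom.mem_ker, Prod.ext_iff])
  have h4 : Nat.card L.ker * Nat.card L.range ≤ Nat.card L.ker * 4 := Nat.mul_le_mul_left _ h2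
  omega

theorem card_inX (k : ZMod 2) : Nat.card {y : F8 // InX k y} = 32 := by
  unfold InX
  rw [Nat.card_eq_fintype_card]
  revert k
  decide +kernel

theorem B_pr_flip {y w : F8} (hy : B8 (eps 0) y = 0) (hw : pr w = w) : B8 (pr y) w = B8 w y := by
  rw [← hw, B_pr hy (by rw [← hw, B_eps_pr]), B_comm, hw]

namespace Setting

variable {G : Type*} [Group G] [Finite G] (S : Setting G)

/-- An involution fixes at least sixteen elements of the extraspecial subgroup. -/
theorem card_cent_ge {s : G} (hs : s * s = 1) (hC : s ∈ S.C) :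
    16 ≤ Nat.card {x : G // x ∈ S.F ∧ s * x = x * s} := by
  classical
  have hsi : s⁻¹ = s := inv_eq_of_mul_eq_one_right hs
  set τ := S.ρ ⟨s, hC⟩ with hτ
  have hinv : ∀ y, ap τ (ap τ y) = y := fun y => by
    rw [← ap_mul, hτ, ← map_mul,
      show (⟨s, hC⟩ * ⟨s, hC⟩ : S.C) = ⟨s * s, mul_mem hC hC⟩ from rfl,
      (S.rho_eq_one (mul_mem hC hC)).2 (by rw [hs]; exact one_mem _), ap_one]
  let L : F8 →+ F8 := AddMonoidHom.mk' (fun y => ap τ y + y) fun a b => by rw [ap_add]; abel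
  have hle : L.range ≤ L.ker := by
    rintro _ ⟨y, rfl⟩
    rw [AddMonoidHom.mem_ker]
    show ap τ (ap τ y + y) + (ap τ y + y) = 0
    rw [ap_add, hinv, add_comm y, two8]
  have h16 : Nat.card L.range ≤ 16 := by
    have h1 := L.ker.card_mul_index
    rw [AddSubgroup.index_ker, show Nat.card F8 = 256 by simp] at h1
    have h2 := Nat.card_le_card_of_injective _ (AddSubgroup.inclusion_injective hle)
    have h3 := Nat.mul_le_mul_right (Nat.card L.range) h2
    by_contra hc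
    have h4 : 17 * 17 ≤ Nat.card L.range * Nat.card L.range := Nat.mul_le_mul (by omega) (by omega)
    omega
  let val : S.F → G := fun x => (x : G)⁻¹ * (s * x * s⁻¹)
  have hval : ∀ x : S.F, val x ∈ S.F ∧ S.co (val x) ∈ L.range := fun x => by
    refine ⟨mul_mem (inv_mem x.2) (S.norm hC x.2), S.co x, ?_⟩
    rw [S.co_mul _ (inv_mem x.2) _ (S.norm hC x.2), S.co_inv x.2, S.act' hC x.2, add_comm]
    rfl
  let V := {m : G // m ∈ S.F ∧ S.co m ∈ L.range}
  have hV : Nat.card V ≤ 32 := by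
    choose lift hlm hlc using S.co_surj
    have hinj : ∀ m : V, ∃ a, m.1 = lift (S.co m.1) * S.zp a := fun m =>
      S.exists_zp (hlm _) m.2.1 (hlc _)
    choose a ha using hinj
    have h1 := Nat.card_le_card_of_injective
      (fun m : V => ((⟨S.co m.1, m.2.2⟩ : L.range), a m)) (fun m m' h => by
        simp only [Prod.mk.injEq, Subtype.mk.injEq] at h
        exact Subtype.ext (by rw [ha m, ha m', h.1, h.2]))
    rw [Nat.card_prod, Nat.card_zmod] at h1
    omega
  let f : S.F → V := fun x => ⟨val x, hval x⟩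
  choose pre hpre using fun m : Set.range f => m.2
  have h512 := Nat.card_le_card_of_injective
    (fun x : S.F => (f x, (⟨(x : G) * (pre ⟨f x, x, rfl⟩ : G)⁻¹, mul_mem x.2 (inv_mem (pre _).2), by
      have e : val (pre ⟨f x, x, rfl⟩) = val x := congrArg Subtype.val (hpre ⟨f x, x, rfl⟩)
      simp only [val] at e
      rw [hsi] at e
      generalize (pre ⟨f x, x, rfl⟩ : G) = y at e ⊢
      have e2 : s * (x : G) * s = (x : G) * (y⁻¹ * (s * y * s)) := by
        rw [e]; group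
      calc s * ((x : G) * y⁻¹) = (s * x * s) * (s * y⁻¹) := by
            rw [mul_assoc (s * x) s, ← mul_assoc s s, hs, one_mul]; group
        _ = x * y⁻¹ * (s * y * (s * s) * y⁻¹) := by rw [e2]; group
        _ = x * y⁻¹ * s := by rw [hs]; group⟩ : {x : G // x ∈ S.F ∧ s * x = x * s})))
    (fun x x' h => by
      simp only [Prod.mk.injEq, Subtype.mk.injEq] at h
      obtain ⟨h1, h2⟩ := h
      have e : (⟨f x, x, rfl⟩ : Set.range f) = ⟨f x', x', rfl⟩ := Subtype.ext h1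
      rw [e] at h2
      exact Subtype.ext (mul_right_cancel h2))
  rw [S.card_F, Nat.card_prod] at h512
  by_contra hc
  have := Nat.mul_le_mul hV (show Nat.card {x : G // x ∈ S.F ∧ s * x = x * s} ≤ 15 by omega)
  omega

/-- Symmetry for an involution in a conjugate of `F`. -/
theorem swap {h m : G} (hm : m ∈ S.F.map (MulAut.conj h).toMonoidHom) (hm2 : m * m = 1) (hm1 : m ≠ 1)
    (hne : m ≠ h * S.z * h⁻¹) :
    ∃ k, k * S.z * k⁻¹ = m ∧ h * S.z * h⁻¹ ∈ S.F.map (MulAut.conj k).toMonoidHom := by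
  obtain ⟨x, hx, e⟩ := hm
  have e' : h * x * h⁻¹ = m := e
  have hq : q8 (S.co x) = 0 := (S.sq_iff x hx).1 (by
    rw [show x = h⁻¹ * m * h by rw [← e']; group,
      show h⁻¹ * m * h * (h⁻¹ * m * h) = h⁻¹ * (m * m) * h by group, hm2]
    group)
  have h0 : S.co x ≠ 0 := fun h0 => by
    rcases S.co_eq x hx h0 with rfl | rfl
    · exact hm1 (by rw [← e']; group)
    · exact hne e'.symm
  obtain ⟨g, hg, o⟩ := S.orthPair hx hq h0
  obtain ⟨q, hqF, eq⟩ := o.hzF
  have eq' : g * q * g⁻¹ = S.z := eq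
  refine ⟨h * g, by rw [← e', ← hg]; group, q, hqF, ?_⟩
  show h * g * q * (h * g)⁻¹ = _
  rw [← eq']; group

end Setting

namespace Frame

variable {G : Type*} [Group G] [Finite G] (T : Frame G)

theorem exists_conj_b {m : G} (hm : m ∈ T.S.F) (hq : q8 (T.S.co m) = 0) (h0 : T.S.co m ≠ 0) :
    ∃ c ∈ T.S.C, c * m * c⁻¹ = T.b := by
  obtain ⟨ω, hω, hωm⟩ := witt_one h0 hq
  obtain ⟨c, hc, hρ⟩ := T.S.exists_rho hω
  obtain ⟨i, hi⟩ := T.S.exists_zp T.b_mem (T.S.norm hc hm) (by rw [T.hb, T.S.act' hc hm, hρ, hωm])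
  rcases bit i with rfl | rfl
  · exact ⟨c, hc, by rw [hi, Setting.zp_zero, mul_one]⟩
  · refine ⟨T.u * c, mul_mem (T.S.F_le_C T.hu) hc, ?_⟩
    calc T.u * c * m * (T.u * c)⁻¹ = T.u * (c * m * c⁻¹) * T.u⁻¹ := by group
      _ = (T.u * T.b * T.u⁻¹) * (T.u * T.z * T.u⁻¹) := by rw [hi, Setting.zp_one]; group
      _ = T.b := by rw [T.hub, T.huz, T.zb, mul_assoc, T.S.pt.xx, mul_one]

theorem order_two {k : ZMod 2} {r : G} (h : T.IsCl r (sa k) (sc k)) : orderOf r = 2 := by
  obtain ⟨-, -, hqa, hqc, hB, ha, -⟩ := id (sa_sc k)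
  refine orderOf_eq_prime ?_ fun e => ha ?_
  · rw [pow_two, T.sq_R h, hqa, hqc, hB, two0, vv_zero]
  · subst e
    exact (T.isCl_uniq h (by simpa [T.vv_zero] using T.isCl_vv 0 0)).1

theorem not_mem_F {k : ZMod 2} {r : G} (h : T.IsCl r (sa k) (sc k)) : r ∉ T.S.F := fun hF => by
  obtain ⟨-, -, -, -, -, -, hc, -⟩ := id (sa_sc k)
  have hP : r ∈ T.P := ⟨hF, Subgroup.mem_centralizer_singleton_iff.2 (T.mem_D.1 (T.R_le_D (T.isCl_mem h))).2⟩
  exact hc (T.isCl_uniq h (T.isCl_P hP)).2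

/-- The elements of `F` commuting with a radical element. -/
theorem cent_F {k : ZMod 2} {r : G} (h : T.IsCl r (sa k) (sc k)) {x : G} (hx : x ∈ T.S.F)
    (hc : x * r = r * x) : InX k (T.S.co x) := by
  obtain ⟨hsa, hsc, -, -, -, -, hc0, -⟩ := id (sa_sc k)
  have hrD := T.R_le_D (T.isCl_mem h)
  have hfix : ap (T.im (T.D_le_C hrD)) (T.S.co x) = T.S.co x := by
    rw [← T.co_conj _ hx, ← hc, mul_inv_cancel_right]
  have he : B8 (eps 0) (T.S.co x) = 0 := by
    refine (bit _).resolve_right fun e => hc0 ?_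
    have hy : B8 (eps 0) (T.S.co x + eta 0) = 0 := by rw [B_add_right, e]; decide +kernel
    have h1 := congrArg pr (T.im_R h hy)
    rw [ap_add, hfix, show T.S.co x + ap (T.im (T.D_le_C hrD)) (eta 0) + (T.S.co x + eta 0) =
      (T.S.co x + T.S.co x) + (ap (T.im (T.D_le_C hrD)) (eta 0) + eta 0) by abel, two8, zero_add,
      pr_add, pr_eta, add_zero, T.im_R_eta h] at h1
    rw [h1]
    rcases bit (B8 (T.S.co x + eta 0) (sc k)) with e' | e' <;> simp [e', pr_zero, pr_eps]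
  have hxP : x ∈ T.P := T.mem_P.2 ⟨hx, he⟩
  have h1 := T.comm_R (T.isCl_P hxP) h
  rw [hc, B_zero_left, B_zero_right] at h1
  obtain ⟨e1, e2⟩ := T.vv_inj ((mul_eq_right.1 h1.symm).trans T.vv_zero.symm)
  have hB : ∀ w, pr w = w → B8 (T.cl x) w = B8 w (T.S.co x) := fun w hw => by
    rw [cl, ← hw, B_pr he (by rw [← hw, B_eps_pr]), B_comm, hw]
  rw [hB _ hsc] at e1 e2
  rw [hB _ hsa] at e1
  simp only [zero_add, add_zero] at e1 e2
  refine ⟨he, ?_, e2⟩
  rw [e2, add_zero] at e1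
  exact e1

/-- No involution of `F` outside the centre lies in the singular group of a conjugate. -/
theorem no_common {k : ZMod 2} {r h : G} (hr : T.IsCl r (sa k) (sc k)) (hh : h * T.z * h⁻¹ = r) {m : G}
    (hmF : m ∈ T.S.F) (hm : m ∈ T.S.F.map (MulAut.conj h).toMonoidHom) : m = 1 := by
  have hr2 := T.order_two hr
  have hzF : T.z ∉ T.S.F.map (MulAut.conj h).toMonoidHom := fun hz => by
    obtain ⟨j, hj, hjr⟩ := T.S.swap hz T.S.pt.xx T.S.pt.xne (fun e => T.not_mem_F hr (by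
      rw [← hh, ← e]; exact T.S.pt.mem))
    refine T.not_mem_F hr ?_
    obtain ⟨q, hq, e⟩ := hjr
    rw [← hh, ← show j * q * j⁻¹ = h * T.S.z * h⁻¹ from e]
    exact T.S.norm (T.S.mem_C.2 (mul_inv_eq_iff_eq_mul.1 hj)) hq
  have hm2 : m * m = 1 := by
    rcases T.S.pt.pair (T.S.pt.sq hmF) with e | e
    · exact e
    · exact absurd (show T.z ∈ _ by rw [show T.z = m * m from e.symm]; exact mul_mem hm hm) hzF
  by_contra hm1
  have hmr : m ≠ h * T.S.z * h⁻¹ := fun e => T.not_mem_F hr (by rw [← hh, ← e]; exact hmF)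
  obtain ⟨j, hj, hjr⟩ := T.S.swap hm hm2 hm1 hmr
  have hq : q8 (T.S.co m) = 0 := (T.S.sq_iff m hmF).1 hm2
  have h0 : T.S.co m ≠ 0 := fun e => by
    rcases T.S.co_eq m hmF e with e' | e'
    · exact hm1 e'
    · exact hzF (by rw [show T.z = m from e'.symm]; exact hm)
  obtain ⟨c, hc, hcm⟩ := T.exists_conj_b hmF hq h0
  have hrC : r ∈ T.S.C := T.D_le_C (T.R_le_D (T.isCl_mem hr))
  have hw : c * r * c⁻¹ ∈ T.P' := by
    refine ⟨?_, Subgroup.mem_centralizer_singleton_iff.2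
      (T.S.mem_C.1 (mul_mem (mul_mem hc hrC) (inv_mem hc)))⟩
    refine T.S.pt.conj_eq_of_eq (a := c * j) (a' := T.g) ?_ ?_
    · show c * j * T.S.z * (c * j)⁻¹ = T.b
      rw [← hcm, ← hj]; group
    · obtain ⟨q, hq', e⟩ := hjr
      refine ⟨q, hq', ?_⟩
      show c * j * q * (c * j)⁻¹ = _
      rw [← hh, ← show j * q * j⁻¹ = h * T.S.z * h⁻¹ from e]
      group
  have hlow : 128 ≤ Nat.card {x : G // x ∈ T.S.F ∧ x * r = r * x} := by
    have h1 := card_two_perp (eps 0) (T.ph (c * r * c⁻¹))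
    have h2 := T.card_preimage fun y => B8 (eps 0) y = 0 ∧ B8 (T.ph (c * r * c⁻¹)) y = 0
    refine le_trans (by omega : 128 ≤ Nat.card {x : G // x ∈ T.S.F ∧
      B8 (eps 0) (T.S.co x) = 0 ∧ B8 (T.ph (c * r * c⁻¹)) (T.S.co x) = 0}) ?_
    refine Nat.card_le_card_of_injective (fun x => ⟨c⁻¹ * x.1 * c,
      by simpa using T.S.norm (inv_mem hc) x.2.1, ?_⟩) fun x y e =>
      Subtype.ext (mul_left_cancel (mul_right_cancel (congrArg Subtype.val e)))
    have hxP : x.1 ∈ T.P := T.mem_P.2 ⟨x.2.1, x.2.2.1⟩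
    have h3 := T.comm_PP' hxP hw
    rw [show B8 (T.cl x.1) (T.ph (c * r * c⁻¹)) = 0 by
      rw [cl, B_pr_flip x.2.2.1 (T.ph_pr _)]
      exact x.2.2.2, vv_zero, one_mul] at h3
    calc c⁻¹ * x.1 * c * r = c⁻¹ * (x.1 * (c * r * c⁻¹)) * c := by group
      _ = _ := by rw [h3]; group
  have hup : Nat.card {x : G // x ∈ T.S.F ∧ x * r = r * x} ≤ 64 := by
    refine (Nat.card_le_card_of_injective
      (fun x : {x : G // x ∈ T.S.F ∧ x * r = r * x} => (⟨x.1, x.2.1, T.cent_F hr x.2.1 x.2.2⟩ : {x : G // x ∈ T.S.F ∧ InX k (T.S.co x)}))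
      fun x y e => Subtype.ext (congrArg (fun w : {x : G // x ∈ T.S.F ∧ InX k (T.S.co x)} => w.1) e)).trans ?_
    rw [T.card_preimage fun y => InX k y, card_inX]
  omega

/-- A radical involution with a pair of classes is not conjugate to `z`. -/
theorem not_isConj_z {k : ZMod 2} {r : G} (hr : T.IsCl r (sa k) (sc k)) : ¬ IsConj r T.z := by
  classical
  intro hconj
  obtain ⟨h, hh⟩ := isConj_iff.1 hconj.symm
  obtain ⟨hsa, hsc, -⟩ := id (sa_sc k)
  have hrD := T.R_le_D (T.isCl_mem hr)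
  have hrz := (T.mem_D.1 hrD).1
  have hs2 : (h⁻¹ * T.z * h) * (h⁻¹ * T.z * h) = 1 := by
    rw [show h⁻¹ * T.z * h * (h⁻¹ * T.z * h) = h⁻¹ * (T.z * T.z) * h by group, T.S.pt.xx]
    group
  have hsC : h⁻¹ * T.z * h ∈ T.S.C := T.S.mem_C.2 (by
    have e : T.z * r = r * T.z := hrz.symm
    rw [← hh] at e
    calc h⁻¹ * T.z * h * T.z = h⁻¹ * (T.z * (h * T.z * h⁻¹)) * h := by group
      _ = _ := by rw [e]; group)
  have hlow := T.S.card_cent_ge hs2 hsC
  let A := {q : G // q ∈ T.S.F.map (MulAut.conj h).toMonoidHom ∧ q * T.z = T.z * q}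
  have hA : 16 ≤ Nat.card A := by
    refine hlow.trans (Nat.card_le_card_of_injective (fun x =>
      (⟨h * x.1 * h⁻¹, ⟨x.1, x.2.1, rfl⟩, ?_⟩ : A)) fun x y e =>
      Subtype.ext (mul_left_cancel (mul_right_cancel (congrArg (fun w : A => w.1) e))))
    calc h * x.1 * h⁻¹ * T.z = h * (x.1 * (h⁻¹ * T.z * h)) * h⁻¹ := by group
      _ = T.z * (h * x.1 * h⁻¹) := by rw [← x.2.2]; group
  have hqr : ∀ q : A, q.1 * r = r * q.1 := by
    rintro ⟨q, ⟨x, hx, e⟩, -⟩
    have e' : h * x * h⁻¹ = q := e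
    show q * r = r * q
    rw [← e', ← hh]
    calc h * x * h⁻¹ * (h * T.z * h⁻¹) = h * (x * T.z) * h⁻¹ := by group
      _ = _ := by rw [T.S.pt.comm_x x hx]; group
  have hqC : ∀ q : A, q.1 ∈ T.S.C := fun q => T.S.mem_C.2 q.2.2
  have hfix : ∀ q : A, ∀ y, InX k y → ap (T.im (hqC q)) y = y := by
    intro q y hy
    obtain ⟨x, hx, hxy⟩ := T.S.co_surj y
    have hxP : x ∈ T.P := T.mem_P.2 ⟨hx, hxy ▸ hy.1⟩
    have hxr : x * r = r * x := by
      have h1 := T.comm_R (T.isCl_P hxP) hr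
      have hB : ∀ w, pr w = w → B8 w y = 0 → B8 (T.cl x) w = 0 := fun w hw hwy => by
        rw [cl, hxy, ← hw, B_pr hy.1 (by rw [← hw, B_eps_pr]), B_comm, hwy]
      rw [B_zero_left, B_zero_right, hB _ hsa hy.2.1, hB _ hsc hy.2.2] at h1
      simpa [T.vv_zero] using h1
    have hmem : x * q.1 * x⁻¹ * q.1⁻¹ ∈ T.S.F.map (MulAut.conj h).toMonoidHom := by
      refine mul_mem ?_ (inv_mem q.2.1)
      refine (T.S.pt.conj h).norm x ?_ q.1 q.2.1
      rw [hh]; exact hxr
    have hF : x * q.1 * x⁻¹ * q.1⁻¹ ∈ T.S.F := by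
      rw [show x * q.1 * x⁻¹ * q.1⁻¹ = x * (q.1 * x⁻¹ * q.1⁻¹) by group]
      exact mul_mem hx (T.S.norm (hqC q) (inv_mem hx))
    have h1 := T.no_common hr hh hF hmem
    have h2 : q.1 * x * q.1⁻¹ = x := by
      calc q.1 * x * q.1⁻¹ = (x * q.1 * x⁻¹ * q.1⁻¹)⁻¹ * x := by group
        _ = x := by rw [h1]; group
    rw [← hxy, ← T.co_conj _ hx, h2]
  have hdiff : ∀ q : A, ∀ u, ∃ c, ap (T.im (hqC q)) u = u + dis k c := by
    intro q u
    obtain ⟨c0, c1, c2, hc⟩ := xb_perp k (ap (T.im (hqC q)) u + u) fun i => by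
      rw [B_add_right]
      conv_lhs => arg 1; rw [← hfix q _ (xb_mem k i)]
      rw [ap_B, two0]
    refine ⟨(c0, c1, c2), ?_⟩
    rw [dis, ← hc, add_comm (ap _ u), ← add_assoc, two8, zero_add]
  choose c hc using hdiff
  obtain ⟨d1, d2, d3, d4, d5, d6, d7, d8, d9, d10, d11, d12⟩ := du_spec k
  have hdec : ∀ y : F8, InX k (y + (B8 (eps 0) y • eta 0 + B8 (sa k) y • eta 1 + B8 (sc k) y • du k)) :=
    fun y => by
      simp only [InX, B_add_right, B_smul_right, d1, d2, d3, d4, d5, d6, d7, d8, d9]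
      refine ⟨?_, ?_, ?_⟩ <;> simp [two0]
  let tri : A → (ZMod 2 × ZMod 2 × ZMod 2) × (ZMod 2 × ZMod 2 × ZMod 2) × (ZMod 2 × ZMod 2 × ZMod 2) :=
    fun q => (c q (eta 0), c q (eta 1), c q (du k))
  have hgood : ∀ q, Good k (tri q) := by
    intro q
    refine ⟨?_, ?_, ?_, ?_, ?_, ?_, ?_⟩ <;> simp only [tri]
    · rw [← hc, ap_q]
    · rw [← hc, ap_q]
    · rw [← hc, ap_q]
    · rw [← hc, ← hc, ap_B]
    · rw [← hc, ← hc, ap_B]
    · rw [← hc, ← hc, ap_B]
    -- commutation with the image of `r`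
    · set ω := T.im (hqC q) with hω
      have hωe : ap ω (eps 0) = eps 0 := hfix q _ ⟨by decide +kernel, by
        rw [← hsa, B_comm, B_eps_pr], by rw [← hsc, B_comm, B_eps_pr]⟩
      have hτω : ∀ y, ap (T.im (T.D_le_C hrD)) (ap ω y) = ap ω (ap (T.im (T.D_le_C hrD)) y) := by
        intro y
        rw [← ap_mul, ← ap_mul, hω, ← T.im_mul, ← T.im_mul]
        congr 2
        exact (hqr q).symm
      set τ := T.im (T.D_le_C hrD) with hτ
      have hτe : ap τ (eps 0) = eps 0 := T.rho_D hrD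
      obtain ⟨d, hd⟩ : ∃ d : ZMod 2, ap τ (eta 0) = eta 0 + sc k + d • eps 0 := by
        have h2 : B8 (eps 0) (ap τ (eta 0) + eta 0 + sc k) = 0 := by
          rw [B_add_right, B_add_right, B_fix hτe, two0, d10, add_zero]
        rcases pr_eq_zero h2 (by rw [pr_add, pr_add, hτ, T.im_R_eta hr, pr_eta, hsc, add_zero, two8])
          with e | e
        · exact ⟨0, by rw [← eq_of_add8 e, zero_smul, add_zero, add_comm (ap τ _), ← add_assoc, two8, zero_add]⟩
        · refine ⟨1, ?_⟩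
          rw [one_smul, ← e, show eta 0 + sc k + (ap τ (eta 0) + eta 0 + sc k) =
            ap τ (eta 0) + (eta 0 + eta 0) + (sc k + sc k) by abel, two8, two8, add_zero, add_zero]
      obtain ⟨δ, hδ⟩ : ∃ δ, δ = ap ω (eta 0) + eta 0 := ⟨_, rfl⟩
      have hδe : B8 (eps 0) δ = 0 := by rw [hδ, B_add_right, B_fix hωe, two0]
      have hωη : ap ω (eta 0) = eta 0 + δ := by rw [hδ, add_comm (ap ω _), ← add_assoc, two8, zero_add]
      have hτδ := T.im_R hr hδe
      have h3 := hτω (eta 0)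
      rw [hωη, ap_add, hd, ap_add, ap_add, ap_smul, hωe, hωη,
        show ap τ δ = B8 δ (sc k) • eps 0 + δ by rw [← hτδ, add_assoc, two8, add_zero]] at h3
      have hsck : ap ω (sc k) + sc k = B8 δ (sc k) • eps 0 := by
        refine eq_of_add8 ?_
        have h4 : (eta 0 + sc k + d • eps 0 + (B8 δ (sc k) • eps 0 + δ)) +
            (eta 0 + δ + ap ω (sc k) + d • eps 0) = 0 := by rw [← h3]; exact two8 _
        rw [show (eta 0 + sc k + d • eps 0 + (B8 δ (sc k) • eps 0 + δ)) +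
            (eta 0 + δ + ap ω (sc k) + d • eps 0) = (ap ω (sc k) + sc k + B8 δ (sc k) • eps 0) +
              ((eta 0 + eta 0) + (δ + δ) + (d • eps 0 + d • eps 0)) by abel] at h4
        simp only [two8, add_zero] at h4
        exact h4
      have h5 := hfix q _ (hdec (sc k))
      rw [d10, d11, d12, zero_smul, zero_smul, zero_add, add_zero, ← hω, ap_add, ap_smul, hω, hc q (eta 1), ← hω,
        smul_add] at h5
      have h6 : k • dis k (c q (eta 1)) = ap ω (sc k) + sc k := by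
        refine eq_of_add8 ?_
        rw [show k • dis k (c q (eta 1)) + (ap ω (sc k) + sc k) =
          (ap ω (sc k) + (k • eta 1 + k • dis k (c q (eta 1)))) + (sc k + k • eta 1) by
            calc _ = (ap ω (sc k) + k • dis k (c q (eta 1)) + sc k) + (k • eta 1 + k • eta 1) := by
                  rw [two8, add_zero]; abel
              _ = _ := by abel, h5, two8]
      rw [h6, hsck]
      rcases bit (B8 δ (sc k)) with e | e <;> simp [e]
  have hinj : Function.Injective (fun q => (⟨tri q, hgood q⟩ : {c // Good k c})) := by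
    intro q q' e
    simp only [Subtype.mk.injEq, tri, Prod.mk.injEq] at e
    obtain ⟨e0, e1, e2⟩ := e
    have heq : T.im (hqC q) = T.im (hqC q') := by
      refine ap_ext fun y => ?_
      have hu0 : ap (T.im (hqC q)) (eta 0) = ap (T.im (hqC q')) (eta 0) := by rw [hc, hc, e0]
      have hu1 : ap (T.im (hqC q)) (eta 1) = ap (T.im (hqC q')) (eta 1) := by rw [hc, hc, e1]
      have hu2 : ap (T.im (hqC q)) (du k) = ap (T.im (hqC q')) (du k) := by rw [hc, hc, e2]
      have h1 := (hfix q _ (hdec y)).trans (hfix q' _ (hdec y)).symm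
      simp only [ap_add, ap_smul, hu0, hu1, hu2] at h1
      exact add_right_cancel h1
    have hd' : q.1⁻¹ * q'.1 ∈ T.S.F := by
      refine (T.S.rho_eq_one (mul_mem (inv_mem (hqC q)) (hqC q'))).1 ?_
      have e1 : (⟨q.1⁻¹ * q'.1, mul_mem (inv_mem (hqC q)) (hqC q')⟩ : T.S.C) =
          ⟨q.1, hqC q⟩⁻¹ * ⟨q'.1, hqC q'⟩ := rfl
      rw [e1, map_mul, map_inv, inv_mul_eq_one]
      exact heq
    have := T.no_common hr hh hd' (mul_mem (inv_mem q.2.1) q'.2.1)
    exact Subtype.ext (inv_mul_eq_one.1 this)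
  have := hA.trans (Nat.card_le_card_of_injective _ hinj)
  rw [Nat.card_eq_fintype_card] at this
  exact absurd (this.trans (card_good k)) (by norm_num)

end Frame

end Cfsg.Agent.H41.CoType
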