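import Cfsg.Agent.H41.CoType.Radical

/-! The centralizer of the four-group acting on the radical. -/

set_option autoImplicit false
set_option linter.unusedSimpArgs false
set_option linter.unusedSectionVars false

namespace Cfsg.Agent.H41.CoType

open Cfsg.Agent
open Cfsg.Agent.H18 (SingPt OrthPair)

/-- A frame exists. -/
theorem exists_frame {G : Type*} [Group G] [Finite G] (S : Setting G) :
    ∃ T : Frame G, T.S = S := by
  obtain ⟨b, hb, hcb⟩ := S.co_surj (eps 0)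
  obtain ⟨g, hg, o⟩ := S.orthPair hb (by rw [hcb]; decide +kernel)
    (by rw [hcb]; intro h; simpa [eps] using congrFun h (Sum.inl 0))
  obtain ⟨u, hu, hcu⟩ := S.co_surj (eta 0)
  obtain ⟨v, hv, hvb, hvz⟩ := o.exists_v
  exact ⟨⟨S, g, o, by rw [hg, hcb], u, hu, hcu, v, hv, hvb, hvz⟩, rfl⟩

namespace Frame

variable {G : Type*} [Group G] [Finite G] (T : Frame G)

/-- The image of an element of `C` in the orthogonal group. -/
noncomputable def im {d : G} (hd : d ∈ T.S.C) : O8 := T.S.ρ ⟨d, hd⟩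

theorem im_mul {c d : G} (hc : c ∈ T.S.C) (hd : d ∈ T.S.C) :
    T.im (mul_mem hc hd) = T.im hc * T.im hd := map_mul T.S.ρ ⟨c, hc⟩ ⟨d, hd⟩

theorem co_conj {d x : G} (hd : d ∈ T.S.C) (hx : x ∈ T.S.F) :
    T.S.co (d * x * d⁻¹) = ap (T.im hd) (T.S.co x) := T.S.act' hd hx

theorem exists_D {ω : O8} (hω : ω ∈ Om) (he : ap ω (eps 0) = eps 0) :
    ∃ d, ∃ hd : d ∈ T.D, T.im (T.D_le_C hd) = ω := by
  obtain ⟨c, hc, hρ⟩ := T.S.exists_rho hω
  have hcb : T.S.co (c * T.b * c⁻¹) = eps 0 := by rw [T.S.act' hc T.b_mem, hρ, T.hb, he]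
  obtain ⟨i, hi⟩ := T.S.exists_zp T.b_mem (T.S.norm hc T.b_mem) (by rw [T.hb, hcb])
  rcases bit i with rfl | rfl
  · rw [Setting.zp_zero, mul_one] at hi
    exact ⟨c, T.mem_D.2 ⟨T.S.mem_C.1 hc, mul_inv_eq_iff_eq_mul.1 hi⟩, hρ⟩
  · rw [Setting.zp_one] at hi
    have huC := T.S.F_le_C T.hu
    have e : T.u * c * T.b * (T.u * c)⁻¹ = T.b := by
      calc T.u * c * T.b * (T.u * c)⁻¹ = T.u * (c * T.b * c⁻¹) * T.u⁻¹ := by group
        _ = (T.u * T.b * T.u⁻¹) * (T.u * T.z * T.u⁻¹) := by rw [hi]; group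
        _ = T.b := by rw [T.hub, T.huz, T.zb, mul_assoc, T.S.pt.xx, mul_one]
    refine ⟨T.u * c, T.mem_D.2 ⟨T.S.mem_C.1 (mul_mem huC hc), mul_inv_eq_iff_eq_mul.1 e⟩, ?_⟩
    show T.im (mul_mem huC hc) = ω
    rw [T.im_mul huC hc, show T.im huC = 1 from (T.S.rho_eq_one _).2 T.hu, one_mul]
    exact hρ

theorem B_fix {ω : O8} (he : ap ω (eps 0) = eps 0) (y : F8) :
    B8 (eps 0) (ap ω y) = B8 (eps 0) y := by
  conv_lhs => rw [← he, ap_B]

theorem pr_ap {ω : O8} (he : ap ω (eps 0) = eps 0) {y : F8} (hy : B8 (eps 0) y = 0) :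
    pr (ap ω y) = pr (ap ω (pr y)) := by
  conv_lhs => rw [pr_decomp y]
  rw [B_eps] at hy
  rw [hy, zero_smul, add_zero, ap_add, ap_smul, he, pr_add]
  rcases bit (y (.inl 0)) with h | h <;> simp [h, pr_zero, pr_eps]

/-- Conjugation by the centralizer of the four-group on classes. -/
theorem isCl_conj {d r : G} (hd : d ∈ T.D) {a c : F8} (h : T.IsCl r a c) :
    T.IsCl (d * r * d⁻¹) (pr (ap (T.im (T.D_le_C hd)) a)) (pr (ap (T.im (T.D_le_C hd)) c)) := by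
  obtain ⟨p, hp, w, hw, rfl, rfl, rfl⟩ := h
  set ω := T.im (T.D_le_C hd) with hω
  have he : ap ω (eps 0) = eps 0 := T.rho_D hd
  refine ⟨d * p * d⁻¹, T.conj_P hd hp, d * w * d⁻¹, T.conj_P' hd hw, by group, ?_, ?_⟩
  · rw [cl, T.co_conj (T.D_le_C hd) hp.1, ← hω, pr_ap he (T.mem_P.1 hp).2]; rfl
  · have hxF : d⁻¹ * T.u * d ∈ T.S.F := by
      simpa using T.S.norm (inv_mem (T.D_le_C hd)) T.hu
    have hdx : d * (d⁻¹ * T.u * d) * d⁻¹ = T.u := by group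
    have hp0 : T.u⁻¹ * (d⁻¹ * T.u * d) ∈ T.P := by
      refine T.mem_P.2 ⟨mul_mem (inv_mem T.hu) hxF, ?_⟩
      have h1 := T.co_conj (T.D_le_C hd) hxF
      rw [hdx, T.hcu, ← hω] at h1
      have h2 := B_fix he (T.S.co (d⁻¹ * T.u * d))
      rw [← h1] at h2
      rw [T.S.co_mul _ (inv_mem T.hu) _ hxF, T.S.co_inv T.hu, T.hcu, B_add_right, ← h2]
      exact two0 _
    obtain ⟨p0, hp0e⟩ : ∃ p0, p0 = T.u⁻¹ * (d⁻¹ * T.u * d) := ⟨_, rfl⟩
    rw [← hp0e] at hp0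
    have e : T.u * (d * w * d⁻¹) * T.u⁻¹ * (d * w * d⁻¹)⁻¹ =
        d * ((T.u * (p0 * w * p0⁻¹ * w⁻¹) * T.u⁻¹) * (T.u * w * T.u⁻¹ * w⁻¹)) * d⁻¹ := by
      rw [hp0e]; group
    rw [T.comm_PP' hp0 hw] at e
    set k := B8 (T.cl p0) (T.ph w)
    rw [show T.vv k k * (w * p0) * p0⁻¹ * w⁻¹ = T.vv k k by group, T.u_vv] at e
    show T.cl _ = _
    rw [e, cl, T.co_conj (T.D_le_C hd) (mul_mem (T.vv_mem_F _ _) (T.uw_mem hw).1), ← hω,
      T.S.co_mul _ (T.vv_mem_F _ _) _ (T.uw_mem hw).1, co_vv, ap_add, ap_smul, he, pr_add,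
      pr_ap he (T.mem_P.1 (T.uw_mem hw)).2]
    rcases bit k with h | h <;> simp [h, pr_zero, pr_eps] <;> rfl

theorem isCl_zero_right {r : G} {a : F8} (h : T.IsCl r a 0) : r ∈ T.P ∧ T.cl r = a := by
  obtain ⟨p, hp, w, hw, rfl, rfl, h0⟩ := h
  obtain ⟨i, j, rfl⟩ := T.ph_eq_zero hw h0
  have hV := T.four_le_P (T.vv_mem i j)
  exact ⟨mul_mem hp hV, by rw [T.cl_mul hp hV, cl_vv, add_zero]⟩

theorem isCl_zero_left {r : G} {c : F8} (h : T.IsCl r 0 c) : r ∈ T.P' ∧ T.ph r = c := by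
  obtain ⟨p, hp, w, hw, rfl, h0, rfl⟩ := h
  obtain ⟨i, j, hij⟩ := T.cl_eq (one_mem _) hp (by rw [h0, ← T.vv_zero, cl_vv])
  rw [one_mul] at hij
  subst hij
  have hV := T.four_le_P' (T.vv_mem i j)
  exact ⟨mul_mem hV hw, by rw [T.ph_mul hV hw, ph_vv, zero_add]⟩

theorem isCl_pr {r : G} {a c : F8} (h : T.IsCl r a c) : pr a = a ∧ pr c = c := by
  obtain ⟨p, hp, w, hw, rfl, rfl, rfl⟩ := h
  exact ⟨T.cl_pr p, T.ph_pr w⟩

theorem exists_isCl_of {a c : F8} (ha : pr a = a) (hc : pr c = c) : ∃ r ∈ T.R, T.IsCl r a c := by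
  obtain ⟨p, hp, rfl⟩ := T.exists_cl a ha
  obtain ⟨w, hw, rfl⟩ := T.exists_ph c hc
  exact ⟨p * w, mul_mem (T.P_le_R hp) (T.P'_le_R hw), p, hp, w, hw, rfl, rfl, rfl⟩

/-- The image of a radical element on the orthogonal space of `b`. -/
theorem im_R {r : G} {a c : F8} (h : T.IsCl r a c) {y : F8} (hy : B8 (eps 0) y = 0) :
    ap (T.im (T.D_le_C (T.R_le_D (T.isCl_mem h)))) y + y = B8 y c • eps 0 := by
  obtain ⟨p, hp, hpy⟩ := T.S.co_surj y
  have hpP : p ∈ T.P := T.mem_P.2 ⟨hp, by rw [hpy, hy]⟩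
  have hrD := T.R_le_D (T.isCl_mem h)
  have h1 := T.comm_R h (T.isCl_P hpP)
  rw [← hpy, ← T.co_conj (T.D_le_C hrD) hp]
  rw [show r * p * r⁻¹ = T.vv (B8 a (T.cl p) + B8 a 0 + B8 (T.cl p) c)
      (B8 c 0 + B8 a 0 + B8 (T.cl p) c) * p by rw [h1]; group,
    T.S.co_mul _ (T.vv_mem_F _ _) _ hp, co_vv, add_assoc, two8, add_zero, B_zero_right, B_zero_right,
    zero_add, zero_add, cl, hpy]
  congr 1
  obtain ⟨-, hc⟩ := T.isCl_pr h
  rw [← hc, B_pr_left, B_pr hy (by rw [B_eps_pr]) |>.symm, pr_pr, B_pr_left]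

/-- The image of a radical element on the partner of `b`. -/
theorem im_R_eta {r : G} {a c : F8} (h : T.IsCl r a c) :
    pr (ap (T.im (T.D_le_C (T.R_le_D (T.isCl_mem h)))) (eta 0)) = c := by
  obtain ⟨hk, hkc⟩ := T.isCl_zero_right (a := c) (r := T.u * r * T.u⁻¹ * r⁻¹) (by
    have := T.isCl_mul (T.isCl_conj_u h) (T.isCl_inv h)
    rwa [two8, add_comm a c, add_assoc, two8, add_zero] at this)
  rw [← T.hcu, ← T.co_conj _ T.hu,
    show r * T.u * r⁻¹ = (T.u * r * T.u⁻¹ * r⁻¹)⁻¹ * T.u by group,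
    T.S.co_mul _ (inv_mem hk.1) _ T.hu, T.S.co_inv hk.1, pr_add, T.hcu, pr_eta, add_zero]
  exact hkc

/-- An element of `D` trivial modulo `b` on the orthogonal space of `b` lies in the radical. -/
theorem mem_R_of_trivial {d : G} (hd : d ∈ T.D)
    (h : ∀ y, B8 (eps 0) y = 0 → pr (ap (T.im (T.D_le_C hd)) y) = pr y) : d ∈ T.R := by
  set ω := T.im (T.D_le_C hd) with hω
  have he : ap ω (eps 0) = eps 0 := T.rho_D hd
  obtain ⟨w, hw, hwc⟩ := T.exists_ph (pr (ap ω (eta 0))) (pr_pr _)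
  have hwcl := T.isCl_P' hw
  have hwC := T.D_le_C (T.P'_le_D hw)
  set τ := T.im hwC with hτ
  have hτη : pr (ap τ (eta 0)) = pr (ap ω (eta 0)) := (T.im_R_eta hwcl).trans hwc
  have hτe : ap τ (eps 0) = eps 0 := T.rho_D (T.P'_le_D hw)
  have hτy : ∀ y, B8 (eps 0) y = 0 → pr (ap τ y) = pr y := fun y hy => by
    have := T.im_R hwcl hy
    rw [← hτ] at this
    rw [show ap τ y = B8 y (T.ph w) • eps 0 + y by rw [← this, add_assoc, two8, add_zero], pr_add]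
    rcases bit (B8 y (T.ph w)) with e | e <;> simp [e, pr_zero, pr_eps]
  suffices hk : d * w⁻¹ ∈ T.P by
    have : d = (d * w⁻¹) * w := by group
    rw [this]
    exact mul_mem (T.P_le_R hk) (T.P'_le_R hw)
  have hdw : d * w⁻¹ ∈ T.D := mul_mem hd (inv_mem (T.P'_le_D hw))
  set σ := T.im (T.D_le_C hdw) with hσ
  have hστ : σ * τ = ω := by
    rw [hσ, hτ, ← T.im_mul, hω]
    congr 1
    group
  have hσap : ∀ y, ap σ (ap τ y) = ap ω y := fun y => by rw [← ap_mul, hστ]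
  have hσe : ap σ (eps 0) = eps 0 := T.rho_D hdw
  have hσy : ∀ y, B8 (eps 0) y = 0 → pr (ap σ y) = pr y := by
    intro y hy
    obtain ⟨x, rfl⟩ := (τ : F8 ≃ₗ[ZMod 2] F8).surjective y
    change B8 (eps 0) (ap τ x) = 0 at hy
    rw [B_fix hτe] at hy
    show pr (ap σ (ap τ x)) = pr (ap τ x)
    rw [hσap, h x hy, hτy x hy]
  have hσeta : ap σ (eta 0) = eta 0 := by
    have hx : B8 (eps 0) (ap τ (eta 0) + eta 0) = 0 := by rw [B_add_right, B_fix hτe, two0]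
    have h1 := hσy _ hx
    rw [ap_add, hσap, pr_add, pr_add, pr_eta, add_zero, ← hτη, add_eq_left] at h1
    have h2 : B8 (eps 0) (ap σ (eta 0) + eta 0) = 0 := by rw [B_add_right, B_fix hσe, two0]
    rcases pr_eq_zero h2 (by rw [pr_add, pr_eta, add_zero, h1]) with e | e
    · exact eq_of_add8 e
    · exfalso
      have h3 := ap_q σ (eta 0)
      rw [show ap σ (eta 0) = eps 0 + eta 0 by rw [← e, add_assoc, two8, add_zero]] at h3
      exact absurd h3 (by decide +kernel)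
  have hσone : σ = 1 := by
    refine ap_ext fun y => ?_
    rw [ap_one]
    have hy0 : B8 (eps 0) (y + y (.inr 0) • eta 0) = 0 := by rw [B_eps]; simp [eta, two0]
    have h1 := hσy _ hy0
    have h2 : B8 (eps 0) (ap σ (y + y (.inr 0) • eta 0) + (y + y (.inr 0) • eta 0)) = 0 := by
      rw [B_add_right, B_fix hσe, two0]
    rcases pr_eq_zero h2 (by rw [pr_add, h1, two8]) with e | e
    · have e' := eq_of_add8 e
      rw [ap_add, ap_smul, hσeta] at e'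
      exact add_right_cancel e'
    · exfalso
      have h3 := ap_B σ (y + y (.inr 0) • eta 0) (eta 0)
      rw [hσeta, show ap σ (y + y (.inr 0) • eta 0) = eps 0 + (y + y (.inr 0) • eta 0) by
        rw [← e, add_assoc, two8, add_zero], B_add_left, add_eq_right] at h3
      exact absurd h3 (by decide +kernel)
  exact ⟨(T.S.rho_eq_one _).1 hσone,
    Subgroup.mem_centralizer_singleton_iff.2 (T.mem_D.1 hdw).2⟩

end Frame

end Cfsg.Agent.H41.CoType
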