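import Cfsg.Agent.H41.CoType.Standard
import Mathlib.GroupTheory.SpecificGroups.Alternating

/-! A decomposition of the coordinate space into two four-dimensional spaces of minus type,
and the isometries permuting their singular points. -/

set_option autoImplicit false
set_option linter.unusedSimpArgs false
set_option maxRecDepth 4000

namespace Cfsg.Agent.H41.CoType

open Cfsg.Agent

/-- The singular points of the two spaces of minus type. -/
def five (s : ZMod 2) : Fin 5 → F8 :=
  if s = 0 then ![eps 0, eta 0, eps 0 + eta 0 + sa 1, eps 0 + eta 0 + sc 1,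
    eps 0 + eta 0 + (sa 1 + sc 1)]
  else ![eps 3, eta 3, eps 3 + eta 3 + (eps 1 + eta 1 + eta 2), eps 3 + eta 3 + (eps 2 + eta 2),
    eps 3 + eta 3 + (eps 1 + eta 1 + eps 2)]

/-- Membership in one of the two spaces. -/
abbrev InW (s : ZMod 2) (x : F8) : Prop := ∀ j : Fin 5, B8 x (five (1 + s) j) = 0

theorem five_spec : ∀ s : ZMod 2, ∀ i : Fin 5,
    q8 (five s i) = 0 ∧ five s i ≠ 0 ∧ InW s (five s i) ∧
      ∀ j, five s i = five s j → i = j := by decide +kernel

theorem sing_five : ∀ s : ZMod 2, ∀ x : F8, InW s x → q8 x = 0 → x ≠ 0 →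
    ∃ i, x = five s i := by decide +kernel

theorem five_decomp : ∀ x : F8, x = ∑ s : ZMod 2, ∑ i : Fin 5,
    (B8 x (five s i) + B8 x (five s 4)) • five s i := by decide +kernel

theorem five_swap : ∀ s : ZMod 2, ∀ i j : Fin 5, i ≠ j →
    q8 (five s i + five s j) = 1 ∧ (∀ k, B8 (five s i + five s j) (five (1 + s) k) = 0) ∧
      ∀ k, five s k + B8 (five s i + five s j) (five s k) • (five s i + five s j) =
        five s (Equiv.swap i j k) := by decide +kernel

theorem inW_zero_span : ∀ x : F8, InW 0 x →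
    ∃ a b c d : ZMod 2, x = a • eps 0 + b • eta 0 + c • sa 1 + d • sc 1 := by decide +kernel

theorem inW_zero_basis : InW 0 (eps 0) ∧ InW 0 (eta 0) ∧ InW 0 (sa 1) ∧ InW 0 (sc 1) := by
  decide +kernel

theorem inW_zero_dual : ∀ i j k l : ZMod 2, ∃ w : F8, InW 0 w ∧ B8 w (eps 0) = i ∧
    B8 w (eta 0) = j ∧ B8 w (sa 1) = k ∧ B8 w (sc 1) = l := by decide +kernel

theorem inW_one_iff : ∀ x : F8, InW 1 x ↔
    pr x = x ∧ B8 (sa 1) x = 0 ∧ B8 (sc 1) x = 0 := by decide +kernel

theorem inW_zero_singular : ∀ x y : F8, InW 0 x → InW 0 y → q8 x = 0 → q8 y = 0 → B8 x y = 0 →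
    x = 0 ∨ y = 0 ∨ x = y := by decide +kernel

theorem zmod_two_cases (s t : ZMod 2) : t = s ∨ t = 1 + s := by revert s t; decide

theorem one_add_one_add (s : ZMod 2) : 1 + (1 + s) = s := by revert s; decide

theorem inW_orth {s : ZMod 2} {x y : F8} (hx : InW s x) (hy : InW (1 + s) y) : B8 x y = 0 := by
  have h := five_decomp y
  rw [h]
  simp only [InW, one_add_one_add] at hx hy
  have key : ∀ (f : Fin 5 → ZMod 2) (t : ZMod 2),
      B8 x (∑ i, f i • five t i) = ∑ i, f i * B8 x (five t i) := by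
    intro f t
    simp only [Fin.sum_univ_five, B_add_right, B_smul_right]
  rw [show (∑ t : ZMod 2, ∑ i : Fin 5, (B8 y (five t i) + B8 y (five t 4)) • five t i) =
      (∑ i : Fin 5, (B8 y (five s i) + B8 y (five s 4)) • five s i) +
      ∑ i : Fin 5, (B8 y (five (1 + s) i) + B8 y (five (1 + s) 4)) • five (1 + s) i by
    rcases bit s with rfl | rfl
    · exact Fin.sum_univ_two _
    · rw [show (1 : ZMod 2) + 1 = 0 from rfl, add_comm]; exact Fin.sum_univ_two _]
  rw [B_add_right, key, key]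
  simp [hx, hy]

/-- An isometry is determined by its values on the ten points. -/
theorem ext_five {ω ω' : O8} (h : ∀ s i, ap ω (five s i) = ap ω' (five s i)) : ω = ω' := by
  refine ap_ext fun x => ?_
  rw [five_decomp x, show ap ω = (ω : F8 ≃ₗ[ZMod 2] F8) from rfl,
    show ap ω' = (ω' : F8 ≃ₗ[ZMod 2] F8) from rfl, map_sum, map_sum]
  refine Finset.sum_congr rfl fun s _ => ?_
  rw [map_sum, map_sum]
  refine Finset.sum_congr rfl fun i _ => ?_
  rw [map_smul, map_smul]
  exact congrArg _ (h s i)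

theorem refl_ap {w : F8} (hw : q8 w = 1) (x : F8) :
    ap (H5.refl Q8 w) x = x + B8 w x • w := by
  show ((H5.refl Q8 w : O8) : F8 ≃ₗ[ZMod 2] F8) x = _
  rw [H5.refl_apply, coe_Q8, hw, polar_Q8, inv_one, one_mul, sub8]

theorem refl_not_mem {w : F8} (hw : q8 w = 1) : H5.refl Q8 w ∉ Om := by
  intro hr
  have := ((H5.mem_commutator_iff nondeg std_four).1 hr).1
  rw [H5.dick_refl nondeg (by rw [coe_Q8, hw]; decide)] at this
  exact absurd this (by decide)

theorem index_Om : Om.index = 2 :=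
  H5.commutator_index_two (by decide) nondeg std_four
    ⟨eps 0 + eta 0, by rw [coe_Q8]; decide +kernel⟩

/-- The isometry induces the permutation on the points of one space and fixes the other. -/
def Realizes (s : ZMod 2) (ω : O8) (π : Equiv.Perm (Fin 5)) : Prop :=
  (∀ i, ap ω (five s i) = five s (π i)) ∧ ∀ i, ap ω (five (1 + s) i) = five (1 + s) i

theorem Realizes.uniq {s : ZMod 2} {ω ω' : O8} {π : Equiv.Perm (Fin 5)} (h : Realizes s ω π)
    (h' : Realizes s ω' π) : ω = ω' := ext_five fun t i => by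
  rcases zmod_two_cases s t with rfl | rfl
  · rw [h.1, h'.1]
  · rw [h.2, h'.2]

theorem realizes_one (s : ZMod 2) : Realizes s 1 1 := ⟨fun _ => ap_one _, fun _ => ap_one _⟩

theorem Realizes.mul {s : ZMod 2} {ω ω' : O8} {π π' : Equiv.Perm (Fin 5)} (h : Realizes s ω π)
    (h' : Realizes s ω' π') : Realizes s (ω * ω') (π * π') :=
  ⟨fun i => by rw [ap_mul, h'.1, h.1]; rfl, fun i => by rw [ap_mul, h'.2, h.2]⟩

/-- Every permutation is induced, in the commutator subgroup exactly for even permutations. -/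
theorem exists_realizes (s : ZMod 2) (π : Equiv.Perm (Fin 5)) :
    ∃ ω, Realizes s ω π ∧ (ω ∈ Om ↔ Equiv.Perm.sign π = 1) := by
  refine Equiv.Perm.swap_induction_on π ⟨1, realizes_one s, by simp⟩ ?_
  rintro f i j hij ⟨ω, hω, hm⟩
  obtain ⟨hw, ho, hs⟩ := five_swap s i j hij
  refine ⟨H5.refl Q8 (five s i + five s j) * ω, Realizes.mul ⟨fun k => ?_, fun k => ?_⟩ hω, ?_⟩
  · rw [refl_ap hw, hs k]
  · rw [refl_ap hw, ho k, zero_smul, add_zero]
  · rw [Subgroup.mul_mem_iff_of_index_two index_Om, Equiv.Perm.sign_mul, Equiv.Perm.sign_swap hij]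
    simp only [refl_not_mem hw, false_iff, hm]
    rcases Int.units_eq_one_or (Equiv.Perm.sign f) with e | e <;> simp [e]

theorem Realizes.mem_iff {s : ZMod 2} {ω : O8} {π : Equiv.Perm (Fin 5)} (h : Realizes s ω π) :
    ω ∈ Om ↔ Equiv.Perm.sign π = 1 := by
  obtain ⟨ω', h', hm⟩ := exists_realizes s π
  rw [h.uniq h', hm]

/-- An isometry preserving one space permutes its points. -/
theorem exists_perm {s : ZMod 2} {ω : O8} (h : ∀ i, InW s (ap ω (five s i))) :
    ∃ π : Equiv.Perm (Fin 5), ∀ i, ap ω (five s i) = five s (π i) := by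
  choose f hf using fun i => sing_five s _ (h i) (by rw [ap_q]; exact (five_spec s i).1)
    (fun e => (five_spec s i).2.1 (ap_inj ω (e.trans (ap_zero ω).symm)))
  have hinj : Function.Injective f := fun i j e =>
    (five_spec s i).2.2.2 j (ap_inj ω (by rw [hf i, hf j, e]))
  exact ⟨Equiv.ofBijective f (Finite.injective_iff_bijective.1 hinj), hf⟩

/-- An isometry permuting the points of one space preserves the other. -/
theorem preserves_other {s : ZMod 2} {ω : O8} {π : Equiv.Perm (Fin 5)}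
    (h : ∀ i, ap ω (five s i) = five s (π i)) (i : Fin 5) : InW (1 + s) (ap ω (five (1 + s) i)) := by
  intro j
  rw [one_add_one_add, show five s j = ap ω (five s (π.symm j)) by rw [h, Equiv.apply_symm_apply],
    ap_B]
  have := (five_spec (1 + s) i).2.2.1 (π.symm j)
  rwa [one_add_one_add] at this

/-- A permutation of five points commuting with one of order five is a power of it. -/
theorem perm_five_comm {π τ : Equiv.Perm (Fin 5)} (h5 : τ ^ 5 = 1) (h1 : τ ≠ 1)
    (hc : π * τ = τ * π) : ∃ n : ℕ, π = τ ^ n := by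
  obtain ⟨p, hp⟩ : ∃ p, τ p ≠ p := by
    by_contra h
    push Not at h
    exact h1 (Equiv.ext h)
  let f : Fin 5 → Fin 5 := fun i => (τ ^ (i : ℕ)) p
  have hfix : ∀ n : ℕ, (τ ^ n) p = p → 5 ∣ n := by
    intro n hn
    by_contra h
    have hcop : Nat.Coprime 5 n := (Nat.Prime.coprime_iff_not_dvd (by norm_num)).2 h
    obtain ⟨m, -, hm⟩ := Nat.exists_mul_mod_eq_one_of_coprime hcop.symm (by norm_num)
    have e : τ ^ (n * m) = τ := by rw [pow_eq_pow_mod _ h5, hm, pow_one]
    have hiter : ∀ k : ℕ, ((τ ^ n) ^ k) p = p := by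
      intro k
      induction k with
      | zero => rfl
      | succ k ih => rw [pow_succ, Equiv.Perm.mul_apply, hn, ih]
    exact hp (by conv_lhs => rw [← e, pow_mul, hiter])
  have hinj : Function.Injective f := by
    intro i j e
    rcases le_total (i : ℕ) j with hle | hle
    · have := hfix ((j : ℕ) - i) ((τ ^ (i : ℕ)).injective (by
        rw [← Equiv.Perm.mul_apply, ← pow_add, Nat.add_sub_cancel' hle]; exact e.symm))
      exact Fin.ext (by omega)
    · have := hfix ((i : ℕ) - j) ((τ ^ (j : ℕ)).injective (by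
        rw [← Equiv.Perm.mul_apply, ← pow_add, Nat.add_sub_cancel' hle]; exact e))
      exact Fin.ext (by omega)
  obtain ⟨a, ha⟩ := (Finite.injective_iff_surjective.1 hinj) (π p)
  refine ⟨a, Equiv.ext fun q => ?_⟩
  obtain ⟨b, rfl⟩ := (Finite.injective_iff_surjective.1 hinj) q
  have hcn : π * τ ^ (b : ℕ) = τ ^ (b : ℕ) * π := (Commute.pow_right hc _).eq
  show π ((τ ^ (b : ℕ)) p) = (τ ^ (a : ℕ)) ((τ ^ (b : ℕ)) p)
  rw [← Equiv.Perm.mul_apply, hcn, Equiv.Perm.mul_apply, ← ha]
  show (τ ^ (b : ℕ)) ((τ ^ (a : ℕ)) p) = _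
  rw [← Equiv.Perm.mul_apply, ← Equiv.Perm.mul_apply, ← pow_add, ← pow_add, add_comm]

end Cfsg.Agent.H41.CoType
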