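import Cfsg.Agent.H41.CoType.Action
import Cfsg.Agent.H41.CoType.Minus

/-! Coordinates adapted to an element of order five with fixed space of minus type. -/

set_option autoImplicit false
set_option linter.unusedSimpArgs false
set_option linter.unusedSectionVars false

namespace Cfsg.Agent.H41.CoType

open Cfsg.Agent
open Cfsg.Agent.H18 (SingPt OrthPair)

/-- A set stable under an element of order dividing five, of size prime to five, has a fixed point. -/
theorem exists_fixed_five {G : Type*} [Group G] [Finite G] {β : G} (h5 : β ^ 5 = 1) (A : Set G)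
    (hA : ∀ x ∈ A, β * x * β⁻¹ ∈ A) (hcard : ¬ 5 ∣ Nat.card A) : ∃ x ∈ A, β * x = x * β := by
  classical
  haveI := Fintype.ofFinite G
  haveI : Fact (Nat.Prime 5) := ⟨by norm_num⟩
  let f : A → A := fun x => ⟨β * x * β⁻¹, hA x x.2⟩
  have hinj : Function.Injective f := fun x y h =>
    Subtype.ext (mul_left_cancel (mul_right_cancel (congrArg Subtype.val h)))
  let σ : Equiv.Perm A := Equiv.ofBijective f (Finite.injective_iff_bijective.1 hinj)
  have hit : ∀ n : ℕ, ∀ x : A, (((σ ^ n) x : A) : G) = β ^ n * x * (β ^ n)⁻¹ := by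
    intro n
    induction n with
    | zero => intro x; simp
    | succ n ih =>
      intro x
      rw [pow_succ', Equiv.Perm.mul_apply]
      show β * (((σ ^ n) x : A) : G) * β⁻¹ = _
      rw [ih, pow_succ']
      group
  obtain ⟨x, hx⟩ := Equiv.Perm.exists_fixed_point_of_prime (p := 5) (n := 1) (σ := σ)
    (by rwa [← Nat.card_eq_fintype_card]) (Equiv.ext fun x => Subtype.ext (by
      rw [pow_one, hit, h5]; simp))
  exact ⟨x, x.2, mul_inv_eq_iff_eq_mul.1 (congrArg Subtype.val hx)⟩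

namespace Setting

variable {G : Type*} [Group G] (S : Setting G)

theorem zp_pow (a : ZMod 2) (n : ℕ) : S.zp a ^ n = S.zp (n * a) := by
  induction n with
  | zero => simp [zp_zero]
  | succ n ih => rw [pow_succ, ih, ← S.zp_add]; push_cast; ring_nf

/-- An element of order dividing five commutes with an element of `F` when it fixes its class. -/
theorem commute_five {β : G} (hC : β ∈ S.C) (h5 : β ^ 5 = 1) {x : G} (hx : x ∈ S.F) :
    β * x = x * β ↔ ap (S.ρ ⟨β, hC⟩) (S.co x) = S.co x := by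
  rw [← S.act' hC hx]
  refine ⟨fun h => by rw [h, mul_inv_cancel_right], fun h => ?_⟩
  obtain ⟨i, hi⟩ := S.exists_zp hx (S.norm hC hx) h.symm
  have hit : ∀ n : ℕ, β ^ n * x * (β ^ n)⁻¹ = x * S.zp (n * i) := by
    intro n
    induction n with
    | zero => simp [zp_zero]
    | succ n ih =>
      have hz : β * S.zp (n * i) * β⁻¹ = S.zp (n * i) := by
        rw [S.zp_comm _ (S.mem_C.1 hC), mul_inv_cancel_right]
      calc β ^ (n + 1) * x * (β ^ (n + 1))⁻¹ = β * (β ^ n * x * (β ^ n)⁻¹) * β⁻¹ := by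
            rw [pow_succ']; group
        _ = (β * x * β⁻¹) * (β * S.zp (n * i) * β⁻¹) := by rw [ih]; group
        _ = _ := by
          rw [hz, hi, mul_assoc, ← S.zp_add]
          push_cast; ring_nf
  have := hit 5
  rw [h5, one_mul, inv_one, mul_one, eq_comm, mul_eq_left, S.zp_eq_one] at this
  have hi0 : i = 0 := by
    rcases bit i with e | e
    · exact e
    · rw [e] at this; exact absurd this (by decide)
  rw [hi0, zp_zero, mul_one] at hi
  exact mul_inv_eq_iff_eq_mul.1 hi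

/-- Changing coordinates by an isometry. -/
noncomputable def transform (ω : O8) : Setting G where
  F := S.F
  z := S.z
  co x := ap ω (S.co x)
  ρ := (MulAut.conj ω).toMonoidHom.comp S.ρ
  pt := S.pt
  co_mul x hx y hy := by rw [S.co_mul x hx y hy, ap_add]
  co_eq x hx h := S.co_eq x hx (ap_inj ω (h.trans (ap_zero ω).symm))
  co_z := by rw [S.co_z, ap_zero]
  co_surj v := by
    obtain ⟨x, hx, h⟩ := S.co_surj (ap ω⁻¹ v)
    exact ⟨x, hx, by rw [h, ← ap_mul, mul_inv_cancel, ap_one]⟩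
  sq_iff x hx := by rw [ap_q]; exact S.sq_iff x hx
  act c x hx := by
    rw [S.act c x hx]
    show _ = ap (ω * S.ρ c * ω⁻¹) _
    rw [ap_mul, ap_mul, ← ap_mul ω⁻¹, inv_mul_cancel, ap_one]
  range := by
    rw [MonoidHom.range_comp, S.range]
    rw [Om, commutator_def, Subgroup.map_commutator,
      Subgroup.map_top_of_surjective _ (MulAut.conj ω).surjective]
  conj := S.conj

theorem transform_rho (ω : O8) {c : G} (hc : c ∈ S.C) :
    (S.transform ω).ρ ⟨c, hc⟩ = ω * S.ρ ⟨c, hc⟩ * ω⁻¹ := rfl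

/-- A basis of the fixed space of minus type. -/
theorem exists_minus_basis (Φ : Set F8) (h0 : (0 : F8) ∈ Φ) (hadd : ∀ x ∈ Φ, ∀ y ∈ Φ, x + y ∈ Φ)
    (hcard : Φ.ncard = 16) (hnd : ∀ x ∈ Φ, (∀ y ∈ Φ, B8 x y = 0) → x = 0)
    (hmin : ∀ x ∈ Φ, ∀ y ∈ Φ, q8 x = 0 → q8 y = 0 → B8 x y = 0 → x = 0 ∨ y = 0 ∨ x = y) :
    ∃ e f a c, e ∈ Φ ∧ f ∈ Φ ∧ a ∈ Φ ∧ c ∈ Φ ∧ q8 e = 0 ∧ q8 f = 0 ∧ B8 e f = 1 ∧ q8 a = 1 ∧
      q8 c = 1 ∧ B8 a c = 1 ∧ B8 e a = 0 ∧ B8 e c = 0 ∧ B8 f a = 0 ∧ B8 f c = 0 := by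
  classical
  have avoid : ∀ T : Finset F8, T.card < 16 → ∃ x ∈ Φ, x ∉ T := by
    intro T hT
    by_contra h
    push Not at h
    have := Set.ncard_le_ncard (show Φ ⊆ ↑T from fun x hx => h x hx)
    rw [hcard, Set.ncard_coe_finset] at this
    omega
  obtain ⟨e, he, he0, hqe⟩ : ∃ e ∈ Φ, e ≠ 0 ∧ q8 e = 0 := by
    by_contra h
    push Not at h
    have h1 : ∀ x ∈ Φ, x ≠ 0 → q8 x = 1 := fun x hx hx0 => (bit _).resolve_left (h x hx hx0)
    have hB : ∀ x ∈ Φ, ∀ y ∈ Φ, x ≠ 0 → y ≠ 0 → x ≠ y → B8 x y = 1 := by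
      intro x hx y hy hx0 hy0 hne
      have := h1 _ (hadd x hx y hy) fun e => hne (eq_of_add8 e)
      rw [q_add, h1 x hx hx0, h1 y hy hy0, two0, zero_add] at this
      exact this
    obtain ⟨x, hx, hx'⟩ := avoid {0} (by simp)
    obtain ⟨y, hy, hy'⟩ := avoid {0, x} (lt_of_le_of_lt Finset.card_le_two (by norm_num))
    obtain ⟨w, hw, hw'⟩ := avoid {0, x, y, x + y} (lt_of_le_of_lt Finset.card_le_four (by norm_num))
    simp only [Finset.mem_insert, Finset.mem_singleton, not_or] at hx' hy' hw'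
    have e1 := hB w hw _ (hadd x hx y hy) hw'.1 (fun e => hy'.2 (eq_of_add8 e).symm) hw'.2.2.2
    rw [B_add_right, hB w hw x hx hw'.1 hx' hw'.2.1, hB w hw y hy hw'.1 hy'.1 hw'.2.2.1] at e1
    exact absurd e1 (by decide)
  obtain ⟨f, hf, hqf, hef⟩ : ∃ f ∈ Φ, q8 f = 0 ∧ B8 e f = 1 := by
    obtain ⟨y, hy, hey⟩ : ∃ y ∈ Φ, B8 e y = 1 := by
      by_contra h
      push Not at h
      exact he0 (hnd e he fun y hy => (bit _).resolve_right (h y hy))
    rcases bit (q8 y) with hq | hq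
    · exact ⟨y, hy, hq, hey⟩
    · refine ⟨y + e, hadd y hy e he, ?_, ?_⟩
      · rw [q_add, hq, hqe, B_comm, hey]; decide
      · rw [B_add_right, hey, B_self, add_zero]
  have hfe : B8 f e = 1 := by rw [B_comm, hef]
  have hsmul : ∀ (t : ZMod 2) x, x ∈ Φ → t • x ∈ Φ := fun t x hx => by
    rcases bit t with rfl | rfl
    · rwa [zero_smul]
    · rwa [one_smul]
  let π : F8 → F8 := fun x => x + (B8 x f • e + B8 x e • f)
  have hπ : ∀ x ∈ Φ, π x ∈ Φ ∧ B8 e (π x) = 0 ∧ B8 f (π x) = 0 := by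
    intro x hx
    refine ⟨hadd _ hx _ (hadd _ (hsmul _ e he) _ (hsmul _ f hf)), ?_, ?_⟩
    · simp only [π, B_add_right, B_smul_right, B_self, hef, B_comm e x, mul_zero, zero_add, mul_one]
      exact two0 _
    · simp only [π, B_add_right, B_smul_right, B_self, hfe, B_comm f x, mul_zero, add_zero, mul_one]
      exact two0 _
  have hback : ∀ x, x = π x + (B8 x f • e + B8 x e • f) := fun x => by
    show x = x + _ + _
    rw [add_assoc, two8, add_zero]
  have h4 : ({0, e, f, e + f} : Finset F8).card < 8 :=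
    lt_of_le_of_lt Finset.card_le_four (by norm_num)
  have hcomb : ∀ s t : ZMod 2, s • e + t • f ∈ ({0, e, f, e + f} : Finset F8) := fun s t => by
    rcases bit s with rfl | rfl <;> rcases bit t with rfl | rfl <;> simp
  obtain ⟨x₁, hx₁, hx₁'⟩ := avoid {0, e, f, e + f} (by omega)
  set a := π x₁ with ha
  have ha0 : a ≠ 0 := fun h => hx₁' (by rw [hback x₁, ← ha, h, zero_add]; exact hcomb _ _)
  obtain ⟨x₂, hx₂, hx₂'⟩ := avoid
    ({0, e, f, e + f} ∪ ({0, e, f, e + f} : Finset F8).image (a + ·))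
    (lt_of_le_of_lt (Finset.card_union_le _ _) (by
      have := Finset.card_image_le (s := ({0, e, f, e + f} : Finset F8)) (f := (a + ·))
      omega))
  set c := π x₂ with hc
  rw [Finset.mem_union, not_or] at hx₂'
  have hc0 : c ≠ 0 := fun h => hx₂'.1 (by rw [hback x₂, ← hc, h, zero_add]; exact hcomb _ _)
  have hca : c ≠ a := fun h => hx₂'.2 (Finset.mem_image.2 ⟨_, hcomb (B8 x₂ f) (B8 x₂ e), by
    rw [← h, hc]; exact (hback x₂).symm⟩)
  have hq1 : ∀ x ∈ Φ, x ≠ 0 → B8 e x = 0 → B8 f x = 0 → q8 x = 1 := by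
    intro x hx hx0 h1 h2
    refine (bit _).resolve_left fun h => ?_
    rcases hmin e he x hx hqe h h1 with r | r | r
    · exact he0 r
    · exact hx0 r
    · rw [← r, hfe] at h2; exact one_ne_zero h2
  obtain ⟨haΦ, hea, hfa⟩ := hπ x₁ hx₁
  obtain ⟨hcΦ, hec, hfc⟩ := hπ x₂ hx₂
  have hqa := hq1 a haΦ ha0 hea hfa
  have hqc := hq1 c hcΦ hc0 hec hfc
  refine ⟨e, f, a, c, he, hf, haΦ, hcΦ, hqe, hqf, hef, hqa, hqc, ?_, hea, hec, hfa, hfc⟩
  have := hq1 _ (hadd c hcΦ a haΦ) (fun h => hca (eq_of_add8 h))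
    (by rw [B_add_right, hec, hea, add_zero]) (by rw [B_add_right, hfc, hfa, add_zero])
  rw [q_add, hqc, hqa, two0, zero_add, B_comm] at this
  exact this

end Setting

/-- The data of an element of order five with fixed space of minus type. -/
structure Pent (G : Type*) [Group G] [Finite G] where
  T : Frame G
  β : G
  hC : β ∈ T.S.C
  h5 : β ^ 5 = 1
  fix : ∀ x, ap (T.S.ρ ⟨β, hC⟩) x = x ↔ InW 0 x
  hv : β * T.v = T.v * β

/-- Coordinates adapted to an element of order five. -/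
theorem exists_pent {G : Type*} [Group G] [Finite G] (S : Setting G) {β : G} (hC : β ∈ S.C)
    (h5 : β ^ 5 = 1) (hcard : Nat.card {x : G // x ∈ S.F ∧ β * x = x * β} = 32)
    (hnd : ∀ x ∈ S.F, β * x = x * β → (∀ y ∈ S.F, β * y = y * β → x * y = y * x) → x = 1 ∨ x = S.z)
    (hmin : ∀ x ∈ S.F, ∀ y ∈ S.F, β * x = x * β → β * y = y * β → x * x = 1 → y * y = 1 →
      x * y = y * x → S.co x = 0 ∨ S.co y = 0 ∨ S.co x = S.co y) :
    ∃ P : Pent G, P.T.S.F = S.F ∧ P.T.S.z = S.z ∧ P.β = β := by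
  classical
  set σ := S.ρ ⟨β, hC⟩ with hσ
  let Φ : Set F8 := {x | ap σ x = x}
  have hmem : ∀ {x}, x ∈ S.F → (β * x = x * β ↔ S.co x ∈ Φ) := fun hx => S.commute_five hC h5 hx
  have hΦ : Φ.ncard = 16 := by
    obtain ⟨T₀, hT₀⟩ := exists_frame S
    subst hT₀
    have h := T₀.card_preimage fun v => ap σ v = v
    rw [show Nat.card {x : G // x ∈ T₀.S.F ∧ ap σ (T₀.S.co x) = T₀.S.co x} = 32 by
      rw [← hcard]
      exact Nat.card_congr (Equiv.subtypeEquivRight fun x =>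
        and_congr_right fun hx => (hmem hx).symm)] at h
    rw [← Nat.card_coe_set_eq]
    show Nat.card {v : F8 // ap σ v = v} = 16
    omega
  obtain ⟨e, f, a, c, he, hf, ha, hc, hqe, hqf, hef, hqa, hqc, hac, hea, hec, hfa, hfc⟩ :=
    Setting.exists_minus_basis Φ (ap_zero σ) (fun x hx y hy => by
      show ap σ (x + y) = x + y
      rw [ap_add, show ap σ x = x from hx, show ap σ y = y from hy]) hΦ
      (fun x hx h => by
        obtain ⟨x', hx', rfl⟩ := S.co_surj x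
        rcases hnd x' hx' ((hmem hx').2 hx) (fun y hy hyb =>
          (S.commute_iff hx' hy).2 (h _ ((hmem hy).1 hyb))) with e | e
        · rw [e, S.co_one]
        · rw [e, S.co_z])
      (fun x hx y hy h1 h2 h3 => by
        obtain ⟨x', hx', rfl⟩ := S.co_surj x
        obtain ⟨y', hy', rfl⟩ := S.co_surj y
        exact hmin x' hx' y' hy' ((hmem hx').2 hx) ((hmem hy').2 hy) ((S.sq_iff x' hx').2 h1)
          ((S.sq_iff y' hy').2 h2) ((S.commute_iff hx' hy').2 h3))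
  have hA : ∀ k : Fin 4 → ZMod 2, ∑ i, k i • (![e, f, a, c] : Fin 4 → F8) i = 0 → k = 0 := by
    intro k hk
    simp only [Fin.sum_univ_four, Matrix.cons_val_zero, Matrix.cons_val_one, Matrix.cons_val] at hk
    have hB : ∀ w, k 0 * B8 w e + k 1 * B8 w f + k 2 * B8 w a + k 3 * B8 w c = 0 := fun w => by
      have := congrArg (B8 w) hk
      simpa only [B_add_right, B_smul_right, B_zero_right] using this
    have h1 := hB e; have h2 := hB f; have h3 := hB a; have h4 := hB c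
    simp only [B_self, hef, hea, hec, hfa, hfc, hac, B_comm f e, B_comm a e, B_comm a f, B_comm c e,
      B_comm c f, B_comm c a, mul_zero, mul_one, add_zero, zero_add] at h1 h2 h3 h4
    funext i
    fin_cases i <;> assumption
  obtain ⟨ω, -, hω⟩ := witt ![e, f, a, c] ![eps 0, eta 0, sa 1, sc 1] hA (by decide +kernel)
    (fun k => by
      simp only [Fin.sum_univ_four, Matrix.cons_val_zero, Matrix.cons_val_one, Matrix.cons_val, q_add,
        q_smul, B_add_left, B_smul_left, B_smul_right, hqe, hqf, hqa, hqc, hef, hea, hec, hfa, hfc,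
        hac]
      generalize k 0 = p
      generalize k 1 = q
      generalize k 2 = r
      generalize k 3 = s
      revert p q r s
      decide +kernel)
    (eps 1 + eta 1 + eta 2) (by decide +kernel) (by decide +kernel)
  set S' := S.transform ω with hS'
  have hfix' : ∀ x, ap (S'.ρ ⟨β, hC⟩) x = x ↔ ap ω⁻¹ x ∈ Φ := by
    intro x
    rw [S.transform_rho ω hC, ap_mul, ap_mul, ← hσ]
    constructor
    · intro h
      exact ap_inj ω (h.trans (by rw [← ap_mul, mul_inv_cancel, ap_one]))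
    · intro h
      rw [show ap σ (ap ω⁻¹ x) = ap ω⁻¹ x from h, ← ap_mul, mul_inv_cancel, ap_one]
  have hsub : {x | InW 0 x} ⊆ {x | ap (S'.ρ ⟨β, hC⟩) x = x} := by
    intro x hx
    obtain ⟨p, q, r, s, rfl⟩ := inW_zero_span x hx
    have hb : ∀ i, ap (S'.ρ ⟨β, hC⟩) ((![eps 0, eta 0, sa 1, sc 1] : Fin 4 → F8) i) =
        (![eps 0, eta 0, sa 1, sc 1] : Fin 4 → F8) i := by
      intro i
      refine (hfix' _).2 ?_
      rw [← hω i, ← ap_mul, inv_mul_cancel, ap_one]
      fin_cases i <;> assumption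
    show ap _ _ = _
    simp only [ap_add, ap_smul]
    exact congrArg₂ (· + ·) (congrArg₂ (· + ·) (congrArg₂ (· + ·) (congrArg _ (hb 0))
      (congrArg _ (hb 1))) (congrArg _ (hb 2))) (congrArg _ (hb 3))
  have hle : {x | ap (S'.ρ ⟨β, hC⟩) x = x}.ncard ≤ {x : F8 | InW 0 x}.ncard := by
    have h1 : {x | ap (S'.ρ ⟨β, hC⟩) x = x} = (fun x => ap ω x) '' Φ := by
      ext x
      constructor
      · intro h
        exact ⟨_, (hfix' x).1 h, by show ap ω (ap ω⁻¹ x) = x; rw [← ap_mul, mul_inv_cancel, ap_one]⟩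
      · rintro ⟨y, hy, rfl⟩
        refine (hfix' _).2 ?_
        rwa [← ap_mul, inv_mul_cancel, ap_one]
    rw [h1, Set.ncard_image_of_injective _ (fun x y h => ap_inj ω h), hΦ, ← Nat.card_coe_set_eq,
      Nat.card_eq_fintype_card]
    decide +kernel
  have heq := Set.eq_of_subset_of_ncard_le hsub hle (Set.toFinite _)
  have hfix : ∀ x, ap (S'.ρ ⟨β, hC⟩) x = x ↔ InW 0 x := fun x => by
    have := Set.ext_iff.1 heq x
    exact this.symm
  obtain ⟨T, hT⟩ := exists_frame S'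
  obtain ⟨S₁, g, o, hb, u, hu, hcu, v, hv, hvb, hvz⟩ := T
  change S₁ = S' at hT
  subst hT
  let T₁ : Frame G := ⟨S', g, o, hb, u, hu, hcu, v, hv, hvb, hvz⟩
  have hcomm : ∀ {x}, x ∈ S'.F → InW 0 (S'.co x) → β * x = x * β := fun {x} hx h =>
    (S'.commute_five hC h5 hx).2 ((hfix _).2 h)
  have hβb : β * T₁.b = T₁.b * β := hcomm T₁.b_mem (T₁.hb.symm ▸ inW_zero_basis.1)
  have hβD : β ∈ T₁.D := T₁.mem_D.2 ⟨S'.mem_C.1 hC, hβb⟩
  -- a fixed translation
  let A : Set G := {x | x ∈ OrthPair.F' S'.F g ∧ x * T₁.b * x⁻¹ = T₁.b ∧ x * T₁.z * x⁻¹ = T₁.z * T₁.b}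
  have hAcard : Nat.card A = Nat.card T₁.P' := by
    refine (Nat.card_congr (Equiv.ofBijective (fun p : T₁.P' => (⟨v * p, ?_, ?_, ?_⟩ : A))
      ⟨fun p p' h => ?_, fun x => ?_⟩)).symm
    · exact mul_mem hv p.2.1
    · calc v * p * T₁.b * (v * p)⁻¹ = v * (p * T₁.b * (p : G)⁻¹) * v⁻¹ := by group
        _ = T₁.b := by rw [(T₁.mem_D.1 (T₁.P'_le_D p.2)).2, mul_inv_cancel_right]; exact hvb
    · calc v * p * T₁.z * (v * p)⁻¹ = v * (p * T₁.z * (p : G)⁻¹) * v⁻¹ := by group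
        _ = _ := by rw [(T₁.mem_D.1 (T₁.P'_le_D p.2)).1, mul_inv_cancel_right]; exact hvz
    · exact Subtype.ext (mul_left_cancel (congrArg Subtype.val h))
    · obtain ⟨hx, hxb, hxz⟩ := x.2
      refine ⟨⟨v⁻¹ * x, (OrthPair.F' S'.F g).mul_mem ((OrthPair.F' S'.F g).inv_mem hv) hx, Subgroup.mem_centralizer_singleton_iff.2 ?_⟩,
        Subtype.ext (mul_inv_cancel_left v x)⟩
      rw [← mul_inv_eq_iff_eq_mul]
      calc v⁻¹ * (x : G) * T₁.z * (v⁻¹ * (x : G))⁻¹ = v⁻¹ * ((x : G) * T₁.z * (x : G)⁻¹) * v := by group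
        _ = v⁻¹ * (v * T₁.z * v⁻¹) * v := by rw [hxz]; exact congrArg (fun t => v⁻¹ * t * v) hvz.symm
        _ = _ := by rw [mul_assoc v, inv_mul_cancel_left, inv_mul_cancel_right]
  obtain ⟨v', ⟨hv', hv'b, hv'z⟩, hv'β⟩ := exists_fixed_five h5 A (fun x hx => by
      obtain ⟨h1, h2, h3⟩ := hx
      have hz' : β * T₁.z = T₁.z * β := S'.mem_C.1 hC
      refine ⟨T₁.o.CV_norm_F' hβD h1, ?_, ?_⟩
      · have e : β⁻¹ * T₁.b * β = T₁.b := by rw [mul_assoc, ← hβb, inv_mul_cancel_left]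
        calc β * x * β⁻¹ * T₁.b * (β * x * β⁻¹)⁻¹
            = β * (x * (β⁻¹ * T₁.b * β) * x⁻¹) * β⁻¹ := by group
          _ = _ := by rw [e, h2, hβb, mul_inv_cancel_right]
      · have e : β⁻¹ * T₁.z * β = T₁.z := by rw [mul_assoc, ← hz', inv_mul_cancel_left]
        calc β * x * β⁻¹ * T₁.z * (β * x * β⁻¹)⁻¹
            = β * (x * (β⁻¹ * T₁.z * β) * x⁻¹) * β⁻¹ := by group
          _ = β * (T₁.z * T₁.b) * β⁻¹ := by rw [e, h3]
          _ = _ := by
            rw [← mul_assoc, hz', mul_assoc T₁.z β, hβb, ← mul_assoc, mul_inv_cancel_right])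
    (by
      rw [hAcard]
      obtain ⟨k, hk⟩ := ((IsPGroup.iff_card (p := 2)).1 (T₁.o.R_isPGroup.to_le
        (show T₁.P' ≤ T₁.R from fun x hx => T₁.P'_le_R hx)))
      rw [hk]
      intro h5'
      have := Nat.Prime.dvd_of_dvd_pow (by norm_num : Nat.Prime 5) h5'
      norm_num at this)
  exact ⟨⟨⟨S', g, o, hb, u, hu, hcu, v', hv', hv'b, hv'z⟩, β, hC, h5, hfix, hv'β⟩, rfl, rfl, rfl⟩

end Cfsg.Agent.H41.CoType
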