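import Cfsg.Agent.H41.CoType.Separate
import Cfsg.Agent.H41.CoType.Adapt

/-! The centralizer of an element of order five inside the centralizer of the involution, and the
elements centralizing it. -/

set_option autoImplicit false
set_option linter.unusedSimpArgs false
set_option linter.unusedSectionVars false

namespace Cfsg.Agent.H41.CoType

open Cfsg.Agent
open Cfsg.Agent.H18 (SingPt OrthPair)

theorem Realizes.fix_other {ω : O8} {π : Equiv.Perm (Fin 5)} (h : Realizes 1 ω π) (i : Fin 5) :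
    ap ω (five 0 i) = five 0 i := h.2 i

theorem Realizes.pow {s : ZMod 2} {ω : O8} {π : Equiv.Perm (Fin 5)} (h : Realizes s ω π) (n : ℕ) :
    Realizes s (ω ^ n) (π ^ n) := by
  induction n with
  | zero => exact realizes_one s
  | succ n ih => rw [pow_succ, pow_succ]; exact ih.mul h

theorem Realizes.inv {s : ZMod 2} {ω : O8} {π : Equiv.Perm (Fin 5)} (h : Realizes s ω π) :
    Realizes s ω⁻¹ π⁻¹ := by
  refine ⟨fun i => ap_inj ω ?_, fun i => ap_inj ω ?_⟩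
  · rw [← ap_mul, mul_inv_cancel, ap_one, h.1]
    exact congrArg _ (π.apply_symm_apply i).symm
  · rw [← ap_mul, mul_inv_cancel, ap_one, h.2]

theorem Realizes.perm_uniq {s : ZMod 2} {ω : O8} {π π' : Equiv.Perm (Fin 5)} (h : Realizes s ω π)
    (h' : Realizes s ω π') : π = π' :=
  Equiv.ext fun i => (five_spec s (π i)).2.2.2 _ ((h.1 i).symm.trans (h'.1 i))

theorem pow4 {M : Type*} [Monoid M] {a : M} (h : a ^ 3 = 1) : a ^ 4 = a :=
  (pow_succ a 3).trans (by rw [h, one_mul])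

theorem fix_of_five {s : ZMod 2} {ω : O8} (h : ∀ i, ap ω (five s i) = five s i) {x : F8}
    (hx : InW s x) : ap ω x = x := by
  have e : x = ∑ i : Fin 5, (B8 x (five s i) + B8 x (five s 4)) • five s i := by
    conv_lhs => rw [five_decomp x]
    refine Finset.sum_eq_single s (fun t _ hts => ?_) (by simp)
    obtain rfl : t = 1 + s := (zmod_two_cases s t).resolve_left hts
    refine Finset.sum_eq_zero fun i _ => ?_
    rw [hx i, hx 4, add_zero, zero_smul]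
  rw [e]
  simp only [Fin.sum_univ_five, ap_add, ap_smul, h]

theorem inW_of_fix {s : ZMod 2} {ω : O8} (h : ∀ i, ap ω (five (1 + s) i) = five (1 + s) i) {x : F8}
    (hx : InW s x) : InW s (ap ω x) := fun j => by rw [← h j, ap_B]; exact hx j

namespace Pent

variable {G : Type*} [Group G] [Finite G] (P : Pent G)

theorem comm_F {y : G} (hy : y ∈ P.T.S.F) (h : InW 0 (P.T.S.co y)) : P.β * y = y * P.β :=
  (P.T.S.commute_five P.hC P.h5 hy).2 ((P.fix _).2 h)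

theorem inW_of_comm {y : G} (hy : y ∈ P.T.S.F) (h : P.β * y = y * P.β) : InW 0 (P.T.S.co y) :=
  (P.fix _).1 ((P.T.S.commute_five P.hC P.h5 hy).1 h)

theorem comm_u : P.β * P.T.u = P.T.u * P.β := P.comm_F P.T.hu (P.T.hcu.symm ▸ inW_zero_basis.2.1)

theorem comm_b : P.β * P.T.b = P.T.b * P.β := P.comm_F P.T.b_mem (P.T.hb.symm ▸ inW_zero_basis.1)

theorem comm_z : P.β * P.T.z = P.T.z * P.β := P.T.S.mem_C.1 P.hC

theorem β_mem_D : P.β ∈ P.T.D := P.T.mem_D.2 ⟨P.comm_z, P.comm_b⟩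

theorem F_pow_four {x : G} (hx : x ∈ P.T.S.F) : x ^ 4 = 1 := by
  rw [show (4 : ℕ) = 2 * 2 by norm_num, pow_mul, pow_two, pow_two, P.T.S.sq hx, ← P.T.S.zp_add, two0,
    Setting.zp_zero]

theorem im_pow {c : G} (hc : c ∈ P.T.S.C) (n : ℕ) : P.T.im (pow_mem hc n) = P.T.im hc ^ n :=
  map_pow P.T.S.ρ ⟨c, hc⟩ n

theorem im_inv {c : G} (hc : c ∈ P.T.S.C) : P.T.im (inv_mem hc) = (P.T.im hc)⁻¹ :=
  map_inv P.T.S.ρ ⟨c, hc⟩

theorem im_of_F {c : G} (hc : c ∈ P.T.S.F) : P.T.im (P.T.S.F_le_C hc) = 1 :=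
  (P.T.S.rho_eq_one _).2 hc

theorem im_congr {c c' : G} (hc : c ∈ P.T.S.C) (hc' : c' ∈ P.T.S.C) (h : c = c') :
    P.T.im hc = P.T.im hc' := by subst h; rfl

theorem exists_tau : ∃ τ : Equiv.Perm (Fin 5), Realizes 1 (P.T.im P.hC) τ ∧ τ ^ 5 = 1 ∧ τ ≠ 1 := by
  have h0 : ∀ i, ap (P.T.im P.hC) (five 0 i) = five 0 ((1 : Equiv.Perm (Fin 5)) i) := fun i =>
    (P.fix _).2 (five_spec 0 i).2.2.1
  obtain ⟨τ, hτ⟩ := exists_perm (s := 1) (preserves_other (s := 0) h0)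
  have hR : Realizes 1 (P.T.im P.hC) τ := ⟨hτ, h0⟩
  refine ⟨τ, hR, ?_, fun e => ?_⟩
  · refine (hR.pow 5).perm_uniq ?_
    rw [← P.im_pow P.hC 5, P.im_congr _ (one_mem _) P.h5]
    rw [show P.T.im (one_mem P.T.S.C) = 1 from map_one P.T.S.ρ]
    exact realizes_one 1
  · have h := hτ 0
    rw [e] at h
    exact absurd ((P.fix _).1 h) (by decide +kernel)

/-- Elements commuting with the element of order five act as an even permutation and a power of it. -/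
theorem cent_perm {c : G} (hc : c ∈ P.T.S.C) (h : c * P.β = P.β * c) :
    ∃ π : Equiv.Perm (Fin 5), Equiv.Perm.sign π = 1 ∧
      ∃ n : ℕ, Realizes 0 (P.T.im hc * (P.T.im P.hC ^ n)⁻¹) π := by
  obtain ⟨τ, hτ, h5, h1⟩ := P.exists_tau
  set ω := P.T.im hc
  set σ := P.T.im P.hC
  have hcom : ∀ x, ap ω (ap σ x) = ap σ (ap ω x) := fun x => by
    rw [← ap_mul, ← ap_mul, ← P.T.im_mul, ← P.T.im_mul, P.im_congr _ _ h]
  obtain ⟨π, hπ⟩ := exists_perm (s := 0) (ω := ω) fun i => (P.fix _).1 (by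
    show ap σ _ = _
    rw [← hcom, hτ.fix_other])
  obtain ⟨π', hπ'⟩ := exists_perm (s := 1) (preserves_other (s := 0) hπ)
  have hc' : π' * τ = τ * π' := Equiv.ext fun i => (five_spec 1 _).2.2.2 _ (by
    show five 1 (π' (τ i)) = five 1 (τ (π' i))
    rw [← hπ', ← hτ.1, hcom, hπ', hτ.1])
  obtain ⟨n, hn⟩ := perm_five_comm h5 h1 hc'
  have hσ : Realizes 1 (σ ^ n)⁻¹ (τ ^ n)⁻¹ := (hτ.pow n).inv
  have hR : Realizes 0 (ω * (σ ^ n)⁻¹) π := by
    refine ⟨fun i => ?_, fun i => ?_⟩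
    · rw [ap_mul, hσ.fix_other, hπ]
    · show ap _ (five 1 i) = five 1 i
      rw [ap_mul, hσ.1, hπ', hn]
      exact congrArg _ ((τ ^ n).apply_symm_apply i)
  refine ⟨π, hR.mem_iff.1 ?_, n, hR⟩
  exact mul_mem (P.T.S.rho_mem hc) (inv_mem (pow_mem (P.T.S.rho_mem P.hC) n))

/-- Even permutations of the first five points are induced from the centralizer. -/
theorem lift_cent {ω : O8} {π : Equiv.Perm (Fin 5)} (hR : Realizes 0 ω π)
    (he : Equiv.Perm.sign π = 1) :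
    ∃ c, ∃ hc : c ∈ P.T.S.C, c * P.β = P.β * c ∧ P.T.im hc = ω := by
  obtain ⟨τ, hτ, -, -⟩ := P.exists_tau
  set σ := P.T.im P.hC
  obtain ⟨c, hc, hρ⟩ := P.T.S.exists_rho (hR.mem_iff.2 he)
  change P.T.im hc = ω at hρ
  have hcom : σ * ω = ω * σ := ext_five fun t i => by
    rcases zmod_two_cases 0 t with rfl | rfl
    · rw [ap_mul, ap_mul, hR.1, hτ.fix_other, hτ.fix_other, hR.1]
    · show ap (σ * ω) (five 1 i) = ap (ω * σ) (five 1 i)
      rw [ap_mul, ap_mul, show ap ω (five 1 i) = five 1 i from hR.2 i, hτ.1]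
      exact (hR.2 _).symm
  have hk : P.β * c * P.β⁻¹ * c⁻¹ ∈ P.T.S.F := by
    refine (P.T.S.rho_eq_one (mul_mem (mul_mem (mul_mem P.hC hc) (inv_mem P.hC)) (inv_mem hc))).1 ?_
    show P.T.im _ = 1
    rw [P.T.im_mul (mul_mem (mul_mem P.hC hc) (inv_mem P.hC)) (inv_mem hc),
      P.T.im_mul (mul_mem P.hC hc) (inv_mem P.hC), P.T.im_mul P.hC hc, P.im_inv P.hC, P.im_inv hc, hρ, hcom]
    show ω * σ * σ⁻¹ * ω⁻¹ = 1
    group
  obtain ⟨x, ⟨f, hf, rfl⟩, hx⟩ := exists_fixed_five P.h5 ((fun f => f * c) '' (P.T.S.F : Set G))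
    (fun x hx => by
      obtain ⟨f, hf, rfl⟩ := hx
      refine ⟨(P.β * f * P.β⁻¹) * (P.β * c * P.β⁻¹ * c⁻¹),
        mul_mem (P.T.S.norm P.hC hf) hk, ?_⟩
      show _ * c = P.β * (f * c) * P.β⁻¹
      group)
    (by
      rw [Nat.card_image_of_injective (mul_left_injective c), show Nat.card (P.T.S.F : Set G) = 512
        from P.T.S.card_F]
      norm_num)
  refine ⟨f * c, mul_mem (P.T.S.F_le_C hf) hc, hx.symm, ?_⟩
  rw [P.T.im_mul (P.T.S.F_le_C hf) hc, P.im_of_F hf, one_mul, hρ]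

/-- The elements of order three among these lifts. -/
def IsThree (l : G) : Prop :=
  l ^ 3 = 1 ∧ l * P.β = P.β * l ∧ ∃ hl : l ∈ P.T.S.C, ∀ i, ap (P.T.im hl) (five 1 i) = five 1 i

theorem exists_three {π : Equiv.Perm (Fin 5)} (h3 : π ^ 3 = 1) (he : Equiv.Perm.sign π = 1) :
    ∃ l, P.IsThree l ∧ ∃ hl : l ∈ P.T.S.C, Realizes 0 (P.T.im hl) π := by
  obtain ⟨ω, hR, -⟩ := exists_realizes 0 π
  obtain ⟨c, hc, hcβ, hρ⟩ := P.lift_cent hR he
  have hω3 : ω ^ 3 = 1 := (hR.pow 3).uniq (h3.symm ▸ realizes_one 0)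
  have him : P.T.im (pow_mem hc 4) = ω := by
    rw [P.im_pow hc 4, hρ, pow4 hω3]
  have hF : c ^ 3 ∈ P.T.S.F := (P.T.S.rho_eq_one (pow_mem hc 3)).1 (by
    show P.T.im _ = 1
    rw [P.im_pow hc 3, hρ, hω3])
  refine ⟨c ^ 4, ⟨?_, ((Commute.pow_left hcβ 4)).eq, pow_mem hc 4, fun i => ?_⟩, pow_mem hc 4, ?_⟩
  · rw [← pow_mul, show 4 * 3 = 3 * 4 by norm_num, pow_mul, P.F_pow_four hF]
  · rw [him]; exact hR.2 i
  · rw [him]; exact hR

/-- The subgroup generated by the fixed part of `F` and the lifts of order three. -/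
def Lz : Subgroup G :=
  Subgroup.closure ({y | y ∈ P.T.S.F ∧ InW 0 (P.T.S.co y)} ∪ {l | P.IsThree l})

theorem Lz_spec {l : G} (hl : l ∈ P.Lz) : l * P.β = P.β * l ∧
    ∃ hC : l ∈ P.T.S.C, ∀ i, ap (P.T.im hC) (five 1 i) = five 1 i := by
  induction hl using Subgroup.closure_induction with
  | mem x hx =>
    rcases hx with ⟨hF, hW⟩ | ⟨-, h1, h2⟩
    · exact ⟨(P.comm_F hF hW).symm, P.T.S.F_le_C hF, fun i => by rw [P.im_of_F hF, ap_one]⟩
    · exact ⟨h1, h2⟩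
  | one => exact ⟨by simp, one_mem _, fun i => by
      rw [show P.T.im (one_mem P.T.S.C) = 1 from map_one P.T.S.ρ, ap_one]⟩
  | mul x y _ _ hx hy =>
    obtain ⟨h1, hx', h2⟩ := hx
    obtain ⟨g1, hy', g2⟩ := hy
    exact ⟨by rw [mul_assoc, g1, ← mul_assoc, h1, mul_assoc], mul_mem hx' hy', fun i => by
      rw [P.T.im_mul hx' hy', ap_mul, g2, h2]⟩
  | inv x _ hx =>
    obtain ⟨h1, hx', h2⟩ := hx
    exact ⟨(Commute.inv_left h1).eq, inv_mem hx', fun i => ap_inj (P.T.im hx') (by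
      rw [← ap_mul, P.im_inv hx', mul_inv_cancel, ap_one, h2])⟩

theorem mem_Lz_of_F {y : G} (hy : y ∈ P.T.S.F) (h : InW 0 (P.T.S.co y)) : y ∈ P.Lz :=
  Subgroup.subset_closure (Or.inl ⟨hy, h⟩)

theorem pow_mem_Lz {k : ℕ} (h : P.β ^ k ∈ P.Lz) : P.β ^ k = 1 := by
  obtain ⟨τ, hτ, h5, h1⟩ := P.exists_tau
  obtain ⟨-, hC, hfix⟩ := P.Lz_spec h
  have hk : τ ^ k = 1 := (hτ.pow k).perm_uniq ⟨fun i => by
    show ap _ _ = _
    rw [← P.im_pow P.hC k]; exact hfix i, fun i => (hτ.pow k).2 i⟩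
  haveI : Fact (Nat.Prime 5) := ⟨by norm_num⟩
  have := orderOf_dvd_of_pow_eq_one hk
  rw [orderOf_eq_prime h5 h1] at this
  obtain ⟨j, rfl⟩ := this
  rw [pow_mul, P.h5, one_pow]

/-- The centralizer of the element of order five in the centralizer of the involution. -/
theorem exists_Lz {c : G} (hc : c ∈ P.T.S.C) (h : c * P.β = P.β * c) :
    ∃ n : ℕ, c * (P.β ^ n)⁻¹ ∈ P.Lz := by
  obtain ⟨π, hπ, n, hR⟩ := P.cent_perm hc h
  have hall : ∀ π ∈ Subgroup.closure {σ : Equiv.Perm (Fin 5) | σ.IsThreeCycle},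
      ∃ l ∈ P.Lz, ∃ hl : l ∈ P.T.S.C, Realizes 0 (P.T.im hl) π := by
    intro π hπ
    induction hπ using Subgroup.closure_induction with
    | mem σ hσ =>
      obtain ⟨l, hl, hlC, hR⟩ := P.exists_three (π := σ)
        (by rw [← hσ.orderOf, pow_orderOf_eq_one]) hσ.sign
      exact ⟨l, Subgroup.subset_closure (Or.inr hl), hlC, hR⟩
    | one => exact ⟨1, one_mem _, one_mem _, by
        rw [show P.T.im (one_mem P.T.S.C) = 1 from map_one P.T.S.ρ]; exact realizes_one 0⟩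
    | mul x y _ _ hx hy =>
      obtain ⟨l, hl, hlC, hR⟩ := hx
      obtain ⟨l', hl', hlC', hR'⟩ := hy
      exact ⟨l * l', mul_mem hl hl', mul_mem hlC hlC', by rw [P.T.im_mul hlC hlC']; exact hR.mul hR'⟩
    | inv x _ hx =>
      obtain ⟨l, hl, hlC, hR⟩ := hx
      exact ⟨l⁻¹, inv_mem hl, inv_mem hlC, by rw [P.im_inv hlC]; exact hR.inv⟩
  obtain ⟨l, hl, hlC, hR'⟩ := hall π (by
    rw [Equiv.Perm.closure_three_cycles_eq_alternating]
    exact Equiv.Perm.mem_alternatingGroup.2 hπ)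
  have hcn : c * (P.β ^ n)⁻¹ ∈ P.T.S.C := mul_mem hc (inv_mem (pow_mem P.hC n))
  have hf : c * (P.β ^ n)⁻¹ * l⁻¹ ∈ P.T.S.F := by
    refine (P.T.S.rho_eq_one (mul_mem hcn (inv_mem hlC))).1 ?_
    show P.T.im _ = 1
    rw [P.T.im_mul hcn (inv_mem hlC), P.T.im_mul hc (inv_mem (pow_mem P.hC n)), P.im_inv hlC,
      P.im_inv (pow_mem P.hC n), P.im_pow P.hC n, hR.uniq hR', mul_inv_cancel]
  have hβn : P.β ^ n * P.β = P.β * P.β ^ n := (Commute.pow_self P.β n).eq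
  have hcomm : c * (P.β ^ n)⁻¹ * l⁻¹ * P.β = P.β * (c * (P.β ^ n)⁻¹ * l⁻¹) :=
    ((Commute.mul_left h (Commute.inv_left hβn)).mul_left (Commute.inv_left (P.Lz_spec hl).1)).eq
  refine ⟨n, ?_⟩
  have := mul_mem (P.mem_Lz_of_F hf (P.inW_of_comm hf hcomm.symm)) hl
  rwa [inv_mul_cancel_right] at this

/-- The centralizer of the fixed part of `F`. -/
def IsX (x : G) : Prop :=
  x ∈ P.T.S.C ∧ ∀ y ∈ P.T.S.F, InW 0 (P.T.S.co y) → x * y = y * x

theorem isX_mul {x y : G} (hx : P.IsX x) (hy : P.IsX y) : P.IsX (x * y) :=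
  ⟨mul_mem hx.1 hy.1, fun w hw h => (Commute.mul_left (hx.2 w hw h) (hy.2 w hw h)).eq⟩

theorem isX_pow {x : G} (hx : P.IsX x) (n : ℕ) : P.IsX (x ^ n) :=
  ⟨pow_mem hx.1 n, fun w hw h => (Commute.pow_left (hx.2 w hw h) n).eq⟩

theorem isX_of_F {q : G} (hq : q ∈ P.T.S.F) (h : InW 1 (P.T.S.co q)) : P.IsX q :=
  ⟨P.T.S.F_le_C hq, fun y hy hW => (P.T.S.commute_iff hq hy).2 (by
    rw [B_comm]; exact inW_orth hW h)⟩

theorem isX_fix {x : G} (hx : P.IsX x) (i : Fin 5) : ap (P.T.im hx.1) (five 0 i) = five 0 i := by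
  obtain ⟨y, hy, hyi⟩ := P.T.S.co_surj (five 0 i)
  rw [← hyi, ← P.T.co_conj hx.1 hy, hx.2 y hy (hyi.symm ▸ (five_spec 0 i).2.2.1), mul_inv_cancel_right]

theorem exists_isX {ω : O8} {π : Equiv.Perm (Fin 5)} (hR : Realizes 1 ω π)
    (he : Equiv.Perm.sign π = 1) : ∃ x, ∃ hx : P.IsX x, P.T.im hx.1 = ω := by
  obtain ⟨c, hc, hρ⟩ := P.T.S.exists_rho (hR.mem_iff.2 he)
  change P.T.im hc = ω at hρ
  have hfix : ∀ y ∈ P.T.S.F, InW 0 (P.T.S.co y) → ∃ i, c * y * c⁻¹ = y * P.T.S.zp i := by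
    intro y hy hW
    refine P.T.S.exists_zp hy (P.T.S.norm hc hy) ?_
    rw [P.T.co_conj hc hy, hρ, fix_of_five (fun i => hR.fix_other i) hW]
  obtain ⟨w0, w1, w2, w3⟩ := inW_zero_basis
  obtain ⟨y0, hy0, e0⟩ := P.T.S.co_surj (eps 0)
  obtain ⟨y1, hy1, e1⟩ := P.T.S.co_surj (eta 0)
  obtain ⟨y2, hy2, e2⟩ := P.T.S.co_surj (sa 1)
  obtain ⟨y3, hy3, e3⟩ := P.T.S.co_surj (sc 1)
  obtain ⟨i0, h0⟩ := hfix y0 hy0 (e0.symm ▸ w0)
  obtain ⟨i1, h1⟩ := hfix y1 hy1 (e1.symm ▸ w1)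
  obtain ⟨i2, h2⟩ := hfix y2 hy2 (e2.symm ▸ w2)
  obtain ⟨i3, h3⟩ := hfix y3 hy3 (e3.symm ▸ w3)
  obtain ⟨wv, hwv, d0, d1, d2, d3⟩ := inW_zero_dual i0 i1 i2 i3
  obtain ⟨w, hw, ew⟩ := P.T.S.co_surj wv
  have hgen : ∀ {y} {i : ZMod 2}, y ∈ P.T.S.F → c * y * c⁻¹ = y * P.T.S.zp i →
      B8 wv (P.T.S.co y) = i → w * c * y = y * (w * c) := by
    intro y i hy hcy hB
    calc w * c * y = w * (c * y * c⁻¹) * c := by group
      _ = (w * y) * P.T.S.zp i * c := by rw [hcy]; group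
      _ = P.T.S.zp i * (y * w) * P.T.S.zp i * c := by rw [P.T.S.comm hw hy, ew, hB]
      _ = (y * w) * (P.T.S.zp i * P.T.S.zp i) * c := by
        rw [← P.T.S.zp_comm i (P.T.S.pt.comm_x _ (mul_mem hy hw))]; group
      _ = _ := by rw [← P.T.S.zp_add, two0, Setting.zp_zero]; group
  have g0 := hgen hy0 h0 (by rw [e0]; exact d0)
  have g1 := hgen hy1 h1 (by rw [e1]; exact d1)
  have g2 := hgen hy2 h2 (by rw [e2]; exact d2)
  have g3 := hgen hy3 h3 (by rw [e3]; exact d3)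
  have hxC : w * c ∈ P.T.S.C := mul_mem (P.T.S.F_le_C hw) hc
  refine ⟨w * c, ⟨hxC, fun y hy hW => ?_⟩, ?_⟩
  · obtain ⟨p, q, r, s, hv⟩ := inW_zero_span _ hW
    have key : ∀ (t : ZMod 2) {y' : G}, y' ∈ P.T.S.F → w * c * y' = y' * (w * c) →
        ∃ y'' ∈ P.T.S.F, P.T.S.co y'' = t • P.T.S.co y' ∧ Commute (w * c) y'' := by
      intro t y' hy' h'
      rcases bit t with rfl | rfl
      · exact ⟨1, one_mem _, by rw [zero_smul, P.T.S.co_one], Commute.one_right _⟩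
      · exact ⟨y', hy', by rw [one_smul], h'⟩
    obtain ⟨a0, ha0, ea0, ca0⟩ := key p hy0 g0
    obtain ⟨a1, ha1, ea1, ca1⟩ := key q hy1 g1
    obtain ⟨a2, ha2, ea2, ca2⟩ := key r hy2 g2
    obtain ⟨a3, ha3, ea3, ca3⟩ := key s hy3 g3
    have hprod : a0 * a1 * a2 * a3 ∈ P.T.S.F := mul_mem (mul_mem (mul_mem ha0 ha1) ha2) ha3
    obtain ⟨j, hj⟩ := P.T.S.exists_zp hprod hy (by
      rw [P.T.S.co_mul _ (mul_mem (mul_mem ha0 ha1) ha2) _ ha3,
        P.T.S.co_mul _ (mul_mem ha0 ha1) _ ha2, P.T.S.co_mul _ ha0 _ ha1, ea0, ea1, ea2, ea3, e0, e1,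
        e2, e3, hv])
    rw [hj]
    exact ((((ca0.mul_right ca1).mul_right ca2).mul_right ca3).mul_right
      (P.T.S.zp_comm j (P.T.S.mem_C.1 hxC))).eq
  · rw [P.T.im_mul (P.T.S.F_le_C hw) hc, P.im_of_F hw, one_mul, hρ]

/-- Elements of order three fixing the second space centralize its preimage. -/
theorem three_comm {l q : G} (h3 : l ^ 3 = 1) (hl : l ∈ P.T.S.C)
    (hfix : ∀ i, ap (P.T.im hl) (five 1 i) = five 1 i) (hq : q ∈ P.T.S.F)
    (hW : InW 1 (P.T.S.co q)) : l * q = q * l := by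
  obtain ⟨i, hi⟩ := P.T.S.exists_zp hq (P.T.S.norm hl hq)
    (by rw [P.T.co_conj hl hq, fix_of_five hfix hW])
  have hz : l * P.T.S.zp i * l⁻¹ = P.T.S.zp i := by
    rw [P.T.S.zp_comm _ (P.T.S.mem_C.1 hl), mul_inv_cancel_right]
  have h2 : l ^ 3 * q * (l ^ 3)⁻¹ = q * P.T.S.zp (i + i + i) := by
    have e1 : l * (l * q * l⁻¹) * l⁻¹ = q * P.T.S.zp (i + i) := by
      rw [hi, show l * (q * P.T.S.zp i) * l⁻¹ = (l * q * l⁻¹) * (l * P.T.S.zp i * l⁻¹) by group, hi,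
        hz, mul_assoc, ← P.T.S.zp_add]
    have hz2 : l * P.T.S.zp (i + i) * l⁻¹ = P.T.S.zp (i + i) := by
      rw [P.T.S.zp_comm _ (P.T.S.mem_C.1 hl), mul_inv_cancel_right]
    rw [show l ^ 3 * q * (l ^ 3)⁻¹ = l * (l * (l * q * l⁻¹) * l⁻¹) * l⁻¹ by
        simp only [pow_succ, pow_zero, one_mul]; group, e1,
      show l * (q * P.T.S.zp (i + i)) * l⁻¹ = (l * q * l⁻¹) * (l * P.T.S.zp (i + i) * l⁻¹) by group,
      hi, hz2, mul_assoc, ← P.T.S.zp_add]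
    congr 2
    rw [← add_assoc]
  rw [h3, one_mul, inv_one, mul_one, eq_comm, mul_eq_left, P.T.S.zp_eq_one, two0, zero_add] at h2
  rw [h2, Setting.zp_zero, mul_one] at hi
  exact mul_inv_eq_iff_eq_mul.1 hi

/-- The centralizer of the fixed part commutes with the lifts of order three. -/
theorem isX_comm_three {x l : G} (hx : P.IsX x) (hl : P.IsThree l) : x * l = l * x := by
  obtain ⟨h3, -, hlC, hfix⟩ := hl
  set ω := P.T.im hx.1
  set η := P.T.im hlC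
  have hω0 := P.isX_fix hx
  have hcom : ω * η = η * ω := ext_five fun t i => by
    rcases zmod_two_cases 0 t with rfl | rfl
    · rw [ap_mul, ap_mul, hω0, fix_of_five hω0 (inW_of_fix (s := 0) hfix (five_spec 0 i).2.2.1)]
    · show ap (ω * η) (five 1 i) = ap (η * ω) (five 1 i)
      rw [ap_mul, ap_mul, hfix, fix_of_five hfix (inW_of_fix (s := 1) hω0 (five_spec 1 i).2.2.1)]
  have hlinv : ∀ i, ap (P.T.im (inv_mem hlC)) (five (1 + 0) i) = five (1 + 0) i := fun i =>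
    ap_inj η (by rw [← ap_mul, P.im_inv hlC, mul_inv_cancel, ap_one]; exact (hfix i).symm)
  set δ := x * l * x⁻¹ * l⁻¹ with hδ
  have hδF : δ ∈ P.T.S.F := by
    refine (P.T.S.rho_eq_one (mul_mem (mul_mem (mul_mem hx.1 hlC) (inv_mem hx.1)) (inv_mem hlC))).1 ?_
    show P.T.im _ = 1
    rw [P.T.im_mul (mul_mem (mul_mem hx.1 hlC) (inv_mem hx.1)) (inv_mem hlC),
      P.T.im_mul (mul_mem hx.1 hlC) (inv_mem hx.1), P.T.im_mul hx.1 hlC, P.im_inv hx.1, P.im_inv hlC, hcom]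
    show η * ω * ω⁻¹ * η⁻¹ = 1
    group
  have hδW : InW 1 (P.T.S.co δ) := by
    intro j
    show B8 (P.T.S.co δ) (five 0 j) = 0
    obtain ⟨y, hy, hyj⟩ := P.T.S.co_surj (five 0 j)
    rw [← hyj]
    refine (P.T.S.commute_iff hδF hy).1 ?_
    have hW : InW 0 (P.T.S.co y) := hyj.symm ▸ (five_spec 0 j).2.2.1
    have hy' : l⁻¹ * y * l ∈ P.T.S.F := by simpa using P.T.S.norm (inv_mem hlC) hy
    have hW' : InW 0 (P.T.S.co (l⁻¹ * y * l)) := by
      have := P.T.co_conj (inv_mem hlC) hy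
      rw [inv_inv] at this
      rw [this]
      exact inW_of_fix hlinv hW
    rw [← mul_inv_eq_iff_eq_mul, hδ]
    calc x * l * x⁻¹ * l⁻¹ * y * (x * l * x⁻¹ * l⁻¹)⁻¹
        = x * l * (x⁻¹ * (l⁻¹ * y * l) * x) * l⁻¹ * x⁻¹ := by group
      _ = x * l * (l⁻¹ * y * l) * l⁻¹ * x⁻¹ := by
        rw [mul_assoc x⁻¹, ← hx.2 _ hy' hW', inv_mul_cancel_left]
      _ = x * y * x⁻¹ := by group
      _ = y := by rw [hx.2 y hy hW, mul_inv_cancel_right]
  have hδl := P.three_comm h3 hlC hfix hδF hδW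
  have h1 : x * l * x⁻¹ = δ * l := by rw [hδ]; group
  have h2 : (δ * l) ^ 3 = 1 := by
    rw [← h1, conj_pow, h3]; group
  rw [Commute.mul_pow hδl.symm, h3, mul_one] at h2
  have h4 := P.F_pow_four hδF
  rw [show (4 : ℕ) = 3 + 1 by norm_num, pow_succ, h2, one_mul] at h4
  rw [h4, one_mul] at h1
  exact mul_inv_eq_iff_eq_mul.1 h1

theorem isX_comm_Lz {x l : G} (hx : P.IsX x) (hl : l ∈ P.Lz) : x * l = l * x := by
  induction hl using Subgroup.closure_induction with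
  | mem y hy =>
    rcases hy with ⟨hF, hW⟩ | h
    · exact hx.2 y hF hW
    · exact P.isX_comm_three hx h
  | one => simp
  | mul a b _ _ ha hb => exact (Commute.mul_right ha hb).eq
  | inv a _ ha => exact (Commute.inv_right ha).eq

/-- A lift of a three-cycle commuting with the translation. -/
theorem exists_m {π : Equiv.Perm (Fin 5)} (h3 : π ^ 3 = 1) (he : Equiv.Perm.sign π = 1) :
    ∃ m, ∃ hm : P.IsX m, m * P.T.v = P.T.v * m ∧ Realizes 1 (P.T.im hm.1) π := by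
  obtain ⟨ω, hR, -⟩ := exists_realizes 1 π
  obtain ⟨x, hx, hxω⟩ := P.exists_isX hR he
  have hxz : x * P.T.z = P.T.z * x := P.T.S.mem_C.1 hx.1
  have hxb : x * P.T.b = P.T.b * x := hx.2 _ P.T.b_mem (P.T.hb.symm ▸ inW_zero_basis.1)
  have hxD : x ∈ P.T.D := P.T.mem_D.2 ⟨hxz, hxb⟩
  have hxu : x * P.T.u = P.T.u * x := hx.2 _ P.T.hu (P.T.hcu.symm ▸ inW_zero_basis.2.1)
  set v := P.T.v with hvdef
  set δ := x * v * x⁻¹ * v⁻¹ with hδ
  have hvinv : v⁻¹ * P.T.z * v = P.T.z * P.T.b := by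
    have e : v * (P.T.z * P.T.b) * v⁻¹ = P.T.z := by
      rw [show v * (P.T.z * P.T.b) * v⁻¹ = (v * P.T.z * v⁻¹) * (v * P.T.b * v⁻¹) by group, P.T.hvz,
        P.T.hvb, mul_assoc, P.T.o.h'.xx, mul_one]
    conv_lhs => rw [← e]
    group
  have hxzb : x⁻¹ * P.T.z * x = P.T.z := by rw [mul_assoc, ← hxz, inv_mul_cancel_left]
  have hδP : δ ∈ P.T.P' := by
    refine ⟨(OrthPair.F' P.T.S.F P.T.g).mul_mem (P.T.o.CV_norm_F' hxD P.T.hv)
      ((OrthPair.F' P.T.S.F P.T.g).inv_mem P.T.hv), Subgroup.mem_centralizer_singleton_iff.2 ?_⟩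
    refine mul_inv_eq_iff_eq_mul.1 ?_
    calc x * v * x⁻¹ * v⁻¹ * P.T.z * (x * v * x⁻¹ * v⁻¹)⁻¹
        = x * v * (x⁻¹ * (v⁻¹ * P.T.z * v) * x) * v⁻¹ * x⁻¹ := by group
      _ = x * v * (v⁻¹ * P.T.z * v) * v⁻¹ * x⁻¹ := by
        rw [hvinv, mul_assoc x⁻¹, ← (Commute.mul_right hxz hxb).eq, inv_mul_cancel_left]
      _ = x * P.T.z * x⁻¹ := by group
      _ = P.T.z := by rw [hxz, mul_inv_cancel_right]
  -- the class of the defect
  obtain ⟨c, hc⟩ : ∃ c, c = P.T.ph δ := ⟨_, rfl⟩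
  have hδcl : P.T.IsCl δ 0 c := hc ▸ P.T.isCl_P' hδP
  have hperp : ∀ a, InW 0 a → B8 (eps 0) a = 0 → pr a = a → B8 a c = 0 := by
    intro a haW hae hap
    obtain ⟨p, hp, hpa⟩ := P.T.S.co_surj a
    have hpP : p ∈ P.T.P := P.T.mem_P.2 ⟨hp, by rw [hpa, hae]⟩
    have hcl : P.T.IsCl (v * p * v⁻¹) a a := by
      have := P.T.isCl_conj_v (P.T.isCl_P hpP)
      rwa [add_zero, Frame.cl, hpa, hap] at this
    have hpb : p * P.T.b = P.T.b * p := (P.T.mem_D.1 (P.T.P_le_D hpP)).2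
    have hpz : p * P.T.z = P.T.z * p := P.T.S.pt.comm_x _ hp
    have hyC : v * p * v⁻¹ ∈ P.T.S.C := P.T.S.mem_C.2 (by
      calc v * p * v⁻¹ * P.T.z = v * (p * (v⁻¹ * P.T.z * v)) * v⁻¹ := by group
        _ = v * ((v⁻¹ * P.T.z * v) * p) * v⁻¹ := by rw [hvinv, (Commute.mul_right hpz hpb).eq]
        _ = _ := by group)
    have hpβ := P.comm_F hp (hpa.symm ▸ haW)
    have hyβ : (v * p * v⁻¹) * P.β = P.β * (v * p * v⁻¹) := by
      have h1 : Commute P.β v := P.hv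
      exact ((h1.mul_right hpβ).mul_right h1.inv_right).eq.symm
    obtain ⟨n, hn⟩ := P.exists_Lz hyC hyβ
    have hy4 : (v * p * v⁻¹) ^ 4 = 1 := by rw [conj_pow, P.F_pow_four hp]; group
    have hw4 := pow_mem hn 4
    rw [Commute.mul_pow (Commute.inv_right (Commute.pow_right hyβ n)), hy4, one_mul, inv_pow,
      inv_mem_iff, ← pow_mul] at hw4
    have hb4 := P.pow_mem_Lz hw4
    have hbn : P.β ^ n = 1 := by
      have h5 : (P.β ^ n) ^ 5 = 1 := by rw [← pow_mul, mul_comm, pow_mul, P.h5, one_pow]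
      rw [show (5 : ℕ) = 4 + 1 by norm_num, pow_succ, ← pow_mul, hb4, one_mul] at h5
      exact h5
    rw [hbn, inv_one, mul_one] at hn
    have hxy := P.isX_comm_Lz hx hn
    have hδy : δ * (v * p * v⁻¹) = (v * p * v⁻¹) * δ := by
      have hxp : x * p = p * x := hx.2 p hp (hpa.symm ▸ haW)
      refine mul_inv_eq_iff_eq_mul.1 ?_
      have hy' : x⁻¹ * (v * p * v⁻¹) * x = v * p * v⁻¹ := by
        rw [mul_assoc, ← hxy, inv_mul_cancel_left]
      calc δ * (v * p * v⁻¹) * δ⁻¹ = x * v * x⁻¹ * p * x * v⁻¹ * x⁻¹ := by rw [hδ]; group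
        _ = x * (v * p * v⁻¹) * x⁻¹ := by
          rw [mul_assoc (x * v) x⁻¹ p, mul_assoc (x * v) (x⁻¹ * p) x, mul_assoc x⁻¹ p x, ← hxp,
            inv_mul_cancel_left]
          group
        _ = v * p * v⁻¹ := by rw [hxy, mul_inv_cancel_right]
    have hcomm := P.T.comm_R hδcl hcl
    rw [hδy, eq_comm, mul_eq_right, ← P.T.vv_zero] at hcomm
    have := (P.T.vv_inj hcomm).1
    rwa [B_zero_left, zero_add, zero_add] at this
  have hcW : InW 1 c := by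
    refine (inW_one_iff c).2 ⟨hc ▸ P.T.ph_pr δ, ?_, ?_⟩
    · exact hperp _ inW_zero_basis.2.2.1 (by decide +kernel) (sa_sc 1).1
    · exact hperp _ inW_zero_basis.2.2.2 (by decide +kernel) (sa_sc 1).2.1
  obtain ⟨q, hq, hqc⟩ := P.T.S.co_surj c
  have hcp := ((inW_one_iff c).1 hcW).1
  have hqP : q ∈ P.T.P := P.T.mem_P.2 ⟨hq, by rw [hqc, ← hcp, B_eps_pr]⟩
  have hqcl : P.T.IsCl q c 0 := by
    have := P.T.isCl_P hqP
    rwa [Frame.cl, hqc, hcp] at this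
  set x' := q * x with hx'
  have hx'X : P.IsX x' := P.isX_mul (P.isX_of_F hq (hqc.symm ▸ hcW)) hx
  obtain ⟨i, j, hij⟩ : ∃ i j, x' * v * x'⁻¹ * v⁻¹ = P.T.vv i j := by
    have e : x' * v * x'⁻¹ * v⁻¹ = (q * δ * q⁻¹) * (q * (v * q⁻¹ * v⁻¹)) := by
      rw [hx', hδ]; group
    have h1 : P.T.IsCl (q * δ * q⁻¹) 0 c := by
      rw [P.T.comm_R hqcl hδcl, ← mul_assoc, mul_inv_cancel_right]
      exact P.T.isCl_of_four hδcl
    have h2 := P.T.isCl_mul h1 (P.T.isCl_mul hqcl (P.T.isCl_conj_v (P.T.isCl_inv hqcl)))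
    rw [← e, add_zero, two8, add_zero, zero_add, two8] at h2
    obtain ⟨i, j, hij⟩ := P.T.isCl_eq (P.T.isCl_vv 0 0) h2
    exact ⟨i, j, by rw [hij, Frame.vv_zero, mul_one]⟩
  have hx'D : x' ∈ P.T.D := P.T.mem_D.2 ⟨P.T.S.mem_C.1 hx'X.1,
    hx'X.2 _ P.T.b_mem (P.T.hb.symm ▸ inW_zero_basis.1)⟩
  have hxe : x' * P.T.vv i j * x'⁻¹ = P.T.vv i j := by
    rw [P.T.vv_comm hx'D, mul_inv_cancel_right]
  have hee : P.T.vv i j * P.T.vv i j = 1 := by rw [Frame.vv_mul, two0, two0, Frame.vv_zero]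
  have hev : x' * v * x'⁻¹ = P.T.vv i j * v := by rw [← hij]; group
  have h2 : x' * (x' * v * x'⁻¹) * x'⁻¹ = v := by
    rw [hev, show x' * (P.T.vv i j * v) * x'⁻¹ = (x' * P.T.vv i j * x'⁻¹) * (x' * v * x'⁻¹) by group,
      hxe, hev, ← mul_assoc, hee, one_mul]
  have h4 : x' ^ 4 * v = v * x' ^ 4 := by
    refine mul_inv_eq_iff_eq_mul.1 ?_
    calc x' ^ 4 * v * (x' ^ 4)⁻¹ = x' * (x' * (x' * (x' * v * x'⁻¹) * x'⁻¹) * x'⁻¹) * x'⁻¹ := by
          simp only [pow_succ, pow_zero, one_mul]; group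
      _ = v := by rw [h2, h2]
  refine ⟨x' ^ 4, P.isX_pow hx'X 4, h4, ?_⟩
  have him : P.T.im hx'X.1 = ω := by
    rw [P.T.im_mul (P.T.S.F_le_C hq) hx.1, P.im_of_F hq, one_mul, hxω]
  have hω3 : ω ^ 3 = 1 := (hR.pow 3).uniq (h3.symm ▸ realizes_one 1)
  show Realizes 1 (P.T.im (pow_mem hx'X.1 4)) π
  rw [P.im_pow hx'X.1 4, him, pow4 hω3]
  exact hR

/-- A radical element of the second type fixed by the element of order five. -/
theorem exists_radical : ∃ r, P.T.IsCl r (sa 1) (sc 1) ∧ P.β * r = r * P.β := by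
  obtain ⟨r0, -, h0⟩ := P.T.exists_isCl_of (sa_sc 1).1 (sa_sc 1).2.1
  obtain ⟨r, hr, hrβ⟩ := exists_fixed_five P.h5 {r | P.T.IsCl r (sa 1) (sc 1)} (fun r hr => by
      have h := P.T.isCl_conj P.β_mem_D hr
      rw [show ap (P.T.im (P.T.D_le_C P.β_mem_D)) (sa 1) = sa 1 from
          (P.fix _).2 inW_zero_basis.2.2.1,
        show ap (P.T.im (P.T.D_le_C P.β_mem_D)) (sc 1) = sc 1 from
          (P.fix _).2 inW_zero_basis.2.2.2, (sa_sc 1).1, (sa_sc 1).2.1] at h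
      exact h)
    (by
      rw [← Nat.card_congr (Equiv.ofBijective
        (fun k : ZMod 2 × ZMod 2 => (⟨P.T.vv k.1 k.2 * r0, P.T.isCl_of_four h0⟩ :
          {r | P.T.IsCl r (sa 1) (sc 1)}))
        ⟨fun k k' e => by
          have := P.T.vv_inj (mul_right_cancel (congrArg Subtype.val e))
          exact Prod.ext this.1 this.2, fun r => by
          obtain ⟨i, j, hij⟩ := P.T.isCl_eq h0 r.2
          exact ⟨(i, j), Subtype.ext hij.symm⟩⟩), Nat.card_prod, Nat.card_zmod]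
      norm_num)
  exact ⟨r, hr, hrβ⟩

end Pent

end Cfsg.Agent.H41.CoType
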