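import Cfsg.Agent.H5.OmegaForms
import Cfsg.Agent.H5.OmegaCriterion
import Cfsg.Agent.H5.Transitive

/-! Geometry of the hyperbolic quadratic space of dimension eight over the field with two elements. -/

set_option autoImplicit false
set_option linter.unusedSimpArgs false

namespace Cfsg.Agent.H41.CoType

open QuadraticMap
open Cfsg.Agent

/-- The space. -/
abbrev F8 := Fin 4 ⊕ Fin 4 → ZMod 2

/-- The form. -/
noncomputable abbrev Q8 : QuadraticForm (ZMod 2) F8 := H5.qPlus 4 (ZMod 2)

/-- Its isometry group. -/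
noncomputable abbrev O8 : Subgroup (F8 ≃ₗ[ZMod 2] F8) := H5.orth Q8

/-- The commutator subgroup. -/
noncomputable abbrev Om : Subgroup O8 := commutator O8

/-- The form, computably. -/
def q8 (x : F8) : ZMod 2 := ∑ i : Fin 4, x (.inl i) * x (.inr i)

/-- The polar form, computably. -/
def B8 (x y : F8) : ZMod 2 := ∑ i : Fin 4, (x (.inl i) * y (.inr i) + y (.inl i) * x (.inr i))

/-- First half of the standard basis. -/
def eps (i : Fin 4) : F8 := Pi.single (Sum.inl i) 1

/-- Second half of the standard basis. -/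
def eta (i : Fin 4) : F8 := Pi.single (Sum.inr i) 1

/-- Application of an isometry. -/
noncomputable abbrev ap (ω : O8) (x : F8) : F8 := (ω : F8 ≃ₗ[ZMod 2] F8) x

theorem coe_Q8 (x : F8) : Q8 x = q8 x := by
  rw [show (⇑Q8) = Cfsg.quadFormPlus 4 (ZMod 2) from H5.coe_qPlus 4]; rfl

theorem polar_Q8 (x y : F8) : polar Q8 x y = B8 x y := H5.polar_qPlus x y

theorem nondeg : (polarBilin Q8).Nondegenerate := H5.qPlus_nondegenerate 4

theorem two0 (a : ZMod 2) : a + a = 0 := CharTwo.add_self_eq_zero a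

theorem two8 (x : F8) : x + x = 0 := funext fun _ => CharTwo.add_self_eq_zero _

theorem eq_of_add8 {x y : F8} (h : x + y = 0) : x = y := by
  calc x = x + (y + y) := by rw [two8, add_zero]
    _ = y := by rw [← add_assoc, h, zero_add]

theorem sub8 (x y : F8) : x - y = x + y := by
  rw [sub_eq_iff_eq_add, add_assoc, two8, add_zero]

theorem bit (a : ZMod 2) : a = 0 ∨ a = 1 := by revert a; decide

theorem q_add (x y : F8) : q8 (x + y) = q8 x + q8 y + B8 x y := by
  rw [← coe_Q8, ← coe_Q8, ← coe_Q8, ← polar_Q8]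
  exact QuadraticMap.map_add (⇑Q8) x y

theorem q_zero : q8 0 = 0 := by simp [q8]

theorem q_smul (a : ZMod 2) (x : F8) : q8 (a • x) = a * q8 x := by
  rcases bit a with rfl | rfl <;> simp [q8]

theorem B_comm (x y : F8) : B8 x y = B8 y x := by
  rw [← polar_Q8, ← polar_Q8, polar_comm]

theorem B_self (x : F8) : B8 x x = 0 := by
  simp only [B8]
  exact Finset.sum_eq_zero fun i _ => two0 _

theorem B_add_left (x y w : F8) : B8 (x + y) w = B8 x w + B8 y w := by
  rw [← polar_Q8, ← polar_Q8, ← polar_Q8, polar_add_left]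

theorem B_add_right (x y w : F8) : B8 x (y + w) = B8 x y + B8 x w := by
  rw [← polar_Q8, ← polar_Q8, ← polar_Q8, polar_add_right]

theorem B_smul_left (a : ZMod 2) (x y : F8) : B8 (a • x) y = a * B8 x y := by
  rw [← polar_Q8, ← polar_Q8, polar_smul_left, smul_eq_mul]

theorem B_smul_right (a : ZMod 2) (x y : F8) : B8 x (a • y) = a * B8 x y := by
  rw [B_comm, B_smul_left, B_comm]

theorem B_zero_left (x : F8) : B8 0 x = 0 := by simp [B8]

theorem B_zero_right (x : F8) : B8 x 0 = 0 := by simp [B8]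

theorem B_eps (i : Fin 4) (y : F8) : B8 (eps i) y = y (.inr i) := by
  simp [B8, eps, Pi.single_apply, Finset.sum_add_distrib]

theorem B_eta (i : Fin 4) (y : F8) : B8 (eta i) y = y (.inl i) := by
  simp [B8, eta, Pi.single_apply, Finset.sum_add_distrib]

theorem eq_zero_of_B {x : F8} (h : ∀ y, B8 x y = 0) : x = 0 := by
  funext j
  rcases j with i | i
  · rw [Pi.zero_apply, ← B_eta i x, B_comm]; exact h _
  · rw [Pi.zero_apply, ← B_eps i x, B_comm]; exact h _

theorem ap_q (ω : O8) (x : F8) : q8 (ap ω x) = q8 x := by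
  rw [← coe_Q8, ← coe_Q8]; exact H5.orth_map ω x

theorem ap_B (ω : O8) (x y : F8) : B8 (ap ω x) (ap ω y) = B8 x y := by
  rw [← polar_Q8, ← polar_Q8]; exact H5.orth_polar ω x y

theorem ap_add (ω : O8) (x y : F8) : ap ω (x + y) = ap ω x + ap ω y := map_add _ x y

theorem ap_smul (ω : O8) (a : ZMod 2) (x : F8) : ap ω (a • x) = a • ap ω x := map_smul _ a x

theorem ap_zero (ω : O8) : ap ω 0 = 0 := map_zero _

theorem ap_mul (ω ω' : O8) (x : F8) : ap (ω * ω') x = ap ω (ap ω' x) := rfl

theorem ap_one (x : F8) : ap 1 x = x := rfl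

theorem ap_inj (ω : O8) {x y : F8} (h : ap ω x = ap ω y) : x = y :=
  (ω : F8 ≃ₗ[ZMod 2] F8).injective h

theorem ap_ext {ω ω' : O8} (h : ∀ x, ap ω x = ap ω' x) : ω = ω' := H5.orth_ext h

theorem std_four : Nat.card (ZMod 2) ≠ 2 ∨ Module.finrank (ZMod 2) F8 ≠ 4 := Or.inr (by simp)

/-- Combinations of three vectors. -/
def comb (a : Fin 3 → F8) (c : Fin 3 → ZMod 2) : F8 := c 0 • a 0 + c 1 • a 1 + c 2 • a 2

theorem q_comb (a : Fin 3 → F8) (c : Fin 3 → ZMod 2) :
    q8 (comb a c) = c 0 * q8 (a 0) + c 1 * q8 (a 1) + c 2 * q8 (a 2) + c 0 * c 1 * B8 (a 0) (a 1) +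
      c 0 * c 2 * B8 (a 0) (a 2) + c 1 * c 2 * B8 (a 1) (a 2) := by
  simp only [comb, q_add, q_smul, B_add_left, B_smul_left, B_smul_right]
  ring

/-- Witt's theorem inside the commutator subgroup, for families with a nonsingular vector
orthogonal to the target. -/
theorem witt {k : ℕ} (a b : Fin k → F8)
    (ha : ∀ c : Fin k → ZMod 2, ∑ i, c i • a i = 0 → c = 0)
    (hb : ∀ c : Fin k → ZMod 2, ∑ i, c i • b i = 0 → c = 0)
    (hq : ∀ c : Fin k → ZMod 2, q8 (∑ i, c i • b i) = q8 (∑ i, c i • a i))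
    (v : F8) (hv : q8 v = 1) (hvb : ∀ i, B8 v (b i) = 0) :
    ∃ ω : O8, ω ∈ Om ∧ ∀ i, ap ω (a i) = b i := by
  classical
  let A := Fintype.linearCombination (ZMod 2) a
  let Bm := Fintype.linearCombination (ZMod 2) b
  have hA : Function.Injective A := by
    refine (injective_iff_map_eq_zero A).2 fun c hc => ha c ?_
    rwa [← Fintype.linearCombination_apply (ZMod 2) a c]
  have hBm : Function.Injective Bm := by
    refine (injective_iff_map_eq_zero Bm).2 fun c hc => hb c ?_
    rwa [← Fintype.linearCombination_apply (ZMod 2) b c]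
  let eA := LinearEquiv.ofInjective A hA
  obtain ⟨g, hg⟩ := H5.exists_orth_extension nondeg (LinearMap.range A)
    (Bm.comp eA.symm.toLinearMap) (hBm.comp eA.symm.injective) fun x => by
      obtain ⟨c, rfl⟩ := eA.surjective x
      simp only [LinearMap.comp_apply, LinearEquiv.coe_coe, LinearEquiv.symm_apply_apply]
      rw [coe_Q8, coe_Q8]
      show q8 (Bm c) = q8 (A c)
      rw [Fintype.linearCombination_apply, Fintype.linearCombination_apply]
      exact hq c
  have hga : ∀ i, ap g (a i) = b i := by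
    intro i
    have h := hg (eA (Pi.single i 1))
    simp only [LinearMap.comp_apply, LinearEquiv.coe_coe, LinearEquiv.symm_apply_apply] at h
    have e1 : (eA (Pi.single i 1) : F8) = a i := by
      show A (Pi.single i 1) = a i
      simp [A]
    have e2 : Bm (Pi.single i 1) = b i := by simp [Bm]
    rw [e1, e2] at h
    exact h
  have hfix : ∀ i, ap (H5.refl Q8 v) (b i) = b i := fun i =>
    H5.refl_apply_of_ortho (by rw [polar_Q8]; exact hvb i)
  by_cases hgm : g ∈ Om
  · exact ⟨g, hgm, hga⟩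
  refine ⟨H5.refl Q8 v * g, ?_, fun i => by rw [ap_mul, hga, hfix]⟩
  have h2 : Om.index = 2 := H5.commutator_index_two (by decide) nondeg std_four
    ⟨v, by rw [coe_Q8, hv]; decide⟩
  rw [Subgroup.mul_mem_iff_of_index_two h2]
  refine iff_of_false ?_ hgm
  intro hr
  have := ((H5.mem_commutator_iff nondeg std_four).1 hr).1
  rw [H5.dick_refl nondeg (by rw [coe_Q8, hv]; decide)] at this
  exact absurd this (by decide)

/-- Singular nonzero vectors are equivalent. -/
theorem witt_one {x : F8} (hx : x ≠ 0) (hq : q8 x = 0) : ∃ ω : O8, ω ∈ Om ∧ ap ω x = eps 0 := by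
  have he : eps 0 ≠ 0 := fun h => by simpa [eps] using congrFun h (Sum.inl 0)
  have key : ∀ (y : F8), y ≠ 0 → ∀ c : Fin 1 → ZMod 2, ∑ i, c i • (![y] : Fin 1 → F8) i = 0 → c = 0 := by
    intro y hy c hc
    funext i
    obtain rfl : i = 0 := Subsingleton.elim _ _
    rcases bit (c 0) with h | h
    · exact h
    · exfalso; apply hy; simpa [h] using hc
  obtain ⟨ω, hω, h⟩ := witt ![x] ![eps 0] (key x hx) (key _ he) (fun c => by
      simp [q_smul, hq, show q8 (eps 0) = 0 by decide +kernel])
    (eps 1 + eta 1) (by decide +kernel) (fun i => by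
      obtain rfl : i = 0 := Subsingleton.elim _ _
      decide +kernel)
  exact ⟨ω, hω, h 0⟩

/-- Triples with the same form values are equivalent, given a nonsingular vector off the target. -/
theorem witt_three {a b : Fin 3 → F8} (ha : ∀ c, comb a c = 0 → c = 0)
    (hb : ∀ c, comb b c = 0 → c = 0) (hq : ∀ i, q8 (a i) = q8 (b i))
    (hB : ∀ i j, B8 (a i) (a j) = B8 (b i) (b j))
    (v : F8) (hv : q8 v = 1) (hvb : ∀ i, B8 v (b i) = 0) :
    ∃ ω : O8, ω ∈ Om ∧ ∀ i, ap ω (a i) = b i := by
  refine witt a b (fun c hc => ha c ?_) (fun c hc => hb c ?_) (fun c => ?_) v hv hvb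
  · simpa [comb, Fin.sum_univ_three] using hc
  · simpa [comb, Fin.sum_univ_three] using hc
  · simp only [Fin.sum_univ_three]
    show q8 (comb b c) = q8 (comb a c)
    simp only [q_comb, hq, hB]

set_option maxHeartbeats 1600000 in
/-- The structure of an involution of the commutator subgroup: rank two, or rank four with a
totally singular plane describing it modulo a fixed point. -/
theorem involution_struct {τ : O8} (hΩ : τ ∈ Om) (hinv : ∀ x, ap τ (ap τ x) = x) (hne : τ ≠ 1) :
    (∃ e u, e ≠ 0 ∧ q8 e = 0 ∧ ap τ u + u = e ∧ ap τ e = e ∧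
      ∀ y, B8 e y = 0 → ap τ y + y = 0 ∨ ap τ y + y = e) ∨
    (Set.ncard {x | ap τ x = x} ≤ 16 ∧ ∃ e e' v' u : F8, ap τ u + u = e ∧
      q8 e = 0 ∧ q8 e' = 0 ∧ q8 v' = 0 ∧ B8 e e' = 0 ∧ B8 e v' = 0 ∧ B8 e' v' = 0 ∧
      (∀ c, comb ![e, e', v'] c = 0 → c = 0) ∧
      ap τ e = e ∧ ap τ e' = e' ∧ ap τ v' = v' ∧
      ∀ y, B8 e y = 0 → ∃ c : ZMod 2, ap τ y + y = c • e + B8 e' y • v' + B8 v' y • e') := by
  classical
  set W := H5.resid τ with hWdef
  have hW : ∀ x, x ∈ W ↔ ∃ u, ap τ u + u = x := fun x => by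
    rw [hWdef, H5.resid, LinearMap.mem_range]
    exact exists_congr fun u => by rw [H5.dLin_apply, sub8]
  have hfix : ∀ x ∈ W, ap τ x = x := by
    intro x hx
    obtain ⟨u, rfl⟩ := (hW x).1 hx
    rw [ap_add, hinv, add_comm]
  have hker : ∀ y, (∀ x ∈ W, B8 x y = 0) → ap τ y = y := by
    intro y hy
    refine H5.mem_fixer.1 ?_
    rw [H5.fixer_eq_perp_resid nondeg]
    exact fun w hw => by show polar Q8 w y = 0; rw [polar_Q8]; exact hy w hw
  have hiso : ∀ x ∈ W, ∀ y, ap τ y = y → B8 x y = 0 := by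
    intro x hx y hy
    have := (H5.resid_le_perp_fixer τ hx) y (H5.mem_fixer.2 hy)
    change polar Q8 y x = 0 at this
    rw [polar_Q8, B_comm] at this
    exact this
  have hWW : ∀ x ∈ W, ∀ y ∈ W, B8 x y = 0 := fun x hx y hy => hiso x hx y (hfix y hy)
  have hsym : ∀ u u', B8 u (ap τ u' + u') = B8 (ap τ u + u) u' := by
    intro u u'
    rw [B_add_left, B_add_right, ← ap_B τ u, hinv]
  have hqW : ∀ u, q8 (ap τ u + u) = B8 u (ap τ u + u) := by
    intro u
    rw [q_add, ap_q, B_add_right, B_self, add_zero, B_comm u]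
    linear_combination two0 (q8 u)
  have hadd : ∀ u u', ap τ (u + u') + (u + u') = (ap τ u + u) + (ap τ u' + u') := fun u u' => by
    rw [ap_add]; abel
  -- ranks
  have hdick : H5.dick τ = 1 := ((H5.mem_commutator_iff nondeg std_four).1 hΩ).1
  have heven : Even (H5.rk τ) := by
    by_contra hodd
    rw [H5.dick, (Nat.not_even_iff_odd.1 hodd).neg_one_pow] at hdick
    exact absurd hdick (by decide)
  have hdim : H5.rk τ + Module.finrank (ZMod 2) (H5.fixer τ) = 8 := by
    rw [H5.rk_add_finrank_fixer]; simp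
  have hle4 : H5.rk τ ≤ 4 := by
    have h := Submodule.finrank_mono (show W ≤ H5.fixer τ from fun x hx => H5.mem_fixer.2 (hfix x hx))
    have : H5.rk τ = Module.finrank (ZMod 2) W := rfl
    omega
  have hrk : H5.rk τ = 2 ∨ H5.rk τ = 4 := by
    have h0 : H5.rk τ ≠ 0 := fun h => hne (H5.eq_one_of_rk_eq_zero h)
    obtain ⟨k, hk⟩ := heven
    omega
  have hWk : Module.finrank (ZMod 2) W = H5.rk τ := rfl
  rcases hrk with h2 | h4
  · left
    -- a singular nonzero vector of `W`
    obtain ⟨x₀, hx₀W, hx₀⟩ : ∃ x ∈ W, x ≠ 0 :=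
      Submodule.exists_mem_ne_zero_of_ne_bot fun h => by rw [h, finrank_bot] at hWk; omega
    obtain ⟨x₁, hx₁W, hx₁⟩ : ∃ x ∈ W, x ∉ Submodule.span (ZMod 2) {x₀} := by
      by_contra h
      push Not at h
      have := Submodule.finrank_mono (show W ≤ Submodule.span (ZMod 2) {x₀} from h)
      rw [finrank_span_singleton hx₀] at this
      omega
    obtain ⟨e, heW, he0, heq⟩ : ∃ e ∈ W, e ≠ 0 ∧ q8 e = 0 := by
      rcases bit (q8 x₀) with h | h
      · exact ⟨x₀, hx₀W, hx₀, h⟩
      rcases bit (q8 x₁) with h' | h'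
      · exact ⟨x₁, hx₁W, fun e0 => hx₁ (e0 ▸ zero_mem _), h'⟩
      refine ⟨x₀ + x₁, add_mem hx₀W hx₁W, fun e0 => hx₁ ?_, ?_⟩
      · rw [← eq_of_add8 e0]; exact Submodule.mem_span_singleton_self _
      · rw [q_add, h, h', hWW _ hx₀W _ hx₁W]; decide
    obtain ⟨u, hu⟩ := (hW e).1 heW
    refine ⟨e, u, he0, heq, hu, hfix e heW, fun y hy => ?_⟩
    by_contra hcon
    push Not at hcon
    set x := ap τ y + y with hx
    have hxW : x ∈ W := (hW x).2 ⟨y, rfl⟩
    have hue : B8 e u = 0 := by
      have := hqW u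
      rw [hu, heq, B_comm] at this
      exact this.symm
    have hxs : x ∉ Submodule.span (ZMod 2) {e} := by
      intro h
      obtain ⟨a, ha⟩ := Submodule.mem_span_singleton.1 h
      rcases bit a with rfl | rfl
      · exact hcon.1 (by rw [← ha, zero_smul])
      · exact hcon.2 (by rw [← ha, one_smul])
    have hspan : W ≤ Submodule.span (ZMod 2) {e, x} := by
      refine le_of_eq (Submodule.eq_of_le_of_finrank_le ?_ ?_).symm
      · rw [Submodule.span_le]
        rintro w (rfl | rfl)
        exacts [heW, hxW]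
      · rw [show Submodule.span (ZMod 2) {e, x} = Submodule.span (ZMod 2) {e} ⊔ Submodule.span (ZMod 2) {x} by
          rw [← Submodule.span_union]; congr 1]
        rw [Submodule.finrank_sup_span_singleton hxs, finrank_span_singleton he0, hWk, h2]
    refine he0 (eq_zero_of_B fun w => ?_)
    obtain ⟨a, c, hac⟩ := Submodule.mem_span_pair.1 (hspan ((hW _).2 ⟨w, rfl⟩))
    have hw' : ap τ (w + (a • u + c • y)) = w + (a • u + c • y) := by
      refine eq_of_add8 ?_
      rw [hadd, ← hac, ap_add, ap_smul, ap_smul, ← hu, hx]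
      rw [show a • ap τ u + c • ap τ y + (a • u + c • y) =
        a • (ap τ u + u) + c • (ap τ y + y) by rw [smul_add, smul_add]; abel]
      exact two8 _
    have := hiso e heW _ hw'
    rw [B_add_right, B_add_right, B_smul_right, B_smul_right, hue, hy, mul_zero, mul_zero,
      add_zero, add_zero] at this
    exact this
  · right
    have hfixcard : Set.ncard {x | ap τ x = x} ≤ 16 := by
      have hset : {x | ap τ x = x} = (H5.fixer τ : Set F8) := by
        ext x; exact H5.mem_fixer.symm
      rw [hset, ← Nat.card_coe_set_eq]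
      show Nat.card (H5.fixer τ) ≤ 16
      rw [Module.natCard_eq_pow_finrank (K := ZMod 2), Nat.card_zmod]
      rw [show Module.finrank (ZMod 2) (H5.fixer τ) = 4 by omega]
      norm_num
    refine ⟨hfixcard, ?_⟩
    -- the characteristic vector
    let lam : F8 →+ ZMod 2 := AddMonoidHom.mk' (fun u => q8 (ap τ u + u)) fun u u' => by
      rw [hadd, q_add, hWW _ ((hW _).2 ⟨u, rfl⟩) _ ((hW _).2 ⟨u', rfl⟩), add_zero]
    have hlamv : ∀ u, lam u = q8 (ap τ u + u) := fun u => rfl
    obtain ⟨a, ha⟩ : ∃ a : F8, ∀ u, B8 a u = lam u := by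
      refine ⟨fun j => Sum.elim (fun i => lam (eta i)) (fun i => lam (eps i)) j, fun u => ?_⟩
      have hsum : ∑ i : Fin 4, (u (.inl i) • eps i + u (.inr i) • eta i) = u := by
        funext j
        rcases j with j | j <;> simp [eps, eta, Pi.single_apply, Finset.sum_apply]
      conv_rhs => rw [← hsum, map_sum]
      refine Finset.sum_congr rfl fun i _ => ?_
      show lam (eta i) * u (.inr i) + u (.inl i) * lam (eps i) = _
      rw [map_add]
      rcases bit (u (.inl i)) with h | h <;> rcases bit (u (.inr i)) with h' | h' <;>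
        simp [h, h', add_comm]
    have haW : a ∈ W := by
      rw [hWdef, H5.resid_eq_perp_fixer nondeg]
      intro y hy
      show polar Q8 y a = 0
      rw [polar_Q8, B_comm, ha, hlamv, show ap τ y = y from H5.mem_fixer.1 hy, two8, q_zero]
    obtain ⟨u₀, hu₀⟩ := (hW a).1 haW
    have hqa : q8 a = 0 := by
      rcases bit (q8 a) with h | h
      · exact h
      exfalso
      -- an alternating form on a three dimensional space
      let ℓ : W →ₗ[ZMod 2] ZMod 2 := (AddMonoidHom.mk' (fun x : W => q8 (x : F8))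
        fun x y => by simp [q_add, hWW _ x.2 _ y.2]).toZModLinearMap 2
      have hℓr : LinearMap.range ℓ = ⊤ := by
        rw [eq_top_iff]
        intro c _
        refine ⟨c • ⟨a, haW⟩, ?_⟩
        show q8 ((c • (⟨a, haW⟩ : W) : W) : F8) = c
        simp [q_smul, h]
      have hk3 : Module.finrank (ZMod 2) (LinearMap.ker ℓ) = 3 := by
        have := ℓ.finrank_range_add_finrank_ker
        rw [hℓr, finrank_top, Module.finrank_self, hWk, h4] at this
        omega
      let bs := Module.finBasisOfFinrankEq (ZMod 2) (LinearMap.ker ℓ) hk3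
      let x : Fin 3 → F8 := fun i => ((bs i : W) : F8)
      have hxW : ∀ i, x i ∈ W := fun i => (bs i : W).2
      choose u hu using fun i => (hW (x i)).1 (hxW i)
      have hxq : ∀ i, q8 (x i) = 0 := fun i => (bs i).2
      have hau : ∀ i, B8 a (u i) = 0 := fun i => by rw [ha, hlamv, hu, hxq]
      have hu0x : ∀ i, B8 u₀ (x i) = 0 := fun i => by rw [← hu i, hsym, hu₀, hau]
      have hbdiag : ∀ i, B8 (u i) (x i) = 0 := fun i => by
        have := hqW (u i)
        rw [hu, hxq] at this
        exact this.symm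
      have hbsym : ∀ i j, B8 (u i) (x j) = B8 (u j) (x i) := fun i j => by
        rw [← hu j, hsym, hu, B_comm]
      have hspan : ∀ y ∈ W, ∃ c : Fin 3 → ZMod 2, y + q8 y • a = comb x c := by
        intro y hy
        have hm : y + q8 y • a ∈ W := add_mem hy (W.smul_mem _ haW)
        have hk : (⟨_, hm⟩ : W) ∈ LinearMap.ker ℓ := by
          rw [LinearMap.mem_ker]
          show q8 (y + q8 y • a) = 0
          rw [q_add, q_smul, B_smul_right, h, hWW _ hy _ haW, mul_zero, add_zero, mul_one]
          exact two0 _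
        refine ⟨fun i => bs.repr ⟨_, hk⟩ i, ?_⟩
        have h1 := bs.sum_repr ⟨_, hk⟩
        rw [Fin.sum_univ_three] at h1
        exact (congrArg (fun w : LinearMap.ker ℓ => ((w : W) : F8)) h1).symm
      set r := B8 (u 1) (x 2) • x 0 + B8 (u 0) (x 2) • x 1 + B8 (u 0) (x 1) • x 2 with hr
      have hur : ∀ i, B8 (u i) r = 0 := by
        intro i
        simp only [hr, B_add_right, B_smul_right]
        have h0 := hbdiag 0
        have h1 := hbdiag 1
        have h2 := hbdiag 2
        match i with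
        | 0 =>
          rw [h0]
          linear_combination two0 (B8 (u 0) (x 2) * B8 (u 0) (x 1))
        | 1 =>
          rw [h1, hbsym 1 0]
          linear_combination two0 (B8 (u 0) (x 1) * B8 (u 1) (x 2))
        | 2 =>
          rw [h2, hbsym 2 0, hbsym 2 1]
          linear_combination two0 (B8 (u 0) (x 2) * B8 (u 1) (x 2))
      have hu0r : B8 u₀ r = 0 := by simp [hr, B_add_right, B_smul_right, hu0x]
      have hrW : r ∈ W := by
        rw [hr]; exact add_mem (add_mem (W.smul_mem _ (hxW 0)) (W.smul_mem _ (hxW 1))) (W.smul_mem _ (hxW 2))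
      have hdec : ∀ w, ∃ (d : ZMod 2) (c : Fin 3 → ZMod 2),
          ap τ (w + (d • u₀ + comb u c)) = w + (d • u₀ + comb u c) := by
        intro w
        set y := ap τ w + w with hy
        obtain ⟨c, hc⟩ := hspan y ((hW _).2 ⟨w, rfl⟩)
        refine ⟨q8 y, c, eq_of_add8 ?_⟩
        have e1 : ap τ (q8 y • u₀) + q8 y • u₀ = q8 y • a := by rw [ap_smul, ← smul_add, hu₀]
        have e2 : ap τ (comb u c) + comb u c = comb x c := by
          simp only [comb, ap_add, ap_smul, ← hu, smul_add]; abel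
        rw [hadd, hadd, e1, e2, ← hc, ← add_assoc, add_comm (y + q8 y • a)]
        exact two8 _
      have hr0 : r = 0 := by
        refine eq_zero_of_B fun w => ?_
        obtain ⟨d, c, hfd⟩ := hdec w
        have := hiso r hrW _ hfd
        simp only [comb, B_add_right, B_smul_right, B_comm r u₀, B_comm r (u _), hu0r, hur,
          mul_zero, add_zero] at this
        exact this
      have hind : ∀ c : Fin 3 → ZMod 2, comb x c = 0 → c = 0 := by
        intro c hc
        have h1 : ∑ i, c i • bs i = 0 := by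
          refine Subtype.ext (Subtype.ext ?_)
          simpa [Fin.sum_univ_three, comb, x] using hc
        funext i
        exact Fintype.linearIndependent_iff.1 bs.linearIndependent c h1 i
      have hc0 := hind ![B8 (u 1) (x 2), B8 (u 0) (x 2), B8 (u 0) (x 1)] (by
        simpa [comb, hr] using hr0)
      have hall : ∀ i, B8 (u i) (x 0) = 0 := by
        intro i
        match i with
        | 0 => exact hbdiag 0
        | 1 => rw [hbsym 1 0]; exact congrFun hc0 2
        | 2 => rw [hbsym 2 0]; exact congrFun hc0 1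
      have hx0 : x 0 = 0 := by
        refine eq_zero_of_B fun w => ?_
        obtain ⟨d, c, hfd⟩ := hdec w
        have := hiso (x 0) (hxW 0) _ hfd
        simp only [comb, B_add_right, B_smul_right, B_comm (x 0) u₀, B_comm (x 0) (u _), hu0x, hall,
          mul_zero, add_zero] at this
        exact this
      exact bs.ne_zero 0 (Subtype.ext (Subtype.ext hx0))
    -- the fixed point
    obtain ⟨e, heW, he0, hea⟩ : ∃ e ∈ W, e ≠ 0 ∧ (a = 0 ∨ a = e) := by
      by_cases ha0 : a = 0
      · obtain ⟨x, hx, hx0⟩ := Submodule.exists_mem_ne_zero_of_ne_bot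
          (p := W) fun h => by rw [h, finrank_bot] at hWk; omega
        exact ⟨x, hx, hx0, Or.inl ha0⟩
      · exact ⟨a, haW, ha0, Or.inr rfl⟩
    obtain ⟨uₑ, huₑ⟩ := (hW e).1 heW
    have hqe : q8 e = 0 := by
      rcases hea with h | h
      · rw [← huₑ, ← hlamv, ← ha, h, B_zero_left]
      · rw [← h, hqa]
    set J : Submodule (ZMod 2) F8 := W ⊓ H5.perp Q8 (Submodule.span (ZMod 2) {uₑ}) with hJdef
    have hJ : ∀ x, x ∈ J ↔ x ∈ W ∧ B8 uₑ x = 0 := fun x => by
      rw [hJdef, Submodule.mem_inf, H5.mem_perp_span, polar_Q8]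
    have hJu : ∀ u, (ap τ u + u ∈ J ↔ B8 e u = 0) := fun u => by
      rw [hJ, and_iff_right ((hW _).2 ⟨u, rfl⟩), hsym, huₑ]
    have hJq : ∀ x ∈ J, q8 x = 0 := by
      intro x hx
      obtain ⟨u, rfl⟩ := (hW x).1 ((hJ x).1 hx).1
      rw [← hlamv, ← ha]
      rcases hea with h | h <;> rw [h]
      · exact B_zero_left _
      · exact (hJu u).1 hx
    have hJlt : J < W := by
      refine lt_of_le_of_ne inf_le_left fun hEq => he0 (eq_zero_of_B fun w => ?_)
      exact (hJu w).1 (hEq.symm ▸ (hW _).2 ⟨w, rfl⟩)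
    have hJ3 : Module.finrank (ZMod 2) J = 3 := by
      have h1 := Submodule.finrank_lt_finrank_of_lt hJlt
      have h2 := Submodule.finrank_sup_add_finrank_inf_eq W (H5.perp Q8 (Submodule.span (ZMod 2) {uₑ}))
      have h3 := H5.finrank_perp_add nondeg (Submodule.span (ZMod 2) {uₑ})
      have h5 : Module.finrank (ZMod 2) (Submodule.span (ZMod 2) {uₑ}) ≤ 1 :=
        (finrank_span_le_card ({uₑ} : Set F8)).trans (by simp)
      have h6 := Submodule.finrank_le (W ⊔ H5.perp Q8 (Submodule.span (ZMod 2) {uₑ}))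
      have h7 : Module.finrank (ZMod 2) F8 = 8 := by simp
      rw [← hJdef] at h2
      omega
    have heJ : e ∈ J := huₑ ▸ (hJu uₑ).2 (by
      rw [B_comm, ← huₑ, ← hqW, huₑ, hqe])
    have hse : Module.finrank (ZMod 2) (Submodule.span (ZMod 2) {e}) = 1 := finrank_span_singleton he0
    obtain ⟨e', he'J, he's⟩ : ∃ x ∈ J, x ∉ Submodule.span (ZMod 2) {e} := by
      by_contra h
      push Not at h
      have := Submodule.finrank_mono (show J ≤ Submodule.span (ZMod 2) {e} from h)
      omega
    have hse' : Module.finrank (ZMod 2) ↥(Submodule.span (ZMod 2) {e} ⊔ Submodule.span (ZMod 2) {e'}) = 2 := by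
      rw [Submodule.finrank_sup_span_singleton he's, hse]
    obtain ⟨v', hv'J, hv's⟩ : ∃ x ∈ J, x ∉ Submodule.span (ZMod 2) {e} ⊔ Submodule.span (ZMod 2) {e'} := by
      by_contra h
      push Not at h
      have := Submodule.finrank_mono
        (show J ≤ Submodule.span (ZMod 2) {e} ⊔ Submodule.span (ZMod 2) {e'} from h)
      omega
    have hspanJ : Submodule.span (ZMod 2) {e} ⊔ Submodule.span (ZMod 2) {e'} ⊔
        Submodule.span (ZMod 2) {v'} = J := by
      refine Submodule.eq_of_le_of_finrank_le ?_ ?_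
      · simp only [sup_le_iff, Submodule.span_singleton_le_iff_mem]
        exact ⟨⟨heJ, he'J⟩, hv'J⟩
      · rw [Submodule.finrank_sup_span_singleton hv's, hse', hJ3]
    have he'W := ((hJ _).1 he'J).1
    have hv'W := ((hJ _).1 hv'J).1
    refine ⟨e, e', v', uₑ, huₑ, hqe, hJq _ he'J, hJq _ hv'J, hWW _ heW _ he'W, hWW _ heW _ hv'W,
      hWW _ he'W _ hv'W, ?_, hfix _ heW, hfix _ he'W, hfix _ hv'W, ?_⟩
    · intro c hc
      simp only [comb, Matrix.cons_val_zero, Matrix.cons_val_one, Matrix.cons_val_two,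
        Matrix.tail_cons, Matrix.head_cons] at hc
      have h2 : c 2 = 0 := (bit (c 2)).resolve_right fun h => hv's (by
        rw [h, one_smul] at hc
        rw [← eq_of_add8 hc]
        exact Submodule.add_mem_sup (Submodule.smul_mem _ _ (Submodule.mem_span_singleton_self _))
          (Submodule.smul_mem _ _ (Submodule.mem_span_singleton_self _)))
      rw [h2, zero_smul, add_zero] at hc
      have h1 : c 1 = 0 := (bit (c 1)).resolve_right fun h => he's (by
        rw [h, one_smul] at hc
        rw [← eq_of_add8 hc]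
        exact Submodule.smul_mem _ _ (Submodule.mem_span_singleton_self _))
      rw [h1, zero_smul, add_zero] at hc
      have h0 : c 0 = 0 := (bit (c 0)).resolve_right fun h => he0 (by rwa [h, one_smul] at hc)
      funext i
      fin_cases i <;> assumption
    · intro y hy
      obtain ⟨u₁, hu₁⟩ := (hW e').1 he'W
      obtain ⟨u₂, hu₂⟩ := (hW v').1 hv'W
      have hu₁e : B8 e u₁ = 0 := (hJu u₁).1 (hu₁ ▸ he'J)
      have hu₂e : B8 e u₂ = 0 := (hJu u₂).1 (hu₂ ▸ hv'J)
      have hgen : ∀ w, B8 e w = 0 → ∃ c₀ c₁ c₂ : ZMod 2, ap τ w + w = c₀ • e + c₁ • e' + c₂ • v' := by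
        intro w hw
        have := (hJu w).2 hw
        rw [← hspanJ] at this
        obtain ⟨s, hs, t, ht, hst⟩ := Submodule.mem_sup.1 this
        obtain ⟨s₀, hs₀, s₁, hs₁, rfl⟩ := Submodule.mem_sup.1 hs
        obtain ⟨c₀, rfl⟩ := Submodule.mem_span_singleton.1 hs₀
        obtain ⟨c₁, rfl⟩ := Submodule.mem_span_singleton.1 hs₁
        obtain ⟨c₂, rfl⟩ := Submodule.mem_span_singleton.1 ht
        exact ⟨c₀, c₁, c₂, hst.symm⟩
      have k11 : B8 u₁ e' = 0 := by rw [← hu₁, ← hqW, hu₁, hJq _ he'J]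
      have k22 : B8 u₂ v' = 0 := by rw [← hu₂, ← hqW, hu₂, hJq _ hv'J]
      have key : ∀ (w : F8) (c₀ c₁ c₂ : ZMod 2), ap τ w + w = c₀ • e + c₁ • e' + c₂ • v' →
          B8 e' w = c₂ * B8 u₁ v' ∧ B8 v' w = c₁ * B8 u₁ v' := by
        intro w c₀ c₁ c₂ hw
        have k21 : B8 u₂ e' = B8 u₁ v' := by rw [← hu₁, hsym, hu₂, B_comm]
        constructor
        · rw [← hu₁, ← hsym, hw, B_add_right, B_add_right, B_smul_right, B_smul_right, B_smul_right,
            B_comm u₁ e, hu₁e, k11, mul_zero, mul_zero, zero_add, zero_add]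
        · conv_lhs => rw [← hu₂, ← hsym, hw]
          rw [B_add_right, B_add_right, B_smul_right, B_smul_right, B_smul_right,
            B_comm u₂ e, hu₂e, k22, k21, mul_zero, mul_zero, zero_add, add_zero]
      have hm : B8 u₁ v' = 1 := by
        refine (bit _).resolve_left fun h => he's ?_
        rw [← H5.perp_perp nondeg (Submodule.span (ZMod 2) {e})]
        intro w hw
        show polar Q8 w e' = 0
        have hwe : B8 e w = 0 := by
          have := hw e (Submodule.mem_span_singleton_self e)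
          change polar Q8 e w = 0 at this
          rwa [polar_Q8] at this
        obtain ⟨c₀, c₁, c₂, hc⟩ := hgen w hwe
        rw [polar_Q8, B_comm, (key w c₀ c₁ c₂ hc).1, h, mul_zero]
      obtain ⟨c₀, c₁, c₂, hc⟩ := hgen y hy
      obtain ⟨h1, h2⟩ := key y c₀ c₁ c₂ hc
      refine ⟨c₀, ?_⟩
      rw [hc, h1, h2, hm, mul_one, mul_one]
      abel

end Cfsg.Agent.H41.CoType
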