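import Cfsg.Agent.H30.J2U.Recognition

/-! Subgroups of a group of Hall–Janko type containing an involution centralizer. -/

set_option autoImplicit false
set_option linter.style.haveILetI false

namespace Cfsg.Agent.H41.CoType

open Subgroup Cfsg.Agent.H59.HJ Cfsg.Agent.H30.J2U

/-- A group of Hall–Janko type is the Hall–Janko group and has its order. -/
theorem hj_of_frame {G : Type*} [Group G] [Finite G] {z : G} {Φ : Q0 × A5 → G} (F : H59.HJ.Frame z Φ) :
    Cfsg.Spor.IsoJ2 G ∧ Nat.card G = 604800 := by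
  obtain ⟨t, E, A, hl⟩ := exists_local F
  obtain ⟨f, k, d⟩ := exists_five F hl
  obtain ⟨W, s⟩ := hl.exists_split d
  exact ⟨isoJ2_of_data F ⟨hl, d, s⟩, hl.card_G s⟩

/-- A subgroup containing the centralizer of `z` and an element moving `z` to an inner involution
is everything. -/
theorem eq_top_of_frame {G : Type*} [Group G] [Finite G] {z : G} {Φ : Q0 × A5 → G}
    (F : H59.HJ.Frame z Φ) (Y : Subgroup G) (hC : centralizer ({z} : Set G) ≤ Y) {v : G} (hv : v ∈ Y)
    (hvC : v * z * v⁻¹ ∈ centralizer ({z} : Set G)) (hvz : v * z * v⁻¹ ≠ z) : Y = ⊤ := by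
  classical
  haveI : Fact (Nat.Prime 2) := ⟨Nat.prime_two⟩
  have hzY : z ∈ Y := hC (mem_centralizer_singleton_iff.2 rfl)
  have hΦ : ∀ a, Φ a ∈ Y := fun a => hC ((F.range _).2 ⟨a, rfl⟩)
  let Ψ : Q0 × A5 → Y := fun a => ⟨Φ a, hΦ a⟩
  -- the moved involution is inner
  obtain ⟨a, ha⟩ := (F.range _).1 hvC
  have hzz : z * z = 1 := by rw [← pow_two, ← F.z_two, pow_orderOf_eq_one]
  have hsq : pm a a = (0, 1) := (F.sq_iff a).1 (by rw [ha, conj_mul, hzz]; group)
  have hconj : IsConj (Φ a) z := (isConj_iff.2 ⟨v, ha.symm⟩ : IsConj z (Φ a)).symm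
  have ha2 : a.2 = 1 := (F.inner_iff hsq).1 (Or.inr hconj)
  obtain ⟨x, σ⟩ := a
  subst ha2
  have hx : mulQ x x = 0 := by simpa [pm, actQ_one] using congrArg Prod.fst hsq
  have hx0 : x ≠ 0 := fun e => by
    rw [e, F.one, eq_comm, conj_eq_one_iff] at ha
    have := F.z_two
    rw [ha, orderOf_one] at this
    omega
  have hxz : x ≠ zQ := fun e => by rw [e, F.zmap] at ha; exact hvz ha.symm
  obtain ⟨σ₁, q₁, h₁⟩ := inner_conj_a x hx hx0 hxz
  obtain ⟨σ₂, q₂, h₂⟩ := inner_conj_a (gen 0) (by decide +kernel) (by decide +kernel)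
    (by decide +kernel)
  have e1 : IsConj (Ψ (x, 1)) (Ψ aC) := isConj_iff.2 ⟨Ψ (q₁, σ₁), Subtype.ext (by
    show Φ (q₁, σ₁) * Φ (x, 1) * (Φ (q₁, σ₁))⁻¹ = Φ aC
    rw [mul_inv_eq_iff_eq_mul, ← F.mul, ← F.mul, h₁])⟩
  have e2 : IsConj (Ψ (gen 0, 1)) (Ψ aC) := isConj_iff.2 ⟨Ψ (q₂, σ₂), Subtype.ext (by
    show Φ (q₂, σ₂) * Φ (gen 0, 1) * (Φ (q₂, σ₂))⁻¹ = Φ aC
    rw [mul_inv_eq_iff_eq_mul, ← F.mul, ← F.mul, h₂])⟩
  have e3 : IsConj (⟨z, hzY⟩ : Y) (Ψ (x, 1)) := isConj_iff.2 ⟨⟨v, hv⟩, Subtype.ext ha.symm⟩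
  have F' : H59.HJ.Frame (⟨z, hzY⟩ : Y) Ψ :=
    { inj := fun a b h => F.inj (congrArg Subtype.val h)
      range := fun g => by
        rw [mem_centralizer_singleton_iff]
        constructor
        · intro h
          obtain ⟨a, ha⟩ := (F.range g.1).1
            (mem_centralizer_singleton_iff.2 (congrArg Subtype.val h))
          exact ⟨a, Subtype.ext ha⟩
        · rintro ⟨a, rfl⟩
          exact Subtype.ext (mem_centralizer_singleton_iff.1 ((F.range _).2 ⟨a, rfl⟩))
      mul := fun a b => Subtype.ext (F.mul a b)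
      zmap := Subtype.ext F.zmap
      conjz := e2.trans (e1.symm.trans e3.symm)
      sylow := by
        obtain ⟨S, hS⟩ := F.sylow
        refine ⟨S.subtype (hS.trans hC), fun g hg => ?_⟩
        rw [Sylow.coe_subtype, mem_subgroupOf] at hg
        exact mem_centralizer_singleton_iff.2 (Subtype.ext
          (mem_centralizer_singleton_iff.1 (hS hg)))
      cl := by
        refine ⟨⟨z, hzY⟩, Ψ (0, sig0), ?_, ?_, fun h => F.not_conj ?_⟩
        · rw [orderOf_mk]; exact F.z_two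
        · refine orderOf_two (Subtype.ext ((F.sq_iff _).2 (by decide +kernel))) fun e => ?_
          exact (by decide +kernel : sig0 ≠ 1)
            (congrArg Prod.snd (F.inj ((congrArg Subtype.val e).trans F.one.symm)))
        · obtain ⟨g, hg⟩ := isConj_iff.1 h.symm
          exact isConj_iff.2 ⟨g, congrArg Subtype.val hg⟩ }
  exact Subgroup.eq_top_of_card_eq Y ((hj_of_frame F').2.trans (hj_of_frame F).2.symm)

end Cfsg.Agent.H41.CoType
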