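import Cfsg.Agent.H41.CoType.Five
import Cfsg.Agent.H41.CoType.HallTool
import Cfsg.Agent.S2040
import Mathlib.Algebra.Group.Shrink

/-! The centralizer of the element of order five: the Hall–Janko group and its centralizer. -/

set_option autoImplicit false
set_option linter.style.haveILetI false
set_option linter.unusedSimpArgs false
set_option linter.unusedSectionVars false

namespace Cfsg.Agent.H41.CoType

open Cfsg.Agent
open Cfsg.Agent.H18 (SingPt OrthPair)

namespace Pent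

variable {G : Type*} [Group G] [Finite G] (P : Pent G)

/-- The centralizer of the element of order five. -/
abbrev K : Subgroup G := Subgroup.centralizer ({P.β} : Set G)

theorem mem_K {x : G} : x ∈ P.K ↔ x * P.β = P.β * x := Subgroup.mem_centralizer_singleton_iff

theorem β_ne : P.β ≠ 1 := fun e => by
  obtain ⟨τ, hτ, -, h1⟩ := P.exists_tau
  refine h1 (hτ.perm_uniq ?_)
  rw [P.im_congr P.hC (one_mem _) e, show P.T.im (one_mem P.T.S.C) = 1 from map_one P.T.S.ρ]
  exact realizes_one 1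

theorem orderOf_β : orderOf P.β = 5 :=
  haveI : Fact (Nat.Prime 5) := ⟨by norm_num⟩
  orderOf_eq_prime P.h5 P.β_ne

theorem β_mem_K : P.β ∈ P.K := P.mem_K.2 rfl

theorem pow_eq_one {n m : ℕ} (hm : ¬ 5 ∣ m) (h : P.β ^ (n * m) = 1) : P.β ^ n = 1 := by
  have h1 := orderOf_dvd_of_pow_eq_one h
  rw [P.orderOf_β] at h1
  obtain ⟨j, rfl⟩ := ((Nat.Prime.dvd_mul (by norm_num)).1 h1).resolve_right hm
  rw [pow_mul, P.h5, one_pow]

/-- The cyclic group of order five inside its centralizer. -/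
abbrev Z : Subgroup P.K := (Subgroup.zpowers P.β).subgroupOf P.K

instance Z_normal : P.Z.Normal := ⟨fun n hn k => by
  rw [Subgroup.mem_subgroupOf] at hn ⊢
  obtain ⟨i, hi⟩ := hn
  refine ⟨i, ?_⟩
  have hk : Commute (k : G) (P.β ^ i) := Commute.zpow_right (P.mem_K.1 k.2) i
  push_cast
  simp only at hi ⊢
  rw [← hi, hk.eq, mul_inv_cancel_right]⟩

/-- The centralizer modulo the element of order five. -/
abbrev H := ↥P.K ⧸ P.Z

/-- The projection. -/
noncomputable abbrev π : P.K →* P.H := QuotientGroup.mk' P.Z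

theorem π_eq {k k' : P.K} : P.π k = P.π k' ↔ ∃ n : ℕ, (k' : G) = (k : G) * P.β ^ n := by
  refine QuotientGroup.eq.trans ?_
  rw [Subgroup.mem_subgroupOf, ← mem_powers_iff_mem_zpowers, Submonoid.mem_powers_iff]
  refine exists_congr fun n => ?_
  push_cast
  rw [eq_inv_mul_iff_mul_eq]
  exact eq_comm

theorem π_eq_one {k : P.K} : P.π k = 1 ↔ ∃ n : ℕ, (k : G) = P.β ^ n := by
  rw [eq_comm, ← map_one P.π, P.π_eq]
  simp

theorem lift_one {k : P.K} (h : P.π k = 1) {m : ℕ} (hm : ¬ 5 ∣ m) (hk : (k : G) ^ m = 1) : k = 1 := by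
  obtain ⟨n, hn⟩ := P.π_eq_one.1 h
  rw [hn, ← pow_mul] at hk
  exact Subtype.ext (by rw [hn, P.pow_eq_one hm hk]; rfl)

theorem lift_conj {k q q' : P.K} {m : ℕ} (hm : ¬ 5 ∣ m) (hq : (q : G) ^ m = 1) (hq' : (q' : G) ^ m = 1)
    (h : P.π k * P.π q * (P.π k)⁻¹ = P.π q') : (k : G) * q * (k : G)⁻¹ = q' := by
  rw [← map_inv, ← map_mul, ← map_mul, P.π_eq] at h
  obtain ⟨n, hn⟩ := h
  push_cast at hn
  set w := (k : G) * q * (k : G)⁻¹ with hw
  have hc : Commute w (P.β ^ n) := by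
    refine Commute.pow_right ?_ n
    exact P.mem_K.1 (mul_mem (mul_mem k.2 q.2) (inv_mem k.2))
  rw [hn, hc.mul_pow, hw, conj_pow, hq, mul_one, mul_inv_cancel, one_mul, ← pow_mul] at hq'
  rw [hn, P.pow_eq_one hm hq', mul_one]

theorem lift_comm {k q : P.K} {m : ℕ} (hm : ¬ 5 ∣ m) (hq : (q : G) ^ m = 1)
    (h : P.π k * P.π q = P.π q * P.π k) : (k : G) * q = q * k :=
  mul_inv_eq_iff_eq_mul.1 (P.lift_conj hm hq hq (mul_inv_eq_iff_eq_mul.2 h))

/-- The involution in the centralizer. -/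
def zK : P.K := ⟨P.T.z, P.mem_K.2 P.comm_z.symm⟩

theorem z_pow_two : P.T.z ^ 2 = 1 := by rw [pow_two, P.T.S.pt.xx]

theorem z_mem_Lz : P.T.z ∈ P.Lz :=
  P.mem_Lz_of_F P.T.S.pt.mem (by rw [P.T.S.co_z]; intro j; exact B_zero_left _)

/-- The centralizer of the involution in the centralizer. -/
abbrev K0 : Subgroup P.K := P.T.S.C.subgroupOf P.K

theorem commutes {k : P.K} : (k : G) * P.β = P.β * (k : G) := P.mem_K.1 k.2

theorem exists_theta (k : P.K0) : ∃ p : alternatingGroup (Fin 5),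
    ∀ i, ap (P.T.im (Subgroup.mem_subgroupOf.1 k.2)) (five 0 i) = five 0 ((p : Equiv.Perm (Fin 5)) i) := by
  obtain ⟨π, hπ, n, hR⟩ := P.cent_perm (Subgroup.mem_subgroupOf.1 k.2) P.commutes
  obtain ⟨τ, hτ, -, -⟩ := P.exists_tau
  refine ⟨⟨π, Equiv.Perm.mem_alternatingGroup.2 hπ⟩, fun i => ?_⟩
  have h := hR.1 i
  rw [ap_mul, ((hτ.pow n).inv).fix_other] at h
  exact h

/-- The permutation induced on the first five points. -/
noncomputable def theta0 : P.K0 →* alternatingGroup (Fin 5) where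
  toFun k := (P.exists_theta k).choose
  map_one' := Subtype.ext (Equiv.ext fun i => (five_spec 0 _).2.2.2 _ (by
    rw [← (P.exists_theta 1).choose_spec i]
    show ap (P.T.im (one_mem P.T.S.C)) _ = _
    rw [show P.T.im (one_mem P.T.S.C) = 1 from map_one P.T.S.ρ]
    exact ap_one _))
  map_mul' k k' := Subtype.ext (Equiv.ext fun i => (five_spec 0 _).2.2.2 _ (by
    rw [← (P.exists_theta (k * k')).choose_spec i]
    show ap (P.T.im (mul_mem (Subgroup.mem_subgroupOf.1 k.2) (Subgroup.mem_subgroupOf.1 k'.2))) _ = _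
    rw [P.T.im_mul (Subgroup.mem_subgroupOf.1 k.2) (Subgroup.mem_subgroupOf.1 k'.2), ap_mul,
      (P.exists_theta k').choose_spec, (P.exists_theta k).choose_spec]
    rfl))

theorem theta0_spec (k : P.K0) (i : Fin 5) :
    ap (P.T.im (Subgroup.mem_subgroupOf.1 k.2)) (five 0 i) =
      five 0 ((P.theta0 k : Equiv.Perm (Fin 5)) i) :=
  (P.exists_theta k).choose_spec i

/-- The centralizer of the involution in the quotient. -/
abbrev CH : Subgroup P.H := Subgroup.centralizer ({P.π P.zK} : Set P.H)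

/-- The projection between the centralizers. -/
noncomputable def phi : P.K0 →* P.CH :=
  MonoidHom.codRestrict (P.π.comp P.K0.subtype) P.CH fun k => by
    rw [Subgroup.mem_centralizer_singleton_iff]
    show P.π (k : P.K) * P.π P.zK = P.π P.zK * P.π (k : P.K)
    rw [← map_mul, ← map_mul]
    exact congrArg P.π (Subtype.ext (P.T.S.mem_C.1 (Subgroup.mem_subgroupOf.1 k.2)))

theorem phi_apply (k : P.K0) : (P.phi k : P.H) = P.π (k : P.K) := rfl

theorem phi_surjective : Function.Surjective P.phi := by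
  rintro ⟨h, hh⟩
  obtain ⟨k, rfl⟩ := QuotientGroup.mk'_surjective P.Z h
  have := P.lift_comm (k := k) (q := P.zK) (m := 2) (by norm_num) P.z_pow_two
    (Subgroup.mem_centralizer_singleton_iff.1 hh)
  exact ⟨⟨k, Subgroup.mem_subgroupOf.2 (P.T.S.mem_C.2 this)⟩, rfl⟩

/-- The permutation induced, on the quotient. -/
noncomputable def theta : P.CH →* alternatingGroup (Fin 5) :=
  P.phi.liftOfRightInverse (Function.surjInv P.phi_surjective)
    (Function.rightInverse_surjInv P.phi_surjective) ⟨P.theta0, fun k hk => by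
      obtain ⟨n, hn⟩ := P.π_eq_one.1 (congrArg Subtype.val (MonoidHom.mem_ker.1 hk))
      refine MonoidHom.mem_ker.2 (Subtype.ext (Equiv.ext fun i => (five_spec 0 _).2.2.2 _ ?_))
      have hn' : ((k : P.K) : G) = P.β ^ n := hn
      rw [← P.theta0_spec k i, P.im_congr _ (pow_mem P.hC n) hn', P.im_pow P.hC n]
      obtain ⟨τ, hτ, -, -⟩ := P.exists_tau
      exact (hτ.pow n).fix_other i⟩

theorem theta_phi (k : P.K0) : P.theta (P.phi k) = P.theta0 k :=
  MonoidHom.liftOfRightInverse_comp_apply _ _ _ _ k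

theorem theta_surjective : Function.Surjective P.theta := by
  intro p
  obtain ⟨ω, hR, -⟩ := exists_realizes 0 (p : Equiv.Perm (Fin 5))
  obtain ⟨c, hc, hcβ, hρ⟩ := P.lift_cent hR (Equiv.Perm.mem_alternatingGroup.1 p.2)
  refine ⟨P.phi ⟨⟨c, P.mem_K.2 hcβ⟩, Subgroup.mem_subgroupOf.2 hc⟩, ?_⟩
  rw [P.theta_phi]
  refine Subtype.ext (Equiv.ext fun i => (five_spec 0 _).2.2.2 _ ?_)
  rw [← P.theta0_spec]
  show ap (P.T.im hc) _ = _
  rw [hρ, hR.1]

/-- The fixed part of `F`, in the centralizer. -/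
abbrev QK : Subgroup P.K := P.T.S.F.subgroupOf P.K

theorem QK_le : P.QK ≤ P.K0 := fun _ hq => P.T.S.F_le_C hq

theorem theta_ker_iff (k : P.K0) :
    P.theta (P.phi k) = 1 ↔ ∃ q : P.K, q ∈ P.QK ∧ P.π q = P.π (k : P.K) := by
  rw [P.theta_phi]
  constructor
  · intro h
    obtain ⟨π, -, n, hR⟩ := P.cent_perm (Subgroup.mem_subgroupOf.1 k.2) P.commutes
    obtain ⟨τ, hτ, -, -⟩ := P.exists_tau
    have hπ : π = 1 := Equiv.ext fun i => (five_spec 0 _).2.2.2 _ (by
      have h1 := hR.1 i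
      rw [ap_mul, ((hτ.pow n).inv).fix_other, P.theta0_spec, h] at h1
      exact h1.symm)
    rw [hπ] at hR
    have h1 := hR.uniq (realizes_one 0)
    have hf : (k : G) * (P.β ^ n)⁻¹ ∈ P.T.S.F := by
      refine (P.T.S.rho_eq_one (mul_mem (Subgroup.mem_subgroupOf.1 k.2) (inv_mem (pow_mem P.hC n)))).1 ?_
      show P.T.im _ = 1
      rw [P.T.im_mul (Subgroup.mem_subgroupOf.1 k.2) (inv_mem (pow_mem P.hC n)),
        P.im_inv (pow_mem P.hC n), P.im_pow P.hC n]
      exact h1
    refine ⟨⟨(k : G) * (P.β ^ n)⁻¹, mul_mem (k : P.K).2 (inv_mem (pow_mem P.β_mem_K n))⟩, hf,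
      P.π_eq.2 ⟨n, ?_⟩⟩
    exact (inv_mul_cancel_right _ _).symm
  · rintro ⟨q, hq, hqk⟩
    obtain ⟨n, hn⟩ := P.π_eq.1 hqk
    obtain ⟨τ, hτ, -, -⟩ := P.exists_tau
    refine Subtype.ext (Equiv.ext fun i => (five_spec 0 _).2.2.2 _ ?_)
    rw [← P.theta0_spec,
      P.im_congr _ (mul_mem (P.T.S.F_le_C (Subgroup.mem_subgroupOf.1 hq)) (pow_mem P.hC n)) hn,
      P.T.im_mul (P.T.S.F_le_C (Subgroup.mem_subgroupOf.1 hq)) (pow_mem P.hC n),
      P.im_of_F (Subgroup.mem_subgroupOf.1 hq), one_mul, P.im_pow P.hC n]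
    exact (hτ.pow n).fix_other i

theorem QK_pow {q : P.K} (hq : q ∈ P.QK) : (q : G) ^ 4 = 1 :=
  P.F_pow_four (Subgroup.mem_subgroupOf.1 hq)

/-- The fixed part of `F` is the kernel of the permutation map. -/
noncomputable def QKEquiv : P.QK ≃* P.theta.ker :=
  MulEquiv.ofBijective (MonoidHom.codRestrict (P.phi.comp (Subgroup.inclusion P.QK_le)) P.theta.ker
      fun q => MonoidHom.mem_ker.2 ((P.theta_ker_iff _).2 ⟨q, q.2, rfl⟩))
    ⟨(injective_iff_map_eq_one _).2 fun q hq => Subtype.ext (P.lift_one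
        (congrArg (fun x : P.theta.ker => ((x : P.CH) : P.H)) hq) (m := 4) (by norm_num)
        (P.QK_pow q.2)),
      fun ⟨x, hx⟩ => by
        obtain ⟨k, rfl⟩ := P.phi_surjective x
        obtain ⟨q, hq, hqk⟩ := (P.theta_ker_iff k).1 (MonoidHom.mem_ker.1 hx)
        exact ⟨⟨q, hq⟩, Subtype.ext (Subtype.ext hqk)⟩⟩

/-- The quotient is of Hall–Janko type. -/
theorem hyp (hQB : Cfsg.IsExtraspecial 2 P.QK) (hcard : Nat.card P.QK = 32) :
    H59.HJ.Hyp (P.π P.zK) P.theta.ker := by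
  have hb : P.T.b ∈ P.K := P.mem_K.2 P.comm_b.symm
  have hv : P.T.v ∈ P.K := P.mem_K.2 P.hv.symm
  have hzb : P.T.z * P.T.b ∈ P.K := mul_mem P.zK.2 hb
  have hzbF : P.T.z * P.T.b ∈ P.T.S.F := mul_mem P.T.S.pt.mem P.T.b_mem
  refine ⟨?_, ?_, H58.isExtraspecial_congr P.QKEquiv hQB,
    by rw [← Nat.card_congr P.QKEquiv.toEquiv]; exact hcard,
    ⟨QuotientGroup.quotientKerEquivOfSurjective P.theta P.theta_surjective⟩, ?_, ?_⟩
  · refine orderOf_eq_prime ?_ fun e => P.T.S.pt.xne ?_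
    · rw [← map_pow, show P.zK ^ 2 = 1 from Subtype.ext P.z_pow_two, map_one]
    · exact congrArg Subtype.val (P.lift_one e (m := 2) (by norm_num) P.z_pow_two)
  · intro h hh
    obtain ⟨k, rfl⟩ := P.phi_surjective h
    refine MonoidHom.mem_ker.2 ?_
    rw [P.theta_phi]
    refine Subtype.ext (Equiv.ext fun i => (five_spec 0 _).2.2.2 _ ?_)
    rw [← P.theta0_spec]
    obtain ⟨y, hy, hyi⟩ := P.T.S.co_surj (five 0 i)
    have hW : InW 0 (P.T.S.co y) := hyi.symm ▸ (five_spec 0 i).2.2.1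
    let q : P.K := ⟨y, P.mem_K.2 (P.comm_F hy hW).symm⟩
    have hq : q ∈ P.QK := hy
    have hc := congrArg (fun x : P.CH => (x : P.H))
      (Subgroup.mem_centralizer_iff.1 hh _ (P.QKEquiv ⟨q, hq⟩).2)
    have := P.lift_comm (k := (k : P.K)) (q := q) (m := 4) (by norm_num) (P.QK_pow hq) hc.symm
    rw [← hyi, ← P.T.co_conj _ hy]
    change (k : G) * y = y * (k : G) at this
    rw [this, mul_inv_cancel_right]
    exact hyi
  · refine ⟨P.π ⟨P.T.v, hv⟩, ?_, ?_⟩
    · have e : P.π ⟨P.T.v, hv⟩ * P.π P.zK * (P.π ⟨P.T.v, hv⟩)⁻¹ = P.π ⟨_, hzb⟩ := by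
        rw [← map_inv, ← map_mul, ← map_mul]
        exact congrArg P.π (Subtype.ext P.T.hvz)
      have hk0 : (⟨_, hzb⟩ : P.K) ∈ P.K0 := P.T.S.F_le_C hzbF
      refine ⟨by rw [e]; exact (P.phi ⟨_, hk0⟩).2, MonoidHom.mem_ker.2 ?_⟩
      rw [show (⟨P.π ⟨P.T.v, hv⟩ * P.π P.zK * (P.π ⟨P.T.v, hv⟩)⁻¹, _⟩ : P.CH) = P.phi ⟨_, hk0⟩ from
        Subtype.ext e]
      exact (P.theta_ker_iff _).2 ⟨⟨_, hzb⟩, hzbF, rfl⟩
    · intro e
      have := P.lift_conj (k := ⟨P.T.v, hv⟩) (q := P.zK) (q' := P.zK) (m := 2) (by norm_num)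
        P.z_pow_two P.z_pow_two e
      change P.T.v * P.T.z * P.T.v⁻¹ = P.T.z at this
      rw [P.T.hvz, mul_eq_left] at this
      exact P.T.o.h'.xne this
  · obtain ⟨r, hr, hrβ⟩ := P.exists_radical
    have hr2 := P.T.order_two hr
    have hrp : r ^ 2 = 1 := by rw [← hr2, pow_orderOf_eq_one]
    let rK : P.K := ⟨r, P.mem_K.2 hrβ.symm⟩
    refine ⟨P.π P.zK, P.π rK, ?_, ?_, ?_⟩
    · refine orderOf_eq_prime ?_ fun e => P.T.S.pt.xne ?_
      · rw [← map_pow, show P.zK ^ 2 = 1 from Subtype.ext P.z_pow_two, map_one]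
      · exact congrArg Subtype.val (P.lift_one e (m := 2) (by norm_num) P.z_pow_two)
    · refine orderOf_eq_prime ?_ fun e => ?_
      · rw [← map_pow, show rK ^ 2 = 1 from Subtype.ext hrp, map_one]
      · have := congrArg Subtype.val (P.lift_one e (m := 2) (by norm_num) hrp)
        rw [show r = 1 from this, orderOf_one] at hr2
        omega
    · intro h
      obtain ⟨g, hg⟩ := isConj_iff.1 h
      obtain ⟨k, rfl⟩ := QuotientGroup.mk'_surjective P.Z g
      have := P.lift_conj (k := k) (q := P.zK) (q' := rK) (m := 2) (by norm_num) P.z_pow_two hrp hg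
      exact P.T.not_isConj_z hr (isConj_iff.2 ⟨_, this⟩ : IsConj P.T.z r).symm

theorem exists_frameH (hQB : Cfsg.IsExtraspecial 2 P.QK) (hcard : Nat.card P.QK = 32) :
    ∃ Φ, H59.HJ.Frame (P.π P.zK) Φ := H59.HJ.exists_frame (P.hyp hQB hcard)

/-- The derived subgroup meets the cyclic group trivially. -/
theorem commutator_inter (hJ : Cfsg.Spor.IsoJ2 P.H) : commutator P.K ⊓ P.Z = ⊥ := by
  obtain ⟨e⟩ := hJ
  haveI : Fact (Nat.Prime 5) := ⟨by norm_num⟩
  have hcZ : Nat.card P.Z = 5 := by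
    rw [Nat.card_congr (Subgroup.subgroupOfEquivOfLe
      (Subgroup.zpowers_le.2 P.β_mem_K)).toEquiv, Nat.card_zpowers, P.orderOf_β]
  haveI : Fact (Nat.card P.Z).Prime := ⟨by rw [hcZ]; norm_num⟩
  by_contra hne
  have hle : P.Z ≤ commutator P.K := by
    rcases ((commutator P.K ⊓ P.Z).subgroupOf P.Z).eq_bot_or_eq_top_of_prime_card with h | h
    · exact absurd (by
        rwa [Subgroup.subgroupOf_eq_bot, disjoint_iff, inf_assoc, inf_idem] at h) hne
    · rw [Subgroup.subgroupOf_eq_top] at h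
      exact h.trans inf_le_left
  let sh : Shrink.{0} P.K ≃* P.K := Shrink.mulEquiv
  let σ : Shrink.{0} P.K →* Cfsg.Spor.J2 := (e.toMonoidHom.comp P.π).comp sh.toMonoidHom
  have hker : σ.ker = P.Z.map sh.symm.toMonoidHom := by
    ext x
    rw [MonoidHom.mem_ker, Subgroup.mem_map_equiv, MulEquiv.symm_symm]
    show e (P.π (sh x)) = 1 ↔ _
    rw [map_eq_one_iff e e.injective]
    exact QuotientGroup.eq_one_iff _
  have hstem : Cfsg.IsStemExtension σ := by
    refine ⟨(e.surjective.comp (QuotientGroup.mk'_surjective P.Z)).comp sh.surjective,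
      ?_, ?_⟩
    · intro x hx
      rw [hker, Subgroup.mem_map_equiv, MulEquiv.symm_symm, Subgroup.mem_subgroupOf] at hx
      obtain ⟨i, hi⟩ := hx
      refine Subgroup.mem_center_iff.2 fun y => sh.injective ?_
      rw [map_mul, map_mul]
      refine Subtype.ext ?_
      push_cast
      simp only at hi
      rw [← hi]
      exact (Commute.zpow_right P.commutes i).eq
    · rw [hker]
      refine (Subgroup.map_mono hle).trans ?_
      rw [commutator_def, commutator_def, Subgroup.map_commutator]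
      exact Subgroup.commutator_mono le_top le_top
  obtain ⟨f, hf⟩ := (S2040.result).2 _ σ hstem
  have h5 := Nat.card_le_card_of_surjective f hf
  rw [hker, Subgroup.card_map_of_injective sh.symm.injective, hcZ] at h5
  rw [Nat.card_congr (Multiplicative.toAdd), Nat.card_zmod] at h5
  omega

theorem center_H_and_simple (hJ : Cfsg.Spor.IsoJ2 P.H) :
    IsSimpleGroup P.H ∧ Subgroup.center P.H = ⊥ ∧ commutator P.H = ⊤ := by
  obtain ⟨e⟩ := hJ
  haveI := H15.J2.j2_simple
  haveI : IsSimpleGroup P.H := e.isSimpleGroup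
  obtain ⟨a, b, hab⟩ := H15.J2.j2_noncomm
  have hna : ∃ a b : P.H, a * b ≠ b * a := ⟨e.symm a, e.symm b, fun h => hab (by
    have := congrArg e h
    rwa [map_mul, map_mul, e.apply_symm_apply, e.apply_symm_apply] at this)⟩
  obtain ⟨a', b', hab'⟩ := hna
  refine ⟨inferInstance, ?_, ?_⟩
  · refine ((inferInstance : (Subgroup.center P.H).Normal).eq_bot_or_eq_top).resolve_right fun h => ?_
    exact hab' (Subgroup.mem_center_iff.1 (h ▸ Subgroup.mem_top b') a')
  · refine ((Subgroup.commutator_normal ⊤ ⊤ : (commutator P.H).Normal).eq_bot_or_eq_top).resolve_left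
      fun h => hab' ?_
    exact (commutatorElement_eq_one_iff_mul_comm.1 ((Subgroup.eq_bot_iff_forall _).1 h _
      (Subgroup.commutator_mem_commutator (Subgroup.mem_top a') (Subgroup.mem_top b'))))

/-- The derived subgroup is the Hall–Janko group. -/
theorem derived_equiv (hJ : Cfsg.Spor.IsoJ2 P.H) :
    Function.Bijective (fun k : commutator P.K => P.π (k : P.K)) := by
  refine ⟨fun k k' h => ?_, fun h => ?_⟩
  · have hz : ((k : P.K))⁻¹ * (k' : P.K) ∈ commutator P.K ⊓ P.Z :=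
      Subgroup.mem_inf.2 ⟨(commutator P.K).mul_mem ((commutator P.K).inv_mem k.2) k'.2,
        QuotientGroup.eq.1 h⟩
    rw [P.commutator_inter hJ, Subgroup.mem_bot] at hz
    exact Subtype.ext (inv_mul_eq_one.1 hz)
  · have : h ∈ (commutator P.K).map P.π := by
      rw [commutator_def, Subgroup.map_commutator,
        Subgroup.map_top_of_surjective _ (QuotientGroup.mk'_surjective P.Z), ← commutator_def,
        (P.center_H_and_simple hJ).2.2]
      trivial
    obtain ⟨k, hk, rfl⟩ := this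
    exact ⟨⟨k, hk⟩, rfl⟩

/-- Elements of order prime to five lie in the derived subgroup. -/
theorem mem_derived (hJ : Cfsg.Spor.IsoJ2 P.H) {k : P.K} {m : ℕ} (hm : ¬ 5 ∣ m) (hk : (k : G) ^ m = 1) :
    k ∈ commutator P.K := by
  obtain ⟨d, hd⟩ := (P.derived_equiv hJ).2 (P.π k)
  obtain ⟨n, hn⟩ := P.π_eq.1 hd
  have hc : Commute ((d : P.K) : G) (P.β ^ n) := Commute.pow_right P.commutes n
  rw [hn, hc.mul_pow, ← pow_mul] at hk
  let Bm : P.K := ⟨P.β ^ (n * m), pow_mem P.β_mem_K _⟩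
  have hmem : Bm ∈ commutator P.K ⊓ P.Z := by
    refine ⟨?_, ?_⟩
    · have e : Bm = ((d : P.K) ^ m)⁻¹ :=
        Subtype.ext (eq_inv_of_mul_eq_one_right (by push_cast; exact hk))
      rw [e]
      exact (commutator P.K).inv_mem ((commutator P.K).pow_mem d.2 m)
    · exact Subgroup.mem_subgroupOf.2 (pow_mem (Subgroup.mem_zpowers _) _)
  rw [P.commutator_inter hJ, Subgroup.mem_bot] at hmem
  rw [P.pow_eq_one hm (congrArg Subtype.val hmem), mul_one] at hn
  rw [show k = (d : P.K) from Subtype.ext hn]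
  exact d.2

/-- The layer is the derived subgroup, and it is the Hall–Janko group. -/
theorem layer_eq (hJ : Cfsg.Spor.IsoJ2 P.H) : Cfsg.layer P.K = commutator P.K ∧
    Cfsg.Spor.IsoJ2 (commutator P.K : Subgroup P.K) := by
  have e : (commutator P.K : Subgroup P.K) ≃* P.H :=
    MulEquiv.ofBijective (P.π.comp (commutator P.K).subtype) (P.derived_equiv hJ)
  obtain ⟨hs, hc, hp⟩ := P.center_H_and_simple hJ
  have hperf : Group.IsPerfect ↥(commutator P.K : Subgroup P.K) := by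
    refine ⟨Subgroup.map_injective (f := e.toMonoidHom) e.injective ?_⟩
    rw [show commutator ↥(commutator P.K : Subgroup P.K) = ⁅(⊤ : Subgroup ↥(commutator P.K : Subgroup P.K)), ⊤⁆
      from rfl, Subgroup.map_commutator, Subgroup.map_top_of_surjective _ e.surjective,
      ← commutator_def, hp]
  refine ⟨le_antisymm (sSup_le fun X hX => ?_) (le_sSup ⟨?_, hperf, ?_⟩), ?_⟩
  · haveI := hX.2.1
    intro x hx
    have h1 : (⟨x, hx⟩ : X) ∈ commutator X := by rw [Group.IsPerfect.commutator_eq_top]; trivial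
    have h2 : (commutator X).map X.subtype ≤ commutator P.K := by
      rw [commutator_def, commutator_def, Subgroup.map_commutator]
      exact Subgroup.commutator_mono le_top le_top
    exact h2 ⟨_, h1, rfl⟩
  · exact Subgroup.Normal.isSubnormal (Subgroup.commutator_normal ⊤ ⊤)
  · have hcc : Subgroup.center ↥(commutator P.K : Subgroup P.K) = ⊥ := by
      refine (Subgroup.eq_bot_iff_forall _).2 fun x hx => e.injective ?_
      rw [map_one]
      have : e x ∈ Subgroup.center P.H := Subgroup.mem_center_iff.2 fun y => by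
        obtain ⟨y', rfl⟩ := e.surjective y
        rw [← map_mul, ← map_mul, Subgroup.mem_center_iff.1 hx y']
      rwa [hc, Subgroup.mem_bot] at this
    haveI := hs
    exact (((QuotientGroup.quotientMulEquivOfEq hcc).trans QuotientGroup.quotientBot).trans e).isSimpleGroup
  · obtain ⟨j⟩ := hJ
    exact ⟨e.trans j⟩

/-- The layer inside the group. -/
abbrev L : Subgroup G := (commutator P.K).map P.K.subtype

theorem mem_L (hJ : Cfsg.Spor.IsoJ2 P.H) {x : G} (hx : x ∈ P.K) {m : ℕ} (hm : ¬ 5 ∣ m)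
    (hxm : x ^ m = 1) : x ∈ P.L :=
  ⟨⟨x, hx⟩, P.mem_derived hJ hm hxm, rfl⟩

theorem Lz_le (hJ : Cfsg.Spor.IsoJ2 P.H) : P.Lz ≤ P.L := by
  refine (Subgroup.closure_le _).2 ?_
  rintro x (⟨hF, hW⟩ | ⟨h3, hβ, -⟩)
  · exact P.mem_L hJ (P.mem_K.2 (P.comm_F hF hW).symm) (m := 4) (by norm_num) (P.F_pow_four hF)
  · exact P.mem_L hJ (P.mem_K.2 hβ) (m := 3) (by norm_num) h3

theorem v_mem_L (hJ : Cfsg.Spor.IsoJ2 P.H) : P.T.v ∈ P.L := by
  refine P.mem_L hJ (P.mem_K.2 P.hv.symm) (m := 4) (by norm_num) ?_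
  have h2 : P.T.v * P.T.v ∈ Subgroup.zpowers P.T.b := P.T.o.h'.sq P.T.hv
  rcases P.T.o.h'.pair h2 with h | h
  · rw [show (4 : ℕ) = 2 * 2 by norm_num, pow_mul, pow_two P.T.v, h, one_pow]
  · rw [show (4 : ℕ) = 2 * 2 by norm_num, pow_mul, pow_two P.T.v, h, pow_two, P.T.o.h'.xx]

/-- The permutation of the second five points induced by the centralizer of the layer. -/
theorem exists_centraliser_perm (hJ : Cfsg.Spor.IsoJ2 P.H) {m : G}
    (hm : m ∈ Subgroup.centralizer (P.L : Set G)) :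
    ∃ hx : P.IsX m, ∃ p : alternatingGroup (Fin 5),
      Realizes 1 (P.T.im hx.1) (p : Equiv.Perm (Fin 5)) := by
  have hL : ∀ y ∈ P.L, m * y = y * m := fun y hy => (hm y hy).symm
  have hx : P.IsX m := ⟨P.T.S.mem_C.2 (hL _ (P.Lz_le hJ P.z_mem_Lz)),
    fun y hy hW => hL _ (P.Lz_le hJ (P.mem_Lz_of_F hy hW))⟩
  obtain ⟨π, hπ⟩ := exists_perm (s := 1) (preserves_other (s := 0) (π := 1) (P.isX_fix hx))
  have hR : Realizes 1 (P.T.im hx.1) π := ⟨hπ, P.isX_fix hx⟩
  exact ⟨hx, ⟨π, Equiv.Perm.mem_alternatingGroup.2 (hR.mem_iff.1 (P.T.S.rho_mem hx.1))⟩, hR⟩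

/-- The centralizer of the layer is the alternating group of degree five. -/
theorem centralizer_L (hQB : Cfsg.IsExtraspecial 2 P.QK) (hcard : Nat.card P.QK = 32) :
    Nonempty (↥(Subgroup.centralizer (P.L : Set G)) ≃* alternatingGroup (Fin 5)) := by
  classical
  obtain ⟨Φ, F⟩ := P.exists_frameH hQB hcard
  have hJ := (hj_of_frame F).1
  set M := Subgroup.centralizer (P.L : Set G)
  choose hX p hp using fun m : M => P.exists_centraliser_perm hJ m.2
  let f : M →* alternatingGroup (Fin 5) :=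
    { toFun := p
      map_one' := Subtype.ext ((hp 1).perm_uniq (by
        show Realizes 1 (P.T.im (hX 1).1) 1
        rw [P.im_congr (hX 1).1 (one_mem _) rfl, show P.T.im (one_mem P.T.S.C) = 1 from map_one P.T.S.ρ]
        exact realizes_one 1))
      map_mul' := fun m m' => Subtype.ext ((hp (m * m')).perm_uniq (by
        rw [P.im_congr (hX (m * m')).1 (mul_mem (hX m).1 (hX m').1) rfl,
          P.T.im_mul (hX m).1 (hX m').1]
        exact (hp m).mul (hp m'))) }
  refine ⟨MulEquiv.ofBijective f ⟨(injective_iff_map_eq_one f).2 fun m hm => ?_, ?_⟩⟩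
  · -- injectivity
    have hL : ∀ y ∈ P.L, (m : G) * y = y * m := fun y hy => (m.2 y hy).symm
    have hR := hp m
    rw [show p m = 1 from hm] at hR
    have hF : (m : G) ∈ P.T.S.F := (P.T.S.rho_eq_one (hX m).1).1 (hR.uniq (realizes_one 1))
    have hmu : (m : G) * P.T.u = P.T.u * m := (hX m).2 _ P.T.hu (P.T.hcu.symm ▸ inW_zero_basis.2.1)
    have hmb : (m : G) * P.T.b = P.T.b * m :=
      (hX m).2 _ P.T.b_mem (P.T.hb.symm ▸ inW_zero_basis.1)
    have hmP : (m : G) ∈ P.T.P := ⟨hF, Subgroup.mem_centralizer_singleton_iff.2 hmb⟩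
    have hmv := hL _ (P.v_mem_L hJ)
    have hcl := P.T.isCl_conj_v (P.T.isCl_P hmP)
    rw [← hmv, mul_inv_cancel_right] at hcl
    have hc := (P.T.isCl_uniq (P.T.isCl_P hmP) hcl).2
    rw [add_zero] at hc
    obtain ⟨i, j, hij⟩ := P.T.cl_eq (one_mem _) hmP (by rw [← hc, ← P.T.vv_zero, Frame.cl_vv])
    rw [one_mul] at hij
    have hj : j = 0 := by
      have := P.T.u_vv i j
      rw [← hij, ← hmu, mul_inv_cancel_right, hij] at this
      linear_combination -(P.T.vv_inj this).1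
    have hi : i = 0 := by
      have := P.T.v_vv i j
      rw [← hij, ← hmv, mul_inv_cancel_right, hij] at this
      linear_combination -(P.T.vv_inj this).2
    exact Subtype.ext (by rw [hij, hi, hj, Frame.vv_zero]; rfl)
  · -- surjectivity
    rw [← MonoidHom.range_eq_top, eq_top_iff]
    rintro ⟨π, hπ⟩ -
    have hall : ∀ π ∈ Subgroup.closure {σ : Equiv.Perm (Fin 5) | σ.IsThreeCycle},
        ∃ m : M, (f m : Equiv.Perm (Fin 5)) = π := by
      intro π hπ
      induction hπ using Subgroup.closure_induction with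
      | mem σ hσ =>
        obtain ⟨m, hm, hmv, hR⟩ := P.exists_m (π := σ)
          (by rw [← hσ.orderOf, pow_orderOf_eq_one]) hσ.sign
        have hmM : m ∈ M := by
          set Y : Subgroup P.K := commutator P.K ⊓ (Subgroup.centralizer ({m} : Set G)).subgroupOf P.K
            with hY
          have hW : ∀ {k : P.K}, (k : G) ∈ P.Lz → k ∈ Y := fun {k} hk =>
            ⟨by
              obtain ⟨d, hd, hdk⟩ := P.Lz_le hJ hk
              rwa [show k = d from Subtype.ext hdk.symm],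
            Subgroup.mem_subgroupOf.2 (Subgroup.mem_centralizer_singleton_iff.2
              (P.isX_comm_Lz hm hk).symm)⟩
          have hvK : P.T.v ∈ P.K := P.mem_K.2 P.hv.symm
          have hvY : (⟨P.T.v, hvK⟩ : P.K) ∈ Y := by
            refine ⟨?_, Subgroup.mem_subgroupOf.2 (Subgroup.mem_centralizer_singleton_iff.2 hmv.symm)⟩
            obtain ⟨d, hd, hdv⟩ := P.v_mem_L hJ
            rwa [show (⟨P.T.v, hvK⟩ : P.K) = d from Subtype.ext hdv.symm]
          have hzbF : P.T.z * P.T.b ∈ P.T.S.F := mul_mem P.T.S.pt.mem P.T.b_mem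
          have hCle : P.CH ≤ Y.map P.π := by
            intro h hh
            obtain ⟨k, hk⟩ := P.phi_surjective ⟨h, hh⟩
            obtain ⟨n, hn⟩ := P.exists_Lz (Subgroup.mem_subgroupOf.1 k.2) P.commutes
            refine ⟨⟨(k : G) * (P.β ^ n)⁻¹, mul_mem (k : P.K).2 (inv_mem (pow_mem P.β_mem_K n))⟩,
              hW hn, ?_⟩
            rw [show h = P.π (k : P.K) from (congrArg Subtype.val hk).symm]
            exact P.π_eq.2 ⟨n, (inv_mul_cancel_right _ _).symm⟩
          have hk0 : (⟨_, mul_mem P.zK.2 (P.mem_K.2 P.comm_b.symm)⟩ : P.K) ∈ P.K0 :=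
            P.T.S.F_le_C hzbF
          have e : P.π ⟨P.T.v, hvK⟩ * P.π P.zK * (P.π ⟨P.T.v, hvK⟩)⁻¹ =
              P.π ⟨_, mul_mem P.zK.2 (P.mem_K.2 P.comm_b.symm)⟩ := by
            rw [← map_inv, ← map_mul, ← map_mul]
            exact congrArg P.π (Subtype.ext P.T.hvz)
          have htop := eq_top_of_frame F (Y.map P.π) hCle ⟨_, hvY, rfl⟩
            (by rw [e]; exact (P.phi ⟨_, hk0⟩).2) (fun e' => by
              have := P.lift_conj (k := ⟨P.T.v, hvK⟩) (q := P.zK) (q' := P.zK) (m := 2) (by norm_num)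
                P.z_pow_two P.z_pow_two e'
              change P.T.v * P.T.z * P.T.v⁻¹ = P.T.z at this
              rw [P.T.hvz, mul_eq_left] at this
              exact P.T.o.h'.xne this)
          rintro x ⟨d, hd, rfl⟩
          obtain ⟨y, hy, hyd⟩ := (htop.symm ▸ Subgroup.mem_top (P.π d) : P.π d ∈ Y.map P.π)
          have : (⟨y, hy.1⟩ : commutator P.K) = ⟨d, hd⟩ := (P.derived_equiv hJ).1 hyd
          have hyd' : y = d := congrArg Subtype.val this
          exact Subgroup.mem_centralizer_singleton_iff.1 (Subgroup.mem_subgroupOf.1 (hyd' ▸ hy.2))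
        refine ⟨⟨m, hmM⟩, (hp _).perm_uniq ?_⟩
        rw [P.im_congr (hX ⟨m, hmM⟩).1 hm.1 rfl]
        exact hR
      | one => exact ⟨1, by rw [map_one]; rfl⟩
      | mul x y _ _ hx hy =>
        obtain ⟨a, ha⟩ := hx
        obtain ⟨b, hb⟩ := hy
        exact ⟨a * b, by rw [map_mul, Subgroup.coe_mul, ha, hb]⟩
      | inv x _ hx =>
        obtain ⟨a, ha⟩ := hx
        exact ⟨a⁻¹, by rw [map_inv, Subgroup.coe_inv, ha]⟩
    obtain ⟨m, hm⟩ := hall π (by
      rw [Equiv.Perm.closure_three_cycles_eq_alternating]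
      exact hπ)
    exact ⟨m, Subtype.ext hm⟩

/-- The conclusion. -/
theorem conclusion (hQB : Cfsg.IsExtraspecial 2 P.QK) (hcard : Nat.card P.QK = 32) :
    Cfsg.Spor.IsoJ2 ↥(Cfsg.layer P.K) ∧
      Nonempty (↥(Subgroup.centralizer (((Cfsg.layer P.K).map P.K.subtype : Subgroup G) : Set G)) ≃*
        alternatingGroup (Fin 5)) := by
  obtain ⟨Φ, F⟩ := P.exists_frameH hQB hcard
  obtain ⟨h1, h2⟩ := P.layer_eq (hj_of_frame F).1
  rw [h1]
  exact ⟨h2, P.centralizer_L hQB hcard⟩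

end Pent

end Cfsg.Agent.H41.CoType
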