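import Cfsg.Agent.H41.CoType.Setting

/-! Coordinates on the radical of a pair of orthogonal singular involutions. -/

set_option autoImplicit false
set_option linter.unusedSimpArgs false
set_option linter.unusedSectionVars false

namespace Cfsg.Agent.H41.CoType

open Cfsg.Agent
open Cfsg.Agent.H18 (SingPt OrthPair)

/-- The components outside the first hyperbolic pair. -/
def pr (x : F8) : F8 := fun j => if j = Sum.inl 0 ∨ j = Sum.inr 0 then 0 else x j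

theorem pr_add (x y : F8) : pr (x + y) = pr x + pr y := by
  funext j; by_cases h : j = Sum.inl 0 ∨ j = Sum.inr 0 <;> simp [pr, h]

theorem pr_zero : pr 0 = 0 := by funext j; simp [pr]

theorem pr_pr (x : F8) : pr (pr x) = pr x := by
  funext j; by_cases h : j = Sum.inl 0 ∨ j = Sum.inr 0 <;> simp [pr, h]

theorem B_pr_left (x y : F8) : B8 (pr x) (pr y) = B8 (pr x) y := by
  simp [B8, pr, Fin.sum_univ_four]

theorem B_pr {x y : F8} (hx : B8 (eps 0) x = 0) (hy : B8 (eps 0) y = 0) :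
    B8 (pr x) (pr y) = B8 x y := by
  rw [B_eps] at hx hy
  simp [B8, pr, Fin.sum_univ_four, hx, hy]

theorem q_pr {x : F8} (hx : B8 (eps 0) x = 0) : q8 (pr x) = q8 x := by
  rw [B_eps] at hx
  simp [q8, pr, Fin.sum_univ_four, hx]

theorem B_eps_pr (x : F8) : B8 (eps 0) (pr x) = 0 := by rw [B_eps]; simp [pr]

theorem B_eta_pr (x : F8) : B8 (eta 0) (pr x) = 0 := by rw [B_eta]; simp [pr]

theorem pr_eps : pr (eps 0) = 0 := by
  funext j; by_cases h : j = Sum.inl 0 <;> simp [pr, eps, Pi.single_apply, h]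

theorem pr_eta : pr (eta 0) = 0 := by
  funext j; by_cases h : j = Sum.inr 0 <;> simp [pr, eta, Pi.single_apply, h]

theorem pr_decomp (x : F8) : x = x (.inl 0) • eps 0 + x (.inr 0) • eta 0 + pr x := by
  funext j
  rcases j with j | j <;> (by_cases h : j = 0) <;> simp [pr, eps, eta, Pi.single_apply, h]

theorem pr_eq_zero {x : F8} (hx : B8 (eps 0) x = 0) (h : pr x = 0) : x = 0 ∨ x = eps 0 := by
  rw [B_eps] at hx
  have := pr_decomp x
  rw [hx, h, zero_smul, add_zero, add_zero] at this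
  rcases bit (x (.inl 0)) with e | e <;> rw [e] at this
  · exact Or.inl (by simpa using this)
  · exact Or.inr (by simpa using this)

/-- A setting with a distinguished pair in standard position. -/
structure Frame (G : Type*) [Group G] where
  S : Setting G
  g : G
  o : OrthPair S.F S.z g
  hb : S.co (g * S.z * g⁻¹) = eps 0
  u : G
  hu : u ∈ S.F
  hcu : S.co u = eta 0
  v : G
  hv : v ∈ OrthPair.F' S.F g
  hvb : v * (g * S.z * g⁻¹) * v⁻¹ = g * S.z * g⁻¹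
  hvz : v * S.z * v⁻¹ = S.z * (g * S.z * g⁻¹)

namespace Frame

variable {G : Type*} [Group G] [Finite G] (T : Frame G)

/-- The central involution. -/
abbrev z : G := T.S.z

/-- The second involution. -/
abbrev b : G := T.g * T.S.z * T.g⁻¹

/-- The first centralizer. -/
abbrev P : Subgroup G := OrthPair.P T.S.F T.S.z T.g

/-- The second centralizer. -/
abbrev P' : Subgroup G := OrthPair.P' T.S.F T.S.z T.g

/-- The radical. -/
abbrev R : Subgroup G := OrthPair.R T.S.F T.S.z T.g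

/-- The centralizer of the four-group. -/
abbrev D : Subgroup G := Subgroup.centralizer (OrthPair.four T.S.z T.g : Set G)

/-- Powers of `b`. -/
def bp (a : ZMod 2) : G := if a = 0 then 1 else T.b

theorem bp_zero : T.bp 0 = 1 := rfl

theorem bp_one : T.bp 1 = T.b := if_neg one_ne_zero

theorem bp_add (a c : ZMod 2) : T.bp (a + c) = T.bp a * T.bp c := by
  rcases bit a with rfl | rfl <;> rcases bit c with rfl | rfl
  · simp [bp_zero]
  · simp [bp_zero]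
  · simp [bp_zero]
  · rw [two0, bp_zero, bp_one]; exact T.o.h'.xx.symm

/-- The element of the four-group with given exponents. -/
def vv (a c : ZMod 2) : G := T.S.zp a * T.bp c

theorem vv_zero : T.vv 0 0 = 1 := by simp [vv, Setting.zp_zero, bp_zero]

theorem zb : T.z * T.b = T.b * T.z := T.o.zb

theorem zp_bp (a c : ZMod 2) : T.S.zp a * T.bp c = T.bp c * T.S.zp a := by
  rcases bit a with rfl | rfl <;> rcases bit c with rfl | rfl
  · simp [Setting.zp_zero, bp_zero]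
  · simp [Setting.zp_zero]
  · simp [bp_zero]
  · rw [Setting.zp_one, bp_one]; exact T.zb

theorem vv_mul (a c a' c' : ZMod 2) : T.vv a c * T.vv a' c' = T.vv (a + a') (c + c') := by
  rw [vv, vv, vv, T.S.zp_add, T.bp_add]
  calc T.S.zp a * T.bp c * (T.S.zp a' * T.bp c') = T.S.zp a * (T.bp c * T.S.zp a') * T.bp c' := by group
    _ = _ := by rw [← T.zp_bp]; group

theorem vv_mem (a c : ZMod 2) : T.vv a c ∈ OrthPair.four T.S.z T.g := by
  refine mul_mem ?_ ?_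
  · rcases bit a with rfl | rfl
    · exact T.S.zp_zero ▸ one_mem _
    · exact T.S.zp_one ▸ T.o.z_mem_four
  · rcases bit c with rfl | rfl
    · exact T.bp_zero ▸ one_mem _
    · exact T.bp_one ▸ T.o.b_mem_four

theorem mem_four {x : G} : x ∈ OrthPair.four T.S.z T.g ↔ ∃ a c, x = T.vv a c := by
  refine ⟨fun hx => ?_, fun ⟨a, c, e⟩ => e ▸ T.vv_mem a c⟩
  rcases T.o.mem_four_iff.1 hx with e | e | e | e
  · exact ⟨0, 0, by rw [e, vv_zero]⟩
  · exact ⟨1, 0, by rw [e, vv, Setting.zp_one, bp_zero, mul_one]⟩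
  · exact ⟨0, 1, by rw [e, vv, Setting.zp_zero, bp_one, one_mul]⟩
  · exact ⟨1, 1, by rw [e, vv, Setting.zp_one, bp_one]⟩

theorem b_mem : T.b ∈ T.S.F := T.o.hgF

theorem bp_mem (c : ZMod 2) : T.bp c ∈ T.S.F := by
  rcases bit c with rfl | rfl
  · exact T.bp_zero ▸ one_mem _
  · exact T.bp_one ▸ T.b_mem

theorem vv_mem_F (a c : ZMod 2) : T.vv a c ∈ T.S.F := mul_mem (T.S.zp_mem a) (T.bp_mem c)

theorem co_vv (a c : ZMod 2) : T.S.co (T.vv a c) = c • eps 0 := by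
  rw [vv, T.S.co_mul _ (T.S.zp_mem a) _ (T.bp_mem c), T.S.co_zp, zero_add]
  rcases bit c with rfl | rfl
  · rw [bp_zero, T.S.co_one, zero_smul]
  · rw [bp_one, one_smul, T.hb]

theorem vv_inj {a c a' c' : ZMod 2} (h : T.vv a c = T.vv a' c') : a = a' ∧ c = c' := by
  have hc : c = c' := by
    have := congrArg T.S.co h
    rw [co_vv, co_vv] at this
    simpa [eps] using congrFun this (Sum.inl 0)
  subst hc
  exact ⟨T.S.zp_inj (mul_right_cancel h), rfl⟩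

theorem four_le_F {x : G} (hx : x ∈ OrthPair.four T.S.z T.g) : x ∈ T.S.F := by
  obtain ⟨a, c, rfl⟩ := T.mem_four.1 hx
  exact T.vv_mem_F a c

theorem mem_P {x : G} : x ∈ T.P ↔ x ∈ T.S.F ∧ B8 (eps 0) (T.S.co x) = 0 := by
  refine and_congr_right fun hx => ?_
  show x ∈ Subgroup.centralizer ({T.b} : Set G) ↔ _
  rw [Subgroup.mem_centralizer_singleton_iff, ← T.hb, B_comm]
  exact T.S.commute_iff hx T.b_mem

theorem P_le_F {x : G} (hx : x ∈ T.P) : x ∈ T.S.F := hx.1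

theorem mem_D {d : G} : d ∈ T.D ↔ d * T.z = T.z * d ∧ d * T.b = T.b * d := T.o.mem_CV_iff

theorem D_le_C {d : G} (hd : d ∈ T.D) : d ∈ T.S.C := T.S.mem_C.2 (T.mem_D.1 hd).1

theorem rho_D {d : G} (hd : d ∈ T.D) : ap (T.S.ρ ⟨d, T.D_le_C hd⟩) (eps 0) = eps 0 := by
  rw [← T.hb, ← T.S.act' _ T.b_mem, (T.mem_D.1 hd).2, mul_inv_cancel_right]

theorem four_central {d x : G} (hd : d ∈ T.D) (hx : x ∈ OrthPair.four T.S.z T.g) : d * x = x * d :=
  (hd x hx).symm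

theorem P_le_D {x : G} (hx : x ∈ T.P) : x ∈ T.D := T.o.P_le hx

theorem P'_le_D {x : G} (hx : x ∈ T.P') : x ∈ T.D := T.o.P'_le hx

theorem R_le_D {x : G} (hx : x ∈ T.R) : x ∈ T.D := T.o.R_le_CV hx

theorem P_le_R {x : G} (hx : x ∈ T.P) : x ∈ T.R := Subgroup.mem_sup_right hx

theorem P'_le_R {x : G} (hx : x ∈ T.P') : x ∈ T.R := Subgroup.mem_sup_left hx

theorem four_le_P {x : G} (hx : x ∈ OrthPair.four T.S.z T.g) : x ∈ T.P := by
  obtain ⟨a, c, rfl⟩ := T.mem_four.1 hx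
  exact T.mem_P.2 ⟨T.vv_mem_F a c, by rw [T.co_vv, B_smul_right, B_self, mul_zero]⟩

theorem four_le_P' {x : G} (hx : x ∈ OrthPair.four T.S.z T.g) : x ∈ T.P' := by
  refine ⟨?_, Subgroup.mem_centralizer_singleton_iff.2 (T.S.pt.comm_x _ (T.four_le_F hx))⟩
  have h1 : T.z ∈ OrthPair.F' T.S.F T.g := T.o.hzF
  have h2 : T.b ∈ OrthPair.F' T.S.F T.g := T.o.h'.mem
  exact sup_le (Subgroup.zpowers_le.2 h1) (Subgroup.zpowers_le.2 h2) hx

theorem card_preimage (p : F8 → Prop) :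
    Nat.card {x : G // x ∈ T.S.F ∧ p (T.S.co x)} = 2 * Nat.card {y : F8 // p y} := by
  choose lift hlm hlc using T.S.co_surj
  rw [show 2 * Nat.card {y : F8 // p y} = Nat.card (ZMod 2 × {y : F8 // p y}) by
    rw [Nat.card_prod, Nat.card_zmod]]
  refine (Nat.card_congr (Equiv.ofBijective
    (fun k : ZMod 2 × {y : F8 // p y} => (⟨lift k.2 * T.S.zp k.1, mul_mem (hlm _) (T.S.zp_mem _), by
      rw [T.S.co_mul _ (hlm _) _ (T.S.zp_mem _), hlc, T.S.co_zp, add_zero]; exact k.2.2⟩ :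
      {x : G // x ∈ T.S.F ∧ p (T.S.co x)}))
    ⟨fun k k' h => ?_, fun x => ?_⟩)).symm
  · have h' : lift k.2 * T.S.zp k.1 = lift k'.2 * T.S.zp k'.1 := congrArg Subtype.val h
    have h2 : (k.2 : F8) = k'.2 := by
      have := congrArg T.S.co h'
      rwa [T.S.co_mul _ (hlm _) _ (T.S.zp_mem _), T.S.co_mul _ (hlm _) _ (T.S.zp_mem _), hlc, hlc,
        T.S.co_zp, T.S.co_zp, add_zero, add_zero] at this
    rw [h2] at h'
    exact Prod.ext (T.S.zp_inj (mul_left_cancel h')) (Subtype.ext h2)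
  · obtain ⟨a, ha⟩ := T.S.exists_zp (hlm (T.S.co x.1)) x.2.1 (hlc _)
    exact ⟨(a, ⟨T.S.co x.1, x.2.2⟩), Subtype.ext ha.symm⟩

/-- The intersection of the two singular groups. -/
theorem inter_le {x : G} (h1 : x ∈ T.S.F) (h2 : x ∈ OrthPair.F' T.S.F T.g) :
    x ∈ OrthPair.four T.S.z T.g := by
  obtain ⟨⟨hab⟩, hel⟩ := T.o.inter_elementary
  have hsing : ∀ y ∈ T.S.F, y ∈ OrthPair.F' T.S.F T.g → q8 (T.S.co y) = 0 := fun y hy hy' =>
    (T.S.sq_iff y hy).1 (by rw [← pow_two]; exact hel y ⟨hy, hy'⟩)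
  have hB : ∀ y ∈ T.S.F, y ∈ OrthPair.F' T.S.F T.g → B8 (T.S.co y) (eps 0) = 0 := fun y hy hy' => by
    rw [← T.hb]
    refine (T.S.commute_iff hy T.b_mem).1 ?_
    exact T.o.h'.comm_x y hy'
  have hpair : ∀ y ∈ T.S.F, y ∈ OrthPair.F' T.S.F T.g → ∀ y' ∈ T.S.F, y' ∈ OrthPair.F' T.S.F T.g →
      B8 (T.S.co y) (T.S.co y') = 0 := fun y hy hy' y₂ hy₂ hy₂' =>
    (T.S.commute_iff hy hy₂).1
      (congrArg Subtype.val (hab.comm (⟨y, hy, hy'⟩ : ↥(T.S.F ⊓ OrthPair.F' T.S.F T.g)) ⟨y₂, hy₂, hy₂'⟩))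
  suffices h : pr (T.S.co x) = 0 by
    have h0 := pr_eq_zero (by rw [B_comm]; exact hB x h1 h2) h
    rcases h0 with e | e
    · obtain ⟨a, rfl⟩ := T.S.exists_zp_of_co h1 e
      exact T.mem_four.2 ⟨a, 0, by rw [vv, bp_zero, mul_one]⟩
    · obtain ⟨a, ha⟩ := T.S.exists_zp T.b_mem h1 (by rw [T.hb, e])
      exact T.mem_four.2 ⟨a, 1, by rw [ha, vv, bp_one, ← T.bp_one, T.zp_bp]⟩
  by_contra hne
  -- move `x` to a vector not orthogonal to it
  set y := T.S.co x with hy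
  have hye : B8 (eps 0) y = 0 := by rw [B_comm]; exact hB x h1 h2
  have hqy : q8 y = 0 := hsing x h1 h2
  obtain ⟨y', hy'e, hy'q, hy'B⟩ : ∃ y', B8 (eps 0) y' = 0 ∧ q8 y' = 0 ∧ B8 y y' = 1 := by
    obtain ⟨j, hj⟩ : ∃ j, pr y j ≠ 0 := by
      by_contra hc
      push Not at hc
      exact hne (funext hc)
    have hj1 : pr y j = 1 := (bit _).resolve_left hj
    have hsing' : ∀ i : Fin 4, q8 (eps i) = 0 ∧ q8 (eta i) = 0 := by decide +kernel
    rcases j with i | i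
    · refine ⟨eta i, ?_, (hsing' i).2, ?_⟩
      · rw [B_comm, B_eta]
        by_cases hi : i = 0
        · subst hi; simp [pr] at hj
        · simp [eps, Pi.single_apply, hi]
      · rw [B_comm, B_eta]
        by_cases hi : i = 0
        · subst hi; simp [pr] at hj
        · simpa [pr, hi] using hj1
    · refine ⟨eps i, ?_, (hsing' i).1, ?_⟩
      · rw [B_comm, B_eps]; simp [eps, Pi.single_apply]
      · rw [B_comm, B_eps]
        by_cases hi : i = 0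
        · subst hi; simp [pr] at hj
        · simpa [pr, hi] using hj1
  have hind : ∀ w : F8, B8 (eps 0) w = 0 → pr w ≠ 0 → ∀ c : Fin 2 → ZMod 2,
      ∑ i, c i • (![eps 0, w] : Fin 2 → F8) i = 0 → c = 0 := by
    intro w _ hw c hc
    simp only [Fin.sum_univ_two, Matrix.cons_val_zero, Matrix.cons_val_one] at hc
    have hp := congrArg pr hc
    rw [pr_add, pr_zero] at hp
    rcases bit (c 0) with h0 | h0 <;> rcases bit (c 1) with h3 | h3
    · funext i; fin_cases i <;> assumption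
    · exfalso; simp [h0, h3, pr_zero] at hp; exact hw hp
    · exfalso
      have := congrFun hc (Sum.inl 0)
      simp [h0, h3, eps] at this
    · exfalso; simp [h0, h3, pr_eps] at hp; exact hw hp
  have hw' : pr y' ≠ 0 := fun e => by
    have := B_pr hye hy'e
    rw [e, B_zero_right, hy'B] at this
    exact zero_ne_one this
  obtain ⟨v, hv, hv0, hvy⟩ : ∃ v, q8 v = 1 ∧ B8 v (eps 0) = 0 ∧ B8 v y' = 0 := by
    have hex : ∀ a b c d : ZMod 2, ∃ v : F8, q8 v = 1 ∧ B8 v (eps 0) = 0 ∧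
        v (.inl 0) = 0 ∧ v (.inr 0) = 0 ∧ v (.inl 3) = 0 ∧ v (.inr 3) = 0 ∧
        v (.inr 1) * a + v (.inl 1) * b + (v (.inr 2) * c + v (.inl 2) * d) = 0 := by decide +kernel
    obtain ⟨v, h1, h2, h3, h4, h5, h6, h7⟩ :=
      hex (y' (.inl 1)) (y' (.inr 1)) (y' (.inl 2)) (y' (.inr 2))
    refine ⟨v, h1, h2, ?_⟩
    simp only [B8, Fin.sum_univ_four, h3, h4, h5, h6, mul_zero, zero_mul, add_zero, zero_add]
    linear_combination h7
  obtain ⟨ω, hω, hω'⟩ := witt ![eps 0, y] ![eps 0, y'] (hind y hye hne) (hind y' hy'e hw') (fun c => by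
      simp only [Fin.sum_univ_two, Matrix.cons_val_zero, Matrix.cons_val_one, q_add, q_smul,
        B_smul_left, B_smul_right, hqy, hy'q, hye, hy'e]) v hv (fun i => by
      fin_cases i
      · exact hv0
      · exact hvy)
  obtain ⟨c, hc, hρ⟩ := T.S.exists_rho hω
  have hcb : T.S.co (c * T.b * c⁻¹) = eps 0 := by rw [T.S.act' hc T.b_mem, hρ, T.hb]; exact hω' 0
  obtain ⟨i, hi⟩ := T.S.exists_zp T.b_mem (T.S.norm hc T.b_mem) (by rw [T.hb, hcb])
  have hd : ∃ d ∈ T.D, T.S.co (d * x * d⁻¹) = y' := by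
    rcases bit i with rfl | rfl
    · refine ⟨c, T.mem_D.2 ⟨T.S.mem_C.1 hc, ?_⟩, ?_⟩
      · rw [Setting.zp_zero, mul_one] at hi; exact mul_inv_eq_iff_eq_mul.1 hi
      · rw [T.S.act' hc h1, hρ]; exact hω' 1
    · have hu' : T.u * T.b * T.u⁻¹ = T.z * T.b := by
        rw [T.S.comm T.hu T.b_mem, T.hcu, T.hb, show B8 (eta 0) (eps 0) = 1 by decide +kernel,
          Setting.zp_one]
        group
      have huc : T.u * T.z = T.z * T.u := T.S.pt.comm_x _ T.hu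
      have hzu : T.z * T.u * T.z = T.u := by rw [← huc, mul_assoc, T.S.pt.xx, mul_one]
      refine ⟨T.u * c, T.mem_D.2 ⟨T.S.mem_C.1 (T.S.C.mul_mem (T.S.F_le_C T.hu) hc), ?_⟩, ?_⟩
      · have e : T.u * c * T.b * (T.u * c)⁻¹ = T.b := by
          calc T.u * c * T.b * (T.u * c)⁻¹ = T.u * (c * T.b * c⁻¹) * T.u⁻¹ := by group
            _ = T.u * (T.b * T.z) * T.u⁻¹ := by rw [hi, Setting.zp_one]
            _ = (T.u * T.b * T.u⁻¹) * (T.u * T.z * T.u⁻¹) := by group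
            _ = T.b := by
              rw [hu', huc, mul_inv_cancel_right, mul_assoc, ← T.zb, ← mul_assoc, T.S.pt.xx, one_mul]
        exact mul_inv_eq_iff_eq_mul.1 e
      · rw [T.S.act' (T.S.C.mul_mem (T.S.F_le_C T.hu) hc) h1]
        have : T.S.ρ ⟨T.u * c, T.S.C.mul_mem (T.S.F_le_C T.hu) hc⟩ = ω := by
          rw [show (⟨T.u * c, T.S.C.mul_mem (T.S.F_le_C T.hu) hc⟩ : T.S.C) =
            ⟨T.u, T.S.F_le_C T.hu⟩ * ⟨c, hc⟩ from rfl, map_mul, (T.S.rho_eq_one _).2 T.hu, one_mul, hρ]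
        rw [this]; exact hω' 1
  obtain ⟨d, hd, hdx⟩ := hd
  have := hpair x h1 h2 (d * x * d⁻¹) (T.S.norm (T.D_le_C hd) h1)
    (T.o.CV_norm_F' hd h2)
  rw [hdx, hy'B] at this
  exact zero_ne_one this.symm

/-- The class of an element of `P`. -/
def cl (x : G) : F8 := pr (T.S.co x)

/-- The class of an element of `P'`. -/
def ph (w : G) : F8 := pr (T.S.co (T.u * w * T.u⁻¹ * w⁻¹))

theorem uu : T.u * T.u = 1 := by
  rw [T.S.sq T.hu, T.hcu, show q8 (eta 0) = 0 by decide +kernel, Setting.zp_zero]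

theorem u_inv : T.u⁻¹ = T.u := inv_eq_of_mul_eq_one_right T.uu

theorem hub : T.u * T.b * T.u⁻¹ = T.z * T.b := by
  rw [T.S.comm T.hu T.b_mem, T.hcu, T.hb, show B8 (eta 0) (eps 0) = 1 by decide +kernel,
    Setting.zp_one]
  group

theorem huz : T.u * T.z * T.u⁻¹ = T.z := by rw [T.S.pt.comm_x _ T.hu, mul_inv_cancel_right]

theorem u_mem_X : T.u ∈ OrthPair.X T.S.F T.g := Subgroup.mem_sup_left T.hu

theorem v_mem_X : T.v ∈ OrthPair.X T.S.F T.g := Subgroup.mem_sup_right T.hv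

theorem u_vv (a c : ZMod 2) : T.u * T.vv a c * T.u⁻¹ = T.vv (a + c) c := by
  have e1 : ∀ a, T.u * T.S.zp a * T.u⁻¹ = T.S.zp a := fun a => by
    rw [T.S.zp_comm a (T.S.pt.comm_x _ T.hu), mul_inv_cancel_right]
  have e2 : ∀ c, T.u * T.bp c * T.u⁻¹ = T.vv c c := fun c => by
    rcases bit c with rfl | rfl
    · rw [bp_zero, vv_zero, mul_one, mul_inv_cancel]
    · rw [bp_one, T.hub, vv, Setting.zp_one, bp_one]
  rw [vv, show T.u * (T.S.zp a * T.bp c) * T.u⁻¹ = (T.u * T.S.zp a * T.u⁻¹) * (T.u * T.bp c * T.u⁻¹) by group,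
    e1, e2, vv, vv, ← mul_assoc, ← T.S.zp_add]

theorem v_vv (a c : ZMod 2) : T.v * T.vv a c * T.v⁻¹ = T.vv a (a + c) := by
  have e1 : ∀ a, T.v * T.S.zp a * T.v⁻¹ = T.vv a a := fun a => by
    rcases bit a with rfl | rfl
    · rw [Setting.zp_zero, vv_zero, mul_one, mul_inv_cancel]
    · rw [Setting.zp_one, T.hvz, vv, Setting.zp_one, bp_one]
  have e2 : ∀ c, T.v * T.bp c * T.v⁻¹ = T.bp c := fun c => by
    rcases bit c with rfl | rfl
    · rw [bp_zero, mul_one, mul_inv_cancel]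
    · rw [bp_one]; exact T.hvb
  rw [vv, show T.v * (T.S.zp a * T.bp c) * T.v⁻¹ = (T.v * T.S.zp a * T.v⁻¹) * (T.v * T.bp c * T.v⁻¹) by group,
    e1, e2, vv, vv, mul_assoc, ← T.bp_add]

theorem vv_comm {d : G} (hd : d ∈ T.D) (a c : ZMod 2) : d * T.vv a c = T.vv a c * d :=
  T.four_central hd (T.vv_mem a c)

theorem comm_four {x y : G} (hx : x ∈ T.R) (hy : y ∈ T.R) : ∃ a c, x * y = T.vv a c * (y * x) := by
  obtain ⟨h1, h2⟩ := (T.o.comm_mem_inter hx hy).1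
  obtain ⟨a, c, h⟩ := T.mem_four.1 (T.inter_le h1 h2)
  exact ⟨a, c, by rw [← h]; group⟩

theorem conj_P {d x : G} (hd : d ∈ T.D) (hx : x ∈ T.P) : d * x * d⁻¹ ∈ T.P :=
  ⟨T.o.CV_norm_F hd hx.1, Subgroup.mem_centralizer_singleton_iff.2
    (T.mem_D.1 (mul_mem (mul_mem hd (T.P_le_D hx)) (inv_mem hd))).2⟩

theorem conj_P' {d x : G} (hd : d ∈ T.D) (hx : x ∈ T.P') : d * x * d⁻¹ ∈ T.P' :=
  ⟨T.o.CV_norm_F' hd hx.1, Subgroup.mem_centralizer_singleton_iff.2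
    (T.mem_D.1 (mul_mem (mul_mem hd (T.P'_le_D hx)) (inv_mem hd))).1⟩

theorem cl_mul {x y : G} (hx : x ∈ T.P) (hy : y ∈ T.P) : T.cl (x * y) = T.cl x + T.cl y := by
  rw [cl, cl, cl, T.S.co_mul _ hx.1 _ hy.1, pr_add]

theorem cl_vv (a c : ZMod 2) : T.cl (T.vv a c) = 0 := by
  rw [cl, co_vv]
  rcases bit c with rfl | rfl
  · rw [zero_smul, pr_zero]
  · rw [one_smul, pr_eps]

theorem exists_cl (y : F8) (hy : pr y = y) : ∃ x ∈ T.P, T.cl x = y := by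
  obtain ⟨x, hx, hxy⟩ := T.S.co_surj y
  exact ⟨x, T.mem_P.2 ⟨hx, by rw [hxy, ← hy, B_eps_pr]⟩, by rw [cl, hxy, hy]⟩

theorem cl_eq {x y : G} (hx : x ∈ T.P) (hy : y ∈ T.P) (h : T.cl x = T.cl y) :
    ∃ a c, y = x * T.vv a c := by
  have hxy := mul_mem (inv_mem hx) hy
  have h0 : T.cl (x⁻¹ * y) = 0 := by
    have := T.cl_mul (inv_mem hx) hy
    rw [this, show T.cl x⁻¹ = T.cl x by rw [cl, cl, T.S.co_inv hx.1], h, two8]
  rcases pr_eq_zero (T.mem_P.1 hxy).2 h0 with e | e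
  · obtain ⟨a, ha⟩ := T.S.exists_zp_of_co hxy.1 e
    exact ⟨a, 0, by rw [vv, bp_zero, mul_one, ← ha, mul_inv_cancel_left]⟩
  · obtain ⟨a, ha⟩ := T.S.exists_zp T.b_mem hxy.1 (by rw [T.hb, e])
    refine ⟨a, 1, ?_⟩
    rw [vv, bp_one, ← T.bp_one, T.zp_bp, bp_one, ← ha, mul_inv_cancel_left]

theorem uw_mem {w : G} (hw : w ∈ T.P') : T.u * w * T.u⁻¹ * w⁻¹ ∈ T.P := by
  have hwD := T.P'_le_D hw
  refine T.mem_P.2 ?_
  have hF : T.u * w * T.u⁻¹ * w⁻¹ ∈ T.S.F := by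
    rw [show T.u * w * T.u⁻¹ * w⁻¹ = T.u * (w * T.u⁻¹ * w⁻¹) by group]
    exact mul_mem T.hu (T.o.CV_norm_F hwD (inv_mem T.hu))
  refine ⟨hF, ?_⟩
  rw [show T.u * w * T.u⁻¹ * w⁻¹ = T.u * (w * T.u⁻¹ * w⁻¹) by group,
    T.S.co_mul _ T.hu _ (T.o.CV_norm_F hwD (inv_mem T.hu)), T.u_inv,
    T.S.act' (T.D_le_C hwD) T.hu, B_add_right]
  conv_lhs => arg 2; rw [← T.rho_D hwD, ap_B]
  exact two0 _

theorem u_conj {w : G} : T.u * w * T.u⁻¹ = (T.u * w * T.u⁻¹ * w⁻¹) * w := by group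

theorem ph_mul {w w' : G} (hw : w ∈ T.P') (hw' : w' ∈ T.P') : T.ph (w * w') = T.ph w + T.ph w' := by
  set p := T.u * w' * T.u⁻¹ * w'⁻¹ with hp
  have hpP : p ∈ T.P := T.uw_mem hw'
  obtain ⟨a, c, h⟩ := T.comm_four (T.P'_le_R hw) (T.P_le_R hpP)
  have e : T.u * (w * w') * T.u⁻¹ * (w * w')⁻¹ = (T.u * w * T.u⁻¹ * w⁻¹) * (T.vv a c * p) := by
    calc T.u * (w * w') * T.u⁻¹ * (w * w')⁻¹ = (T.u * w * T.u⁻¹ * w⁻¹) * (w * p * w⁻¹) := by
          rw [hp]; group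
      _ = _ := by rw [h]; group
  show T.cl _ = T.cl _ + T.cl p
  rw [e, T.cl_mul (T.uw_mem hw) (mul_mem (T.four_le_P (T.vv_mem a c)) hpP),
    T.cl_mul (T.four_le_P (T.vv_mem a c)) hpP, cl_vv, zero_add]

theorem ph_vv (a c : ZMod 2) : T.ph (T.vv a c) = 0 := by
  show T.cl _ = 0
  have e : T.u * T.vv a c * T.u⁻¹ * (T.vv a c)⁻¹ = T.vv c 0 := by
    rw [T.u_vv, mul_inv_eq_iff_eq_mul, vv_mul, add_comm a c, zero_add]
  rw [e, cl_vv]

theorem ph_pr (w : G) : pr (T.ph w) = T.ph w := pr_pr _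

theorem cl_pr (x : G) : pr (T.cl x) = T.cl x := pr_pr _

theorem comm_b {p w : G} (hp : p ∈ T.P) (hw : w ∈ T.P') :
    ∃ a, p * w = T.vv a (B8 (T.cl p) (T.ph w)) * (w * p) := by
  obtain ⟨a, c, h⟩ := T.comm_four (T.P_le_R hp) (T.P'_le_R hw)
  refine ⟨a, ?_⟩
  suffices hc : c = B8 (T.cl p) (T.ph w) by rw [← hc]; exact h
  set φ := T.u * w * T.u⁻¹ * w⁻¹ with hφ
  have hφP : φ ∈ T.P := T.uw_mem hw
  have hBu : ∀ x, x ∈ T.P → T.u * x * T.u⁻¹ = T.S.zp (B8 (eta 0) (T.S.co x)) * x := by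
    intro x hx
    rw [T.S.comm T.hu hx.1, T.hcu]; group
  have hu1 : (T.u * p * T.u⁻¹) * (T.u * w * T.u⁻¹) =
      T.vv (a + c) c * ((T.u * w * T.u⁻¹) * (T.u * p * T.u⁻¹)) := by
    rw [← T.u_vv]
    calc (T.u * p * T.u⁻¹) * (T.u * w * T.u⁻¹) = T.u * (p * w) * T.u⁻¹ := by group
      _ = _ := by rw [h]; group
  rw [hBu p hp, T.u_conj, ← hφ] at hu1
  set s := T.S.zp (B8 (eta 0) (T.S.co p))
  have hs : ∀ x ∈ T.R, s * x = x * s := fun x hx => by
    rw [show x * s = s * x from T.S.zp_comm _ (T.mem_D.1 (T.R_le_D hx)).1]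
  have e1 : s * p * (φ * w) = s * T.vv (a + B8 (T.S.co p) (T.S.co φ)) c * (φ * w * p) := by
    calc s * p * (φ * w) = s * ((p * φ) * w) := by group
      _ = s * (T.S.zp (B8 (T.S.co p) (T.S.co φ)) * (φ * (p * w))) := by
        rw [T.S.comm hp.1 hφP.1]; group
      _ = s * (T.S.zp (B8 (T.S.co p) (T.S.co φ)) * ((φ * T.vv a c) * (w * p))) := by rw [h]; group
      _ = s * ((T.S.zp (B8 (T.S.co p) (T.S.co φ)) * T.vv a c) * (φ * w * p)) := by
        rw [T.vv_comm (T.P_le_D hφP)]; group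
      _ = _ := by
        rw [show T.S.zp (B8 (T.S.co p) (T.S.co φ)) * T.vv a c = T.vv (a + B8 (T.S.co p) (T.S.co φ)) c by
          rw [vv, vv, ← mul_assoc, ← T.S.zp_add, add_comm _ a]]
        group
  have e2 : T.vv (a + c) c * (φ * w * (s * p)) = s * T.vv (a + c) c * (φ * w * p) := by
    rw [← mul_assoc (φ * w) s p, ← hs _ (mul_mem (T.P_le_R hφP) (T.P'_le_R hw)),
      hs _ (T.P_le_R (T.four_le_P (T.vv_mem _ _)))]
    group
  rw [e1, e2] at hu1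
  have := (T.vv_inj (mul_left_cancel (mul_right_cancel hu1))).1
  rw [cl, ph, ← hφ, B_pr (T.mem_P.1 hp).2 (T.mem_P.1 hφP).2]
  linear_combination -this

theorem ph_eq_zero {w : G} (hw : w ∈ T.P') (h : T.ph w = 0) : ∃ a c, w = T.vv a c := by
  have hwD := T.P'_le_D hw
  have hwC := T.D_le_C hwD
  have hfix : ∀ p ∈ T.P, ap (T.S.ρ ⟨w, hwC⟩) (T.S.co p) = T.S.co p := by
    intro p hp
    obtain ⟨a, ha⟩ := T.comm_b hp hw
    rw [h, B_zero_right] at ha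
    rw [← T.S.act' hwC hp.1]
    have e : w * p * w⁻¹ = (T.vv a 0)⁻¹ * p := by
      calc w * p * w⁻¹ = (T.vv a 0)⁻¹ * (T.vv a 0 * (w * p)) * w⁻¹ := by group
        _ = _ := by rw [← ha]; group
    rw [e, T.S.co_mul _ (inv_mem (T.vv_mem_F _ _)) _ hp.1, T.S.co_inv (T.vv_mem_F _ _), co_vv,
      zero_smul, zero_add]
  have hφ := T.uw_mem hw
  have hcφ := pr_eq_zero (T.mem_P.1 hφ).2 h
  have hrw : ap (T.S.ρ ⟨w, hwC⟩) (eta 0) = eta 0 + T.S.co (T.u * w * T.u⁻¹ * w⁻¹) := by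
    rw [← T.hcu, ← T.S.act' hwC T.hu,
      show T.u * w * T.u⁻¹ * w⁻¹ = T.u * (w * T.u⁻¹ * w⁻¹) by group,
      T.S.co_mul _ T.hu _ (T.S.norm hwC (inv_mem T.hu)), T.u_inv, ← add_assoc, two8, zero_add]
  have hfix0 : ap (T.S.ρ ⟨w, hwC⟩) (eta 0) = eta 0 := by
    rcases hcφ with e | e
    · rw [hrw, e, add_zero]
    · exfalso
      have hq := ap_q (T.S.ρ ⟨w, hwC⟩) (eta 0)
      rw [hrw, e] at hq
      exact absurd hq (by decide +kernel)
  have hone : T.S.ρ ⟨w, hwC⟩ = 1 := by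
    refine ap_ext fun y => ?_
    rw [ap_one]
    obtain ⟨p, hp, hpy⟩ := T.S.co_surj (y + y (.inr 0) • eta 0)
    have hpP : p ∈ T.P := T.mem_P.2 ⟨hp, by rw [hpy, B_eps]; simp [eta, two0]⟩
    have := hfix p hpP
    rw [hpy, ap_add, ap_smul, hfix0] at this
    exact add_right_cancel this
  obtain ⟨a, c, h'⟩ := T.mem_four.1 (T.inter_le ((T.S.rho_eq_one hwC).1 hone) hw.1)
  exact ⟨a, c, h'⟩

theorem card_P' : Nat.card T.P' = 256 := by
  set k := T.g⁻¹ * T.z * T.g with hk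
  have hkF : k ∈ T.S.F := by
    obtain ⟨q, hq, e⟩ := T.o.hzF
    have e' : T.g * q * T.g⁻¹ = T.z := e
    have : k = q := by rw [hk, ← e']; group
    rw [this]; exact hq
  have hkq : q8 (T.S.co k) = 0 := (T.S.sq_iff k hkF).1 (by
    rw [hk, show T.g⁻¹ * T.z * T.g * (T.g⁻¹ * T.z * T.g) = T.g⁻¹ * (T.z * T.z) * T.g by group,
      T.S.pt.xx]
    group)
  have hk0 : T.S.co k ≠ 0 := by
    intro h
    rcases T.S.co_eq k hkF h with e | e
    · refine T.S.pt.xne ?_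
      calc T.z = T.g * k * T.g⁻¹ := by rw [hk]; group
        _ = 1 := by rw [e]; group
    · refine T.o.hne ?_
      calc T.b = T.g * k * T.g⁻¹ := by rw [e]
        _ = T.z := by rw [hk]; group
  obtain ⟨ω, -, hω⟩ := witt_one hk0 hkq
  have hc : Nat.card {y : F8 // B8 (T.S.co k) y = 0} = 128 := by
    rw [Nat.card_congr ((ω : F8 ≃ₗ[ZMod 2] F8).toEquiv.subtypeEquiv (q := fun y => B8 (eps 0) y = 0)
      fun y => by
        show _ ↔ B8 (eps 0) (ap ω y) = 0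
        rw [← hω, ap_B]), Nat.card_eq_fintype_card]
    decide +kernel
  rw [show 256 = 2 * Nat.card {y : F8 // B8 (T.S.co k) y = 0} by rw [hc],
    ← T.card_preimage fun y => B8 (T.S.co k) y = 0]
  have key : ∀ x ∈ T.S.F, (T.g * x * T.g⁻¹) * T.z = T.z * (T.g * x * T.g⁻¹) ↔
      B8 (T.S.co k) (T.S.co x) = 0 := by
    intro x hx
    rw [B_comm, ← T.S.commute_iff hx hkF, hk]
    constructor <;> intro h
    · calc x * (T.g⁻¹ * T.z * T.g) = T.g⁻¹ * (T.g * x * T.g⁻¹ * T.z) * T.g := by group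
        _ = _ := by rw [h]; group
    · calc T.g * x * T.g⁻¹ * T.z = T.g * (x * (T.g⁻¹ * T.z * T.g)) * T.g⁻¹ := by group
        _ = _ := by rw [h]; group
  refine (Nat.card_congr (Equiv.ofBijective
    (fun x : {x : G // x ∈ T.S.F ∧ B8 (T.S.co k) (T.S.co x) = 0} =>
      (⟨T.g * x.1 * T.g⁻¹, ⟨x.1, x.2.1, rfl⟩,
        Subgroup.mem_centralizer_singleton_iff.2 ((key x.1 x.2.1).2 x.2.2)⟩ : T.P'))
    ⟨fun x y h => ?_, fun w => ?_⟩)).symm
  · have h' : T.g * x.1 * T.g⁻¹ = T.g * y.1 * T.g⁻¹ := congrArg Subtype.val h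
    exact Subtype.ext (mul_left_cancel (mul_right_cancel h'))
  · obtain ⟨q, hq, e⟩ := w.2.1
    refine ⟨⟨q, hq, (key q hq).1 ?_⟩, Subtype.ext e⟩
    have hw2 := Subgroup.mem_centralizer_singleton_iff.1 w.2.2
    rw [← e] at hw2
    exact hw2

theorem exists_ph (y : F8) (hy : pr y = y) : ∃ w ∈ T.P', T.ph w = y := by
  classical
  have hU : Nat.card {y : F8 // pr y = y} = 64 := by
    rw [Nat.card_eq_fintype_card]; decide +kernel
  let f : T.P' → {y : F8 // pr y = y} := fun w => ⟨T.ph w, T.ph_pr _⟩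
  suffices hf : Function.Surjective f by
    obtain ⟨w, hw⟩ := hf ⟨y, hy⟩
    exact ⟨w, w.2, congrArg Subtype.val hw⟩
  by_contra hns
  have hlt : Nat.card (Set.range f) < 64 := by
    rw [← hU, Nat.card_coe_set_eq, ← Set.ncard_univ]
    refine Set.ncard_lt_ncard ?_ Set.finite_univ
    exact Set.ssubset_univ_iff.2 fun h => hns (Set.range_eq_univ.1 h)
  choose pre hpre using fun y : Set.range f => y.2
  have hex : ∀ w : T.P', ∃ a c, ((pre ⟨f w, w, rfl⟩ : T.P') : G)⁻¹ * w = T.vv a c := fun w => by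
    refine T.ph_eq_zero (mul_mem (inv_mem (pre ⟨f w, w, rfl⟩).2) w.2) ?_
    have h1 : T.ph ((pre ⟨f w, w, rfl⟩ : T.P') : G) = T.ph w := congrArg Subtype.val (hpre ⟨f w, w, rfl⟩)
    have h2 := T.ph_mul (pre ⟨f w, w, rfl⟩).2 (inv_mem (pre ⟨f w, w, rfl⟩).2)
    rw [mul_inv_cancel, show (1 : G) = T.vv 0 0 from T.vv_zero.symm, ph_vv] at h2
    rw [T.ph_mul (inv_mem (pre ⟨f w, w, rfl⟩).2) w.2, ← eq_of_add8 h2.symm, h1, two8]
  choose ca cc hac using hex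
  have := Nat.card_le_card_of_injective
    (fun w => ((⟨f w, w, rfl⟩ : Set.range f), ca w, cc w)) (fun w w' h => by
      simp only [Prod.mk.injEq] at h
      obtain ⟨h0, h1, h2⟩ := h
      have e := hac w
      rw [h0, h1, h2, ← hac w'] at e
      exact Subtype.ext (mul_left_cancel e))
  rw [T.card_P', Nat.card_prod, Nat.card_prod, Nat.card_zmod] at this
  have e : Nat.card {x // x ∈ Set.range f} = Nat.card (Set.range f) := rfl
  omega

/-- Coordinates of an element of the radical. -/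
def IsCl (r : G) (a c : F8) : Prop := ∃ p ∈ T.P, ∃ w ∈ T.P', r = p * w ∧ T.cl p = a ∧ T.ph w = c

theorem isCl_uniq {r : G} {a c a' c' : F8} (h : T.IsCl r a c) (h' : T.IsCl r a' c') :
    a = a' ∧ c = c' := by
  obtain ⟨p, hp, w, hw, rfl, rfl, rfl⟩ := h
  obtain ⟨p', hp', w', hw', e, rfl, rfl⟩ := h'
  have hd : p'⁻¹ * p = w' * w⁻¹ := by
    rw [eq_mul_inv_iff_mul_eq, mul_assoc, e, inv_mul_cancel_left]
  obtain ⟨i, j, hij⟩ := T.mem_four.1 (T.inter_le (mul_mem (inv_mem hp') hp).1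
    (hd ▸ (mul_mem hw' (inv_mem hw)).1))
  constructor
  · have e1 : p = p' * T.vv i j := by rw [← hij, mul_inv_cancel_left]
    rw [e1, T.cl_mul hp' (T.four_le_P (T.vv_mem i j)), cl_vv, add_zero]
  · have e1 : w' = T.vv i j * w := by rw [← hij, hd, inv_mul_cancel_right]
    rw [e1, T.ph_mul (T.four_le_P' (T.vv_mem i j)) hw, ph_vv, zero_add]

theorem isCl_P {p : G} (hp : p ∈ T.P) : T.IsCl p (T.cl p) 0 :=
  ⟨p, hp, 1, one_mem _, (mul_one p).symm, rfl, by rw [← T.vv_zero, ph_vv]⟩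

theorem isCl_P' {w : G} (hw : w ∈ T.P') : T.IsCl w 0 (T.ph w) :=
  ⟨1, one_mem _, w, hw, (one_mul w).symm, by rw [← T.vv_zero, cl_vv], rfl⟩

theorem isCl_vv (i j : ZMod 2) : T.IsCl (T.vv i j) 0 0 := by
  simpa [T.cl_vv] using T.isCl_P (T.four_le_P (T.vv_mem i j))

theorem isCl_mul {r r' : G} {a c a' c' : F8} (h : T.IsCl r a c) (h' : T.IsCl r' a' c') :
    T.IsCl (r * r') (a + a') (c + c') := by
  obtain ⟨p, hp, w, hw, rfl, rfl, rfl⟩ := h
  obtain ⟨p', hp', w', hw', rfl, rfl, rfl⟩ := h'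
  obtain ⟨i, j, hij⟩ := T.comm_four (T.P'_le_R hw) (T.P_le_R hp')
  refine ⟨p * (T.vv i j * p'), mul_mem hp (mul_mem (T.four_le_P (T.vv_mem i j)) hp'), w * w',
    mul_mem hw hw', ?_, ?_, T.ph_mul hw hw'⟩
  · calc p * w * (p' * w') = p * (w * p') * w' := by group
      _ = _ := by rw [hij]; group
  · rw [T.cl_mul hp (mul_mem (T.four_le_P (T.vv_mem i j)) hp'),
      T.cl_mul (T.four_le_P (T.vv_mem i j)) hp', cl_vv, zero_add]

theorem exists_isCl {r : G} (hr : r ∈ T.R) : ∃ a c, T.IsCl r a c := by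
  have hle : T.R ≤ H18.subgroupOfMulClosed {r | ∃ a c, T.IsCl r a c}
      ⟨0, 0, by simpa [T.vv_zero] using T.isCl_vv 0 0⟩
      (fun x ⟨a, c, h⟩ y ⟨a', c', h'⟩ => ⟨_, _, T.isCl_mul h h'⟩) :=
    sup_le (fun w hw => ⟨_, _, T.isCl_P' hw⟩) (fun p hp => ⟨_, _, T.isCl_P hp⟩)
  exact hle hr

theorem isCl_mem {r : G} {a c : F8} (h : T.IsCl r a c) : r ∈ T.R := by
  obtain ⟨p, hp, w, hw, rfl, -, -⟩ := h
  exact mul_mem (T.P_le_R hp) (T.P'_le_R hw)

theorem isCl_inv {r : G} {a c : F8} (h : T.IsCl r a c) : T.IsCl r⁻¹ a c := by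
  obtain ⟨a', c', h'⟩ := T.exists_isCl (inv_mem (T.isCl_mem h))
  have h1 := T.isCl_mul h' h
  rw [inv_mul_cancel, ← T.vv_zero] at h1
  obtain ⟨e1, e2⟩ := T.isCl_uniq h1 (T.isCl_vv 0 0)
  rwa [eq_of_add8 e1, eq_of_add8 e2] at h'

theorem isCl_of_four {r : G} {a c : F8} (h : T.IsCl r a c) {i j : ZMod 2} :
    T.IsCl (T.vv i j * r) a c := by simpa using T.isCl_mul (T.isCl_vv i j) h

theorem isCl_eq {r r' : G} {a c : F8} (h : T.IsCl r a c) (h' : T.IsCl r' a c) :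
    ∃ i j, r' = T.vv i j * r := by
  have h1 := T.isCl_mul h' (T.isCl_inv h)
  rw [two8, two8] at h1
  obtain ⟨p, hp, w, hw, e, e1, e2⟩ := h1
  obtain ⟨i, j, hij⟩ := T.ph_eq_zero hw e2
  obtain ⟨i', j', hij'⟩ := T.cl_eq (one_mem _) hp (by rw [e1, ← T.vv_zero, cl_vv])
  refine ⟨i' + i, j' + j, ?_⟩
  rw [← vv_mul, ← hij, show T.vv i' j' = p by rw [hij', one_mul], ← e, inv_mul_cancel_right]

/-- The `F'`-side transvection. -/
theorem vp_mem {p : G} (hp : p ∈ T.P) : T.v * p * T.v⁻¹ * p⁻¹ ∈ T.P' := by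
  have hpD := T.P_le_D hp
  refine ⟨?_, Subgroup.mem_centralizer_singleton_iff.2 ?_⟩
  · rw [show T.v * p * T.v⁻¹ * p⁻¹ = T.v * (p * T.v⁻¹ * p⁻¹) by group]
    exact mul_mem T.hv (T.o.CV_norm_F' hpD (inv_mem T.hv))
  · exact (T.mem_D.1 (mul_mem (T.o.conj_CV (T.o.X_le_normalizer T.v_mem_X) hpD) (inv_mem hpD))).1

theorem isCl_conj_u {r : G} {a c : F8} (h : T.IsCl r a c) : T.IsCl (T.u * r * T.u⁻¹) (a + c) c := by
  obtain ⟨p, hp, w, hw, rfl, rfl, rfl⟩ := h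
  have e : T.u * (p * w) * T.u⁻¹ =
      T.S.zp (B8 (eta 0) (T.S.co p)) * p * ((T.u * w * T.u⁻¹ * w⁻¹) * w) := by
    rw [← T.u_conj]
    calc T.u * (p * w) * T.u⁻¹ = T.u * p * T.u⁻¹ * (T.u * w * T.u⁻¹) := by group
      _ = _ := by rw [T.S.comm T.hu hp.1, T.hcu]; group
  rw [e]
  have h1 : T.IsCl (T.S.zp (B8 (eta 0) (T.S.co p)) * p) (T.cl p) 0 := by
    have := T.isCl_of_four (T.isCl_P hp) (i := B8 (eta 0) (T.S.co p)) (j := 0)
    rwa [vv, bp_zero, mul_one] at this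
  have h2 : T.IsCl ((T.u * w * T.u⁻¹ * w⁻¹) * w) (T.ph w) (T.ph w) :=
    ⟨_, T.uw_mem hw, w, hw, rfl, rfl, rfl⟩
  simpa using T.isCl_mul h1 h2

theorem isCl_conj_v' {r : G} {a c : F8} (h : T.IsCl r a c) :
    ∃ c', T.IsCl (T.v * r * T.v⁻¹) a c' ∧ (a = 0 → c' = c) := by
  obtain ⟨p, hp, w, hw, rfl, rfl, rfl⟩ := h
  have hvw : T.IsCl (T.v * w * T.v⁻¹) 0 (T.ph w) := by
    have hvb' := T.o.h'.comm T.hv hw.1
    have e : T.v * w * T.v⁻¹ = (T.v * w * T.v⁻¹ * w⁻¹) * w := by group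
    rw [e]
    rcases T.o.h'.pair hvb' with e' | e' <;> rw [e']
    · simpa using T.isCl_P' hw
    · have := T.isCl_of_four (T.isCl_P' hw) (i := 0) (j := 1)
      rwa [vv, Setting.zp_zero, one_mul, bp_one] at this
  have hvp : T.IsCl (T.v * p * T.v⁻¹) (T.cl p) (T.ph (T.v * p * T.v⁻¹ * p⁻¹)) := by
    rw [show T.v * p * T.v⁻¹ = (T.v * p * T.v⁻¹ * p⁻¹) * p by group]
    have := T.isCl_mul (T.isCl_P' (T.vp_mem hp)) (T.isCl_P hp)
    simpa using this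
  refine ⟨T.ph (T.v * p * T.v⁻¹ * p⁻¹) + T.ph w, ?_, fun h0 => ?_⟩
  · rw [show T.v * (p * w) * T.v⁻¹ = T.v * p * T.v⁻¹ * (T.v * w * T.v⁻¹) by group]
    simpa using T.isCl_mul hvp hvw
  · obtain ⟨i, j, hij⟩ := T.cl_eq (one_mem _) hp (by rw [h0, ← T.vv_zero, cl_vv])
    rw [one_mul] at hij
    have : T.ph (T.v * p * T.v⁻¹ * p⁻¹) = 0 := by
      rw [hij, T.v_vv, show T.vv i (i + j) * (T.vv i j)⁻¹ = T.vv 0 i by
        rw [mul_inv_eq_iff_eq_mul, vv_mul, zero_add], ph_vv]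
    rw [this, zero_add]

/-- The two transvections are inverse on classes. -/
theorem ph_vp {p : G} (hp : p ∈ T.P) : T.ph (T.v * p * T.v⁻¹ * p⁻¹) = T.cl p := by
  obtain ⟨w, hw, hwc⟩ := T.exists_ph (T.cl p) (T.cl_pr p)
  set ψ := fun p => T.ph (T.v * p * T.v⁻¹ * p⁻¹) with hψ
  have hr := T.o.braid T.hu T.huz T.hub T.hv T.hvb T.hvz
  have hvinv : T.IsCl (T.v⁻¹ * w * T.v) 0 (T.ph w) := by
    obtain ⟨a, c, h⟩ := T.exists_isCl (r := T.v⁻¹ * w * T.v)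
      (by simpa using T.o.conj_R (inv_mem T.v_mem_X) (T.P'_le_R hw))
    obtain ⟨c', h', hc'⟩ := T.isCl_conj_v' h
    rw [show T.v * (T.v⁻¹ * w * T.v) * T.v⁻¹ = w by group] at h'
    obtain ⟨e1, e2⟩ := T.isCl_uniq h' (T.isCl_P' hw)
    rw [e1, ← hc' e1, e2] at h
    exact h
  have hv1 : ∀ {r : G} {c : F8}, T.IsCl r (T.cl p) c →
      T.IsCl (T.v * r * T.v⁻¹) (T.cl p) (ψ p + c) := by
    intro r c h
    have e : r = p * (p⁻¹ * r) := by group
    have h0 : T.IsCl (p⁻¹ * r) 0 c := by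
      simpa [two8] using T.isCl_mul (T.isCl_inv (T.isCl_P hp)) h
    obtain ⟨c', hc', hc''⟩ := T.isCl_conj_v' h0
    have hvp : T.IsCl (T.v * p * T.v⁻¹) (T.cl p) (ψ p) := by
      rw [show T.v * p * T.v⁻¹ = (T.v * p * T.v⁻¹ * p⁻¹) * p by group]
      simpa [hψ] using T.isCl_mul (T.isCl_P' (T.vp_mem hp)) (T.isCl_P hp)
    rw [e, show T.v * (p * (p⁻¹ * r)) * T.v⁻¹ = T.v * p * T.v⁻¹ * (T.v * (p⁻¹ * r) * T.v⁻¹) by group]
    have := T.isCl_mul hvp hc'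
    rwa [add_zero, hc'' rfl] at this
  -- left side
  have hl : T.IsCl (T.u * (T.v * (T.u⁻¹ * w * T.u) * T.v⁻¹) * T.u⁻¹) (ψ p) (ψ p + T.cl p) := by
    have h1 : T.IsCl (T.u⁻¹ * w * T.u) (T.cl p) (T.cl p) := by
      have := T.isCl_conj_u (T.isCl_P' hw)
      rw [T.u_inv, hwc, zero_add] at this
      rwa [T.u_inv]
    have := T.isCl_conj_u (hv1 h1)
    rwa [add_comm (T.cl p) (ψ p + T.cl p), add_assoc, two8, add_zero] at this
  -- right side
  have hrt : T.IsCl (T.v * (T.u * (T.v⁻¹ * w * T.v) * T.u⁻¹) * T.v⁻¹) (T.cl p) (ψ p + T.cl p) := by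
    have h1 := T.isCl_conj_u hvinv
    rw [hwc, zero_add] at h1
    exact hv1 h1
  -- they differ by a radical element acting trivially on classes
  set r := (T.v * T.u * T.v⁻¹)⁻¹ * (T.u * T.v * T.u⁻¹) with hrdef
  obtain ⟨i, j, hij⟩ := T.comm_four hr (T.P'_le_R hw)
  have hrw : r * w * r⁻¹ = T.vv i j * w := by rw [hij]; group
  have key : T.u * (T.v * (T.u⁻¹ * w * T.u) * T.v⁻¹) * T.u⁻¹ =
      (T.v * T.u * T.v⁻¹) * T.vv i j * (T.v * T.u * T.v⁻¹)⁻¹ *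
        (T.v * (T.u * (T.v⁻¹ * w * T.v) * T.u⁻¹) * T.v⁻¹) := by
    calc T.u * (T.v * (T.u⁻¹ * w * T.u) * T.v⁻¹) * T.u⁻¹
        = (T.v * T.u * T.v⁻¹) * (r * w * r⁻¹) * (T.v * T.u * T.v⁻¹)⁻¹ := by rw [hrdef]; group
      _ = _ := by rw [hrw]; group
  have hfour : (T.v * T.u * T.v⁻¹) * T.vv i j * (T.v * T.u * T.v⁻¹)⁻¹ ∈ OrthPair.four T.S.z T.g :=
    (Subgroup.mem_normalizer_iff.1 (T.o.X_le_normalizer
      (mul_mem (mul_mem T.v_mem_X T.u_mem_X) (inv_mem T.v_mem_X))) _).1 (T.vv_mem i j)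
  obtain ⟨i', j', hij'⟩ := T.mem_four.1 hfour
  rw [key, hij'] at hl
  exact (T.isCl_uniq hl (T.isCl_of_four hrt)).1

theorem isCl_conj_v {r : G} {a c : F8} (h : T.IsCl r a c) : T.IsCl (T.v * r * T.v⁻¹) a (a + c) := by
  obtain ⟨p, hp, w, hw, rfl, rfl, rfl⟩ := h
  obtain ⟨c', hc', hc''⟩ := T.isCl_conj_v' (T.isCl_P' hw)
  rw [hc'' rfl] at hc'
  have hvp : T.IsCl (T.v * p * T.v⁻¹) (T.cl p) (T.cl p) := by
    rw [show T.v * p * T.v⁻¹ = (T.v * p * T.v⁻¹ * p⁻¹) * p by group]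
    simpa [T.ph_vp hp] using T.isCl_mul (T.isCl_P' (T.vp_mem hp)) (T.isCl_P hp)
  rw [show T.v * (p * w) * T.v⁻¹ = T.v * p * T.v⁻¹ * (T.v * w * T.v⁻¹) by group]
  simpa using T.isCl_mul hvp hc'

theorem comm_P'_exp {w w' : G} (hw : w ∈ T.P') (hw' : w' ∈ T.P') :
    ∃ a, w * w' = T.bp a * (w' * w) := by
  rcases T.o.h'.pair (T.o.h'.comm hw.1 hw'.1) with e | e
  · exact ⟨0, by rw [bp_zero, one_mul]; rwa [mul_inv_eq_one, mul_inv_eq_iff_eq_mul] at e⟩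
  · exact ⟨1, by rw [bp_one, show T.b = w * w' * w⁻¹ * w'⁻¹ from e.symm]; group⟩

theorem zexp {p w : G} (hp : p ∈ T.P) (hw : w ∈ T.P') {a c : ZMod 2}
    (h : p * w = T.vv a c * (w * p)) {i : ZMod 2}
    (hi : (T.v * p * T.v⁻¹ * p⁻¹) * w = T.bp i * (w * (T.v * p * T.v⁻¹ * p⁻¹))) : a = i := by
  obtain ⟨j, hj⟩ := T.comm_P'_exp hw hw
  set ψ := T.v * p * T.v⁻¹ * p⁻¹ with hψ
  have hψP : ψ ∈ T.P' := T.vp_mem hp
  obtain ⟨k, hk⟩ : ∃ k, T.v * w * T.v⁻¹ = T.bp k * w := by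
    rcases T.o.h'.pair (T.o.h'.comm T.hv hw.1) with e | e
    · exact ⟨0, by rw [bp_zero, one_mul]; rwa [mul_inv_eq_one] at e⟩
    · exact ⟨1, by rw [bp_one, show T.b = T.v * w * T.v⁻¹ * w⁻¹ from e.symm, inv_mul_cancel_right]⟩
  have hv1 : (T.v * p * T.v⁻¹) * (T.v * w * T.v⁻¹) =
      T.vv a (a + c) * ((T.v * w * T.v⁻¹) * (T.v * p * T.v⁻¹)) := by
    rw [← T.v_vv]
    calc (T.v * p * T.v⁻¹) * (T.v * w * T.v⁻¹) = T.v * (p * w) * T.v⁻¹ := by group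
      _ = _ := by rw [h]; group
  rw [show T.v * p * T.v⁻¹ = ψ * p by rw [hψ]; group, hk] at hv1
  have hb : ∀ x ∈ T.R, T.bp k * x = x * T.bp k := fun x hx => by
    have := T.vv_comm (T.R_le_D hx) 0 k
    rw [vv, Setting.zp_zero, one_mul] at this
    exact this.symm
  have hψR := T.P'_le_R hψP
  have hpR := T.P_le_R hp
  have e1 : ψ * p * (T.bp k * w) = T.bp k * (T.vv a (i + c) * (w * (ψ * p))) := by
    calc ψ * p * (T.bp k * w) = (ψ * p * T.bp k) * w := by group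
      _ = T.bp k * (ψ * (p * w)) := by rw [← hb _ (mul_mem hψR hpR)]; group
      _ = T.bp k * ((ψ * T.vv a c) * w * p) := by rw [h]; group
      _ = T.bp k * (T.vv a c * (ψ * w) * p) := by rw [T.vv_comm (T.R_le_D hψR)]; group
      _ = T.bp k * ((T.vv a c * T.vv 0 i) * (w * (ψ * p))) := by
        rw [hi, show T.vv 0 i = T.bp i by rw [vv, Setting.zp_zero, one_mul]]; group
      _ = _ := by rw [vv_mul, add_zero, add_comm c i]
  have e2 : T.vv a (a + c) * (T.bp k * w * (ψ * p)) = T.bp k * (T.vv a (a + c) * (w * (ψ * p))) := by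
    rw [show T.vv a (a + c) * (T.bp k * w * (ψ * p)) = (T.vv a (a + c) * T.bp k) * (w * (ψ * p)) by group,
      ← hb _ (T.P_le_R (T.four_le_P (T.vv_mem a (a + c))))]
    group
  rw [e1, e2] at hv1
  have h2 := (T.vv_inj (mul_right_cancel (mul_left_cancel hv1))).2
  linear_combination -h2

theorem comm_P' {w w' : G} (hw : w ∈ T.P') (hw' : w' ∈ T.P') :
    w * w' = T.bp (B8 (T.ph w) (T.ph w')) * (w' * w) := by
  obtain ⟨i, hi⟩ := T.comm_P'_exp hw hw'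
  suffices h : i = B8 (T.ph w) (T.ph w') by rw [← h]; exact hi
  obtain ⟨φ, hφ⟩ : ∃ φ, φ = T.u * w * T.u⁻¹ * w⁻¹ := ⟨_, rfl⟩
  have hφP : φ ∈ T.P := hφ ▸ T.uw_mem hw
  have hclφ : T.cl φ = T.ph w := by rw [hφ]; rfl
  obtain ⟨a, ha⟩ := T.comm_b hφP hw'
  -- identify the transvected element with `w` up to the four-group
  have hψ : ∃ x y, T.v * φ * T.v⁻¹ * φ⁻¹ = T.vv x y * w := by
    refine T.isCl_eq (T.isCl_P' hw) ?_
    have := T.isCl_P' (T.vp_mem hφP)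
    rwa [T.ph_vp hφP, hclφ] at this
  obtain ⟨x, y, hxy⟩ := hψ
  have hai : a = i := T.zexp hφP hw' ha (i := i) (by
    rw [hxy, mul_assoc, hi, ← mul_assoc w', ← mul_assoc, ← mul_assoc,
      T.vv_comm (T.P'_le_D hw') x y,
      show T.vv x y * T.bp i = T.bp i * T.vv x y by
        rw [show T.bp i = T.vv 0 i by rw [vv, Setting.zp_zero, one_mul], vv_mul, vv_mul, add_comm x,
          add_comm y]]
    group)
  rw [hai] at ha
  -- the same for the conjugate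
  obtain ⟨φ', hφ'⟩ : ∃ φ', φ' = T.u * w' * T.u⁻¹ * w'⁻¹ := ⟨_, rfl⟩
  have hφ'P : φ' ∈ T.P := hφ' ▸ T.uw_mem hw'
  have hclφ' : T.cl φ' = T.ph w' := by rw [hφ']; rfl
  obtain ⟨a', ha'⟩ := T.comm_b hφ'P hw
  obtain ⟨x', y', hxy'⟩ : ∃ x y, T.v * φ' * T.v⁻¹ * φ'⁻¹ = T.vv x y * w' := by
    refine T.isCl_eq (T.isCl_P' hw') ?_
    have := T.isCl_P' (T.vp_mem hφ'P)
    rwa [T.ph_vp hφ'P, hclφ'] at this
  have hi' : w' * w = T.bp i * (w * w') := by
    rw [hi, ← mul_assoc, ← T.bp_add, two0, bp_zero, one_mul]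
  have hai' : a' = i := T.zexp hφ'P hw ha' (i := i) (by
    rw [hxy', mul_assoc, hi', ← mul_assoc w, ← mul_assoc, ← mul_assoc,
      T.vv_comm (T.P'_le_D hw) x' y',
      show T.vv x' y' * T.bp i = T.bp i * T.vv x' y' by
        rw [show T.bp i = T.vv 0 i by rw [vv, Setting.zp_zero, one_mul], vv_mul, vv_mul, add_comm x',
          add_comm y']]
    group)
  rw [hai'] at ha'
  set B := B8 (T.ph w) (T.ph w') with hB
  have hBc : B8 (T.cl φ) (T.ph w') = B := by rw [hclφ]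
  have hBc' : B8 (T.cl φ') (T.ph w) = B := by rw [hclφ', hB, B_comm]
  have hBφ : B8 (T.S.co φ) (T.S.co φ') = B :=
    by rw [← B_pr (T.mem_P.1 hφP).2 (T.mem_P.1 hφ'P).2, hB, ← hclφ, ← hclφ']; rfl
  rw [hBc] at ha
  rw [hBc'] at ha'
  have hφD := T.P_le_D hφP
  have hφ'D := T.P_le_D hφ'P
  have hwD := T.P'_le_D hw
  have hw'D := T.P'_le_D hw'
  have hu1 : (φ * w) * (φ' * w') = T.vv i i * ((φ' * w') * (φ * w)) := by
    rw [hφ, ← T.u_conj, hφ', ← T.u_conj,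
      show T.vv i i = T.u * T.bp i * T.u⁻¹ by
        rw [show T.bp i = T.vv 0 i by rw [vv, Setting.zp_zero, one_mul], T.u_vv, zero_add]]
    calc T.u * w * T.u⁻¹ * (T.u * w' * T.u⁻¹) = T.u * (w * w') * T.u⁻¹ := by group
      _ = _ := by rw [hi]; group
  have e1 : (φ * w) * (φ' * w') =
      (T.vv i B * T.vv B 0 * T.vv i B * T.vv 0 i) * ((φ' * w') * (φ * w)) := by
    have h1 : w * φ' = T.vv i B * (φ' * w) := by
      conv_rhs => rw [ha', ← mul_assoc, vv_mul, two0, two0, vv_zero, one_mul]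
    have h2 : φ * φ' = T.vv B 0 * (φ' * φ) := by
      rw [T.S.comm hφP.1 hφ'P.1, hBφ, vv, bp_zero, mul_one]
    have h3 : w * w' = T.vv 0 i * (w' * w) := by rw [vv, Setting.zp_zero, one_mul]; exact hi
    have c : ∀ {d : G}, d ∈ T.D → ∀ x y, d * T.vv x y = T.vv x y * d := fun hd x y => T.vv_comm hd x y
    calc φ * w * (φ' * w') = φ * (w * φ') * w' := by group
      _ = (φ * T.vv i B) * (φ' * w) * w' := by rw [h1]; group
      _ = T.vv i B * (φ * φ') * (w * w') := by rw [c hφD]; group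
      _ = T.vv i B * T.vv B 0 * ((φ' * φ) * T.vv 0 i) * (w' * w) := by rw [h2, h3]; group
      _ = T.vv i B * T.vv B 0 * T.vv 0 i * (φ' * (φ * w') * w) := by
        rw [c (mul_mem hφ'D hφD)]; group
      _ = T.vv i B * T.vv B 0 * T.vv 0 i * ((φ' * T.vv i B) * (w' * φ) * w) := by rw [ha]; group
      _ = T.vv i B * T.vv B 0 * T.vv 0 i * T.vv i B * (φ' * (w' * φ) * w) := by rw [c hφ'D]; group
      _ = _ := by simp only [vv_mul]; group
  have h3 := mul_right_cancel (e1.symm.trans hu1)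
  simp only [vv_mul] at h3
  have h4 := (T.vv_inj h3).1
  linear_combination two0 i - h4

/-- The commutator of `P` and `P'`. -/
theorem comm_PP' {p w : G} (hp : p ∈ T.P) (hw : w ∈ T.P') :
    p * w = T.vv (B8 (T.cl p) (T.ph w)) (B8 (T.cl p) (T.ph w)) * (w * p) := by
  obtain ⟨a, ha⟩ := T.comm_b hp hw
  have h := T.comm_P' (T.vp_mem hp) hw
  rw [T.ph_vp hp] at h
  rwa [T.zexp hp hw ha h] at ha

theorem sq_P' {w : G} (hw : w ∈ T.P') : w * w = T.bp (q8 (T.ph w)) := by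
  obtain ⟨i, hi⟩ : ∃ i, w * w = T.bp i := by
    rcases T.o.h'.pair (T.o.h'.sq hw.1) with e | e
    · exact ⟨0, by rw [bp_zero]; exact e⟩
    · exact ⟨1, by rw [bp_one]; exact e⟩
  suffices h : i = q8 (T.ph w) by rw [← h]; exact hi
  set φ := T.u * w * T.u⁻¹ * w⁻¹ with hφ
  have hφP := T.uw_mem hw
  have h0 : φ * w = w * φ := by
    have := T.comm_PP' hφP hw
    rwa [show T.cl φ = T.ph w from rfl, B_self, vv_zero, one_mul] at this
  have hb : T.vv 0 i = T.bp i := by rw [vv, Setting.zp_zero, one_mul]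
  have h1 : (φ * w) * (φ * w) = T.vv i i := by
    rw [hφ, ← T.u_conj, show T.u * w * T.u⁻¹ * (T.u * w * T.u⁻¹) = T.u * (w * w) * T.u⁻¹ by group,
      hi, ← hb, T.u_vv, zero_add]
  have h2 : (φ * w) * (φ * w) = T.vv (q8 (T.S.co φ)) i := by
    calc (φ * w) * (φ * w) = φ * (w * φ) * w := by group
      _ = φ * φ * (w * w) := by rw [← h0]; group
      _ = _ := by rw [T.S.sq hφP.1, hi, vv]
  have h3 := (T.vv_inj (h1.symm.trans h2)).1
  rw [h3, ← q_pr (T.mem_P.1 hφP).2]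
  rfl

theorem cl_sq {p : G} (hp : p ∈ T.P) : p * p = T.S.zp (q8 (T.cl p)) := by
  rw [T.S.sq hp.1, cl, q_pr (T.mem_P.1 hp).2]

/-- The commutator in the radical. -/
theorem comm_R {r r' : G} {a c a' c' : F8} (h : T.IsCl r a c) (h' : T.IsCl r' a' c') :
    r * r' = T.vv (B8 a a' + B8 a c' + B8 a' c) (B8 c c' + B8 a c' + B8 a' c) * (r' * r) := by
  obtain ⟨p, hp, w, hw, rfl, rfl, rfl⟩ := h
  obtain ⟨p', hp', w', hw', rfl, rfl, rfl⟩ := h'
  have hpp : p * p' = T.vv (B8 (T.cl p) (T.cl p')) 0 * (p' * p) := by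
    rw [T.S.comm hp.1 hp'.1, cl, cl, B_pr (T.mem_P.1 hp).2 (T.mem_P.1 hp').2, vv, bp_zero, mul_one]
  have hww : w * w' = T.vv 0 (B8 (T.ph w) (T.ph w')) * (w' * w) := by
    rw [vv, Setting.zp_zero, one_mul]; exact T.comm_P' hw hw'
  have hpw := T.comm_PP' hp hw'
  have hpw' : w * p' = T.vv (B8 (T.cl p') (T.ph w)) (B8 (T.cl p') (T.ph w)) * (p' * w) := by
    rw [T.comm_PP' hp' hw, ← mul_assoc, vv_mul, two0, vv_zero, one_mul]
  set k := B8 (T.cl p) (T.ph w')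
  set k' := B8 (T.cl p') (T.ph w)
  have c : ∀ {d : G}, d ∈ T.D → ∀ x y, d * T.vv x y = T.vv x y * d := fun hd x y => T.vv_comm hd x y
  have hpD := T.P_le_D hp
  have hp'D := T.P_le_D hp'
  calc p * w * (p' * w') = p * (w * p') * w' := by group
    _ = (p * T.vv k' k') * (p' * w) * w' := by rw [hpw']; group
    _ = T.vv k' k' * (p * p') * (w * w') := by rw [c hpD]; group
    _ = T.vv k' k' * T.vv (B8 (T.cl p) (T.cl p')) 0 * ((p' * p) * T.vv 0 (B8 (T.ph w) (T.ph w'))) * (w' * w) := by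
      rw [hpp, hww]; group
    _ = T.vv k' k' * T.vv (B8 (T.cl p) (T.cl p')) 0 * T.vv 0 (B8 (T.ph w) (T.ph w')) * (p' * (p * w') * w) := by
      rw [c (mul_mem hp'D hpD)]; group
    _ = T.vv k' k' * T.vv (B8 (T.cl p) (T.cl p')) 0 * T.vv 0 (B8 (T.ph w) (T.ph w')) * ((p' * T.vv k k) * (w' * p) * w) := by
      rw [hpw]; group
    _ = T.vv k' k' * T.vv (B8 (T.cl p) (T.cl p')) 0 * T.vv 0 (B8 (T.ph w) (T.ph w')) * T.vv k k * (p' * (w' * p) * w) := by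
      rw [c hp'D]; group
    _ = _ := by simp only [vv_mul]; group

/-- Squares in the radical. -/
theorem sq_R {r : G} {a c : F8} (h : T.IsCl r a c) :
    r * r = T.vv (q8 a + B8 a c) (q8 c + B8 a c) := by
  obtain ⟨p, hp, w, hw, rfl, rfl, rfl⟩ := h
  have h1 : w * p = T.vv (B8 (T.cl p) (T.ph w)) (B8 (T.cl p) (T.ph w)) * (p * w) := by
    rw [T.comm_PP' hp hw, ← mul_assoc, vv_mul, two0, vv_zero, one_mul]
  set k := B8 (T.cl p) (T.ph w)
  calc p * w * (p * w) = p * (w * p) * w := by group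
    _ = (p * T.vv k k) * p * (w * w) := by rw [h1]; group
    _ = T.vv k k * (p * p) * (w * w) := by rw [T.vv_comm (T.P_le_D hp)]; group
    _ = T.vv k k * T.vv (q8 (T.cl p)) 0 * T.vv 0 (q8 (T.ph w)) := by
      rw [T.cl_sq hp, T.sq_P' hw]
      simp [vv, bp_zero, Setting.zp_zero]
    _ = _ := by rw [vv_mul, vv_mul]; congr 1 <;> ring

end Frame

end Cfsg.Agent.H41.CoType
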