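import Cfsg.Agent.H41.CoType.Geometry
import Cfsg.Agent.H18.PairLocal
import Cfsg.Agent.H18.LargeSimple
import Cfsg.Agent.H18.ExtraspecialForm
import Cfsg.Agent.H4.DiscClass
import Cfsg.Agent.H58.ExtraspecialCongr
import Cfsg.Agent.S0287
import Cfsg.Agent.S0288

/-! Groups of Conway type: the coordinates of the extraspecial subgroup. -/

set_option autoImplicit false
set_option linter.style.haveILetI false

namespace Cfsg.Agent.H41.CoType

open QuadraticMap
open Cfsg.Agent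

/-- The data of a group of Conway type. -/
structure Setting (G : Type*) [Group G] where
  F : Subgroup G
  z : G
  co : G → F8
  ρ : ↥(Subgroup.centralizer ({z} : Set G)) →* O8
  pt : H18.SingPt F z
  co_mul : ∀ x ∈ F, ∀ y ∈ F, co (x * y) = co x + co y
  co_eq : ∀ x ∈ F, co x = 0 → x = 1 ∨ x = z
  co_z : co z = 0
  co_surj : ∀ v, ∃ x ∈ F, co x = v
  sq_iff : ∀ x ∈ F, x * x = 1 ↔ q8 (co x) = 0
  act : ∀ (c : ↥(Subgroup.centralizer ({z} : Set G))), ∀ x ∈ F,
    co ((c : G) * x * (c : G)⁻¹) = ap (ρ c) (co x)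
  range : ρ.range = Om
  conj : ∃ g, g * z * g⁻¹ ∈ F ∧ g * z * g⁻¹ ≠ z

namespace Setting

variable {G : Type*} [Group G] (S : Setting G)

/-- The centralizer of `z`. -/
abbrev C : Subgroup G := Subgroup.centralizer ({S.z} : Set G)

/-- Powers of `z`. -/
def zp (a : ZMod 2) : G := if a = 0 then 1 else S.z

theorem zp_zero : S.zp 0 = 1 := rfl

theorem zp_one : S.zp 1 = S.z := if_neg one_ne_zero

theorem zp_add (a b : ZMod 2) : S.zp (a + b) = S.zp a * S.zp b := by
  rcases bit a with rfl | rfl <;> rcases bit b with rfl | rfl <;>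
    simp [zp_zero, zp_one, CharTwo.add_self_eq_zero, S.pt.xx]

theorem zp_inj {a b : ZMod 2} (h : S.zp a = S.zp b) : a = b := by
  rcases bit a with rfl | rfl <;> rcases bit b with rfl | rfl
  · rfl
  · exact absurd (by rw [← S.zp_one, ← h, zp_zero] : S.z = 1) S.pt.xne
  · exact absurd (by rw [← S.zp_one, h, zp_zero] : S.z = 1) S.pt.xne
  · rfl

theorem zp_eq_one {a : ZMod 2} : S.zp a = 1 ↔ a = 0 :=
  ⟨fun h => S.zp_inj (h.trans S.zp_zero.symm), fun h => h ▸ S.zp_zero⟩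

theorem zp_mem (a : ZMod 2) : S.zp a ∈ S.F := by
  rcases bit a with rfl | rfl
  · exact S.zp_zero ▸ one_mem _
  · exact S.zp_one ▸ S.pt.mem

theorem co_zp (a : ZMod 2) : S.co (S.zp a) = 0 := by
  rcases bit a with rfl | rfl
  · rw [zp_zero]
    have := S.co_mul 1 S.F.one_mem 1 S.F.one_mem
    rw [mul_one] at this
    exact add_eq_left.1 this.symm
  · rw [zp_one, S.co_z]

theorem co_one : S.co 1 = 0 := by rw [← S.zp_zero, S.co_zp]

theorem co_inv {x : G} (hx : x ∈ S.F) : S.co x⁻¹ = S.co x := by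
  have := S.co_mul x hx x⁻¹ (S.F.inv_mem hx)
  rw [mul_inv_cancel, S.co_one] at this
  exact (eq_of_add8 this.symm).symm

theorem zp_comm (a : ZMod 2) {c : G} (hc : c * S.z = S.z * c) : c * S.zp a = S.zp a * c := by
  rcases bit a with rfl | rfl
  · simp [zp_zero]
  · rw [zp_one, hc]

theorem exists_zp {x y : G} (hx : x ∈ S.F) (hy : y ∈ S.F) (h : S.co x = S.co y) :
    ∃ a, y = x * S.zp a := by
  have h0 : S.co (x⁻¹ * y) = 0 := by rw [S.co_mul _ (S.F.inv_mem hx) _ hy, S.co_inv hx, h, two8]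
  rcases S.co_eq _ (mul_mem (S.F.inv_mem hx) hy) h0 with e | e
  · exact ⟨0, by rw [zp_zero, mul_one, ← inv_mul_eq_one.1 e]⟩
  · exact ⟨1, by rw [zp_one, ← e, mul_inv_cancel_left]⟩

theorem exists_zp_of_co {x : G} (hx : x ∈ S.F) (h : S.co x = 0) : ∃ a, x = S.zp a := by
  obtain ⟨a, ha⟩ := S.exists_zp (one_mem _) hx (S.co_one.trans h.symm)
  exact ⟨a, by rw [ha, one_mul]⟩

theorem sq {x : G} (hx : x ∈ S.F) : x * x = S.zp (q8 (S.co x)) := by
  rcases bit (q8 (S.co x)) with h | h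
  · rw [h, zp_zero, (S.sq_iff x hx).2 h]
  · rw [h, zp_one]
    refine (S.pt.pair (S.pt.sq hx)).resolve_left fun e => ?_
    rw [(S.sq_iff x hx).1 e] at h
    exact zero_ne_one h

theorem comm {x y : G} (hx : x ∈ S.F) (hy : y ∈ S.F) :
    x * y = S.zp (B8 (S.co x) (S.co y)) * (y * x) := by
  have hk : x * y * (y * x)⁻¹ ∈ Subgroup.zpowers S.z := by
    have := S.pt.comm hx hy
    rwa [show x * y * x⁻¹ * y⁻¹ = x * y * (y * x)⁻¹ by group] at this
  obtain ⟨a, ha⟩ : ∃ a, x * y = S.zp a * (y * x) := by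
    rcases S.pt.pair hk with e | e
    · exact ⟨0, by rw [zp_zero, one_mul, mul_inv_eq_one.1 e]⟩
    · exact ⟨1, by rw [zp_one, ← e, inv_mul_cancel_right]⟩
  suffices h : a = B8 (S.co x) (S.co y) by rw [← h]; exact ha
  have h1 : x * y * (x * y) = S.zp a * (y * (x * x) * y) := by
    calc x * y * (x * y) = S.zp a * (y * x) * (x * y) := by rw [← ha]
      _ = _ := by group
  rw [S.sq (mul_mem hx hy), S.co_mul x hx y hy, q_add, S.sq hx,
    S.zp_comm _ (S.pt.comm_x y hy), mul_assoc (S.zp _) y y, S.sq hy, ← S.zp_add, ← S.zp_add] at h1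
  linear_combination -(S.zp_inj h1)

theorem commute_iff {x y : G} (hx : x ∈ S.F) (hy : y ∈ S.F) :
    x * y = y * x ↔ B8 (S.co x) (S.co y) = 0 := by
  have := S.comm hx hy
  constructor
  · intro h
    rw [← h, eq_comm, mul_eq_right, S.zp_eq_one] at this
    exact this
  · intro h
    rw [this, h, zp_zero, one_mul]

theorem mem_C {c : G} : c ∈ S.C ↔ c * S.z = S.z * c := Subgroup.mem_centralizer_singleton_iff

theorem F_le_C {x : G} (hx : x ∈ S.F) : x ∈ S.C := S.mem_C.2 (S.pt.comm_x x hx)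

theorem norm {c x : G} (hc : c ∈ S.C) (hx : x ∈ S.F) : c * x * c⁻¹ ∈ S.F :=
  S.pt.norm c (S.mem_C.1 hc) x hx

theorem act' {c : G} (hc : c ∈ S.C) {x : G} (hx : x ∈ S.F) :
    S.co (c * x * c⁻¹) = ap (S.ρ ⟨c, hc⟩) (S.co x) := S.act ⟨c, hc⟩ x hx

theorem rho_eq_one [Finite G] {c : G} (hc : c ∈ S.C) : S.ρ ⟨c, hc⟩ = 1 ↔ c ∈ S.F := by
  constructor
  · intro h
    refine S.pt.mem_of_disp (S.mem_C.1 hc) fun q hq => ?_
    have h1 : S.co (q⁻¹ * (c * q * c⁻¹)) = 0 := by
      rw [S.co_mul _ (inv_mem hq) _ (S.norm hc hq), S.co_inv hq, S.act' hc hq, h, ap_one, two8]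
    rcases S.co_eq _ (mul_mem (inv_mem hq) (S.norm hc hq)) h1 with e | e <;> rw [e]
    exacts [one_mem _, Subgroup.mem_zpowers _]
  · intro hcF
    refine ap_ext fun v => ?_
    obtain ⟨x, hx, rfl⟩ := S.co_surj v
    rw [← S.act' hc hx, S.co_mul _ (mul_mem hcF hx) _ (inv_mem hcF), S.co_mul _ hcF _ hx,
      S.co_inv hcF, ap_one, add_comm (S.co c), add_assoc, two8, add_zero]

theorem exists_rho {ω : O8} (hω : ω ∈ Om) : ∃ c, ∃ hc : c ∈ S.C, S.ρ ⟨c, hc⟩ = ω := by
  obtain ⟨⟨c, hc⟩, h⟩ := (S.range ▸ hω : ω ∈ S.ρ.range)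
  exact ⟨c, hc, h⟩

theorem rho_mem {c : G} (hc : c ∈ S.C) : S.ρ ⟨c, hc⟩ ∈ Om := S.range ▸ ⟨_, rfl⟩

theorem card_F [Finite G] : Nat.card S.F = 512 := by
  have e : Nat.card S.F = 2 * Nat.card F8 := by
    rw [show 2 * Nat.card F8 = Nat.card (ZMod 2 × F8) by rw [Nat.card_prod, Nat.card_zmod]]
    choose lift hlm hlc using S.co_surj
    refine (Nat.card_congr (Equiv.ofBijective
      (fun p : ZMod 2 × F8 => (⟨lift p.2 * S.zp p.1, mul_mem (hlm _) (S.zp_mem _)⟩ : S.F))
      ⟨fun p p' h => ?_, fun x => ?_⟩)).symm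
    · have h' : lift p.2 * S.zp p.1 = lift p'.2 * S.zp p'.1 := congrArg Subtype.val h
      have h2 : p.2 = p'.2 := by
        have := congrArg S.co h'
        rwa [S.co_mul _ (hlm _) _ (S.zp_mem _), S.co_mul _ (hlm _) _ (S.zp_mem _), hlc, hlc,
          S.co_zp, S.co_zp, add_zero, add_zero] at this
      rw [h2] at h'
      exact Prod.ext (S.zp_inj (mul_left_cancel h')) h2
    · obtain ⟨a, ha⟩ := S.exists_zp (hlm (S.co x)) x.2 (hlc _)
      exact ⟨(a, S.co x), Subtype.ext ha.symm⟩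
  rw [e, Nat.card_fun, Nat.card_zmod, Nat.card_sum, Nat.card_fin]
  norm_num

/-- All lifts of nonzero singular vectors are conjugate to `z`. -/
theorem orthPair [Finite G] {b : G} (hb : b ∈ S.F) (hq : q8 (S.co b) = 0) (h0 : S.co b ≠ 0) :
    ∃ g, g * S.z * g⁻¹ = b ∧ H18.OrthPair S.F S.z g := by
  have hbig : 8 < Nat.card S.F := by rw [S.card_F]; norm_num
  suffices h : ∃ g, g * S.z * g⁻¹ = b by
    obtain ⟨g, hg⟩ := h
    refine ⟨g, hg, S.pt.orthPair hbig (hg ▸ hb) fun e => h0 ?_⟩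
    rw [← hg, e, S.co_z]
  obtain ⟨g, hgF, hgne⟩ := S.conj
  set a := g * S.z * g⁻¹ with ha
  have haq : q8 (S.co a) = 0 := (S.sq_iff a hgF).1 (by rw [ha, conj_mul, S.pt.xx]; group)
  have ha0 : S.co a ≠ 0 := fun e => by
    rcases S.co_eq a hgF e with e' | e'
    · exact S.pt.xne (conj_eq_one_iff.1 e')
    · exact hgne e'
  obtain ⟨ω₁, h₁, e₁⟩ := witt_one ha0 haq
  obtain ⟨ω₂, h₂, e₂⟩ := witt_one h0 hq
  obtain ⟨c, hc, hρ⟩ := S.exists_rho (Om.mul_mem (Om.inv_mem h₂) h₁)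
  have hco : S.co (c * a * c⁻¹) = S.co b := by
    rw [S.act' hc hgF, hρ, ap_mul, e₁, ← e₂, ← ap_mul, inv_mul_cancel, ap_one]
  obtain ⟨i, hi⟩ := S.exists_zp (S.norm hc hgF) hb hco
  rcases bit i with rfl | rfl
  · refine ⟨c * g, ?_⟩
    rw [hi, zp_zero, mul_one, ha]; group
  · have hd : c * a * c⁻¹ ≠ 1 := fun e => h0 (by rw [← hco, e, S.co_one])
    have hdz : c * a * c⁻¹ ≠ S.z := fun e => h0 (by rw [← hco, e, S.co_z])
    obtain ⟨u, hu, hue⟩ := S.pt.exists_translate (S.norm hc hgF) hd hdz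
    refine ⟨u * c * g, ?_⟩
    rw [hi, zp_one, S.pt.comm_x _ (S.norm hc hgF), ← hue, ha]; group

end Setting

/-- The representation of the centralizer on a coordinate space of `F`. -/
theorem exists_rep {G : Type*} [Group G] [Finite G] {F : Subgroup G} {z : G} (pt : H18.SingPt F z)
    {V : Type*} [AddCommGroup V] [Module (ZMod 2) V] (Q : QuadraticForm (ZMod 2) V) (co : G → V)
    (co_mul : ∀ x ∈ F, ∀ y ∈ F, co (x * y) = co x + co y)
    (co_eq : ∀ x ∈ F, co x = 0 → x = 1 ∨ x = z) (co_z : co z = 0)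
    (co_surj : ∀ v, ∃ x ∈ F, co x = v) (hqc : ∀ x ∈ F, x * x = 1 ↔ Q (co x) = 0) :
    ∃ ρ : ↥(Subgroup.centralizer ({z} : Set G)) →* H5.orth Q,
      (∀ (c : ↥(Subgroup.centralizer ({z} : Set G))), ∀ x ∈ F,
        co ((c : G) * x * (c : G)⁻¹) = (ρ c : V ≃ₗ[ZMod 2] V) (co x)) ∧
      ∀ c, ρ c = 1 ↔ (c : G) ∈ F := by
  classical
  set C := Subgroup.centralizer ({z} : Set G)
  have hnorm : ∀ c : C, ∀ x ∈ F, (c : G) * x * (c : G)⁻¹ ∈ F := fun c x hx =>
    pt.norm c (Subgroup.mem_centralizer_singleton_iff.1 c.2) x hx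
  choose lift hlm hlc using co_surj
  have hwd : ∀ c : C, ∀ x ∈ F,
      co ((c : G) * x * (c : G)⁻¹) = co ((c : G) * lift (co x) * (c : G)⁻¹) := by
    intro c x hx
    have hone : co 1 = 0 := by
      have := co_mul 1 F.one_mem 1 F.one_mem
      rw [mul_one] at this
      exact add_eq_left.1 this.symm
    have h2 : ∀ v : V, v + v = 0 := fun v => by
      rw [← two_smul (ZMod 2) v, show (2 : ZMod 2) = 0 from rfl, zero_smul]
    have hinv : co x⁻¹ = co x := by
      have := co_mul x hx x⁻¹ (inv_mem hx)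
      rw [mul_inv_cancel, hone] at this
      calc co x⁻¹ = co x⁻¹ + (co x + co x⁻¹) := by rw [← this, add_zero]
        _ = co x := by rw [add_comm (co x), ← add_assoc, h2, zero_add]
    have h0 : co (x⁻¹ * lift (co x)) = 0 := by
      rw [co_mul _ (inv_mem hx) _ (hlm _), hinv, hlc, h2]
    have e : (c : G) * lift (co x) * (c : G)⁻¹ =
        (c : G) * x * (c : G)⁻¹ * ((c : G) * (x⁻¹ * lift (co x)) * (c : G)⁻¹) := by group
    rw [e, co_mul _ (hnorm c x hx) _ (hnorm c _ (mul_mem (inv_mem hx) (hlm _)))]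
    rcases co_eq _ (mul_mem (inv_mem hx) (hlm _)) h0 with e' | e' <;> rw [e']
    · rw [mul_one, mul_inv_cancel, hone, add_zero]
    · rw [Subgroup.mem_centralizer_singleton_iff.1 c.2, mul_inv_cancel_right, co_z, add_zero]
  let f : C → V →+ V := fun c => AddMonoidHom.mk' (fun v => co ((c : G) * lift v * (c : G)⁻¹))
    fun v w => by
      have := hwd c _ (mul_mem (hlm v) (hlm w))
      rw [co_mul _ (hlm v) _ (hlm w), hlc, hlc] at this
      rw [← this, ← co_mul _ (hnorm c _ (hlm v)) _ (hnorm c _ (hlm w))]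
      congr 1; group
  have hf : ∀ c : C, ∀ x ∈ F, co ((c : G) * x * (c : G)⁻¹) = f c (co x) := fun c x hx => hwd c x hx
  have hmul : ∀ c d : C, ∀ v, f (c * d) v = f c (f d v) := by
    intro c d v
    show co _ = f c (co _)
    rw [← hf c _ (hnorm d _ (hlm v))]
    congr 1
    push_cast
    group
  have hone : ∀ v, f 1 v = v := fun v => by
    show co ((1 : G) * lift v * (1 : G)⁻¹) = v
    simp [hlc]
  let lin : C → (V ≃ₗ[ZMod 2] V) := fun c =>
    { (f c).toZModLinearMap 2 with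
      invFun := f c⁻¹
      left_inv := fun v => by
        show f c⁻¹ (f c v) = v
        rw [← hmul, inv_mul_cancel, hone]
      right_inv := fun v => by
        show f c (f c⁻¹ v) = v
        rw [← hmul, mul_inv_cancel, hone] }
  have hiso : ∀ c v, Q (lin c v) = Q v := by
    intro c v
    show Q (f c v) = Q v
    have key : ∀ a b : ZMod 2, (a = 0 ↔ b = 0) → a = b := by decide
    refine key _ _ ?_
    rw [← hlc v, ← hf c _ (hlm v), ← hqc _ (hnorm c _ (hlm v)), ← hqc _ (hlm v), conj_mul,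
      conj_eq_one_iff]
  refine ⟨MonoidHom.mk' (fun c => ⟨lin c, hiso c⟩) fun c d => H5.orth_ext (hmul c d),
    fun c x hx => hf c x hx, fun c => ⟨fun h => ?_, fun hcF => H5.orth_ext fun v => ?_⟩⟩
  · refine pt.mem_of_disp (Subgroup.mem_centralizer_singleton_iff.1 c.2) fun q hq => ?_
    have h1 : co ((c : G) * q * (c : G)⁻¹) = co q := by
      rw [hf c q hq]
      exact congrArg (fun w : H5.orth Q => (w : V ≃ₗ[ZMod 2] V) (co q)) h
    have h2 : co (q * (q⁻¹ * ((c : G) * q * (c : G)⁻¹))) = co q := by rw [mul_inv_cancel_left, h1]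
    rw [co_mul _ hq _ (mul_mem (inv_mem hq) (hnorm c q hq)), add_eq_left] at h2
    rcases co_eq _ (mul_mem (inv_mem hq) (hnorm c q hq)) h2 with e | e <;> rw [e]
    exacts [one_mem _, Subgroup.mem_zpowers _]
  · show f c v = v
    rw [← hlc v, ← hf c _ (hlm v)]
    have h1 := pt.comm hcF (hlm v)
    have e : (c : G) * lift v * (c : G)⁻¹ =
        ((c : G) * lift v * (c : G)⁻¹ * (lift v)⁻¹) * lift v := by group
    rw [e, co_mul _ (pt.zp_le h1) _ (hlm v)]
    rcases pt.pair h1 with e' | e' <;> rw [e']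
    · have := co_mul 1 F.one_mem 1 F.one_mem
      rw [mul_one] at this
      rw [add_eq_left.1 this.symm, zero_add]
    · rw [co_z, zero_add]

theorem card_O8 : Nat.card O8 = 348364800 := by
  rw [← Nat.card_congr (H5.isoEquiv Q8 (H5.coe_qPlus 4)).toEquiv,
    Cfsg.Agent.S0287.result (q := 2) (ZMod.card 2) 4 (by norm_num)]
  decide

theorem card_Om : Nat.card Om = 174182400 := by
  have h := Om.card_mul_index
  rw [H5.commutator_index_two (by decide) nondeg std_four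
    ⟨eps 0 + eta 0, by rw [coe_Q8]; decide +kernel⟩, card_O8] at h
  omega

/-- The hypotheses of Conway type give a setting. -/
theorem exists_setting {G : Type*} [Group G] [Finite G] {z : G} (hz : orderOf z = 2)
    (Q : Subgroup (Subgroup.centralizer ({z} : Set G))) [Q.Normal]
    (hF : Cfsg.generalizedFittingSubgroup (Subgroup.centralizer ({z} : Set G)) = Q)
    (hQ : Cfsg.IsExtraspecial 2 Q) (hcard : Nat.card Q = 2 ^ 9)
    (e : (Subgroup.centralizer ({z} : Set G)) ⧸ Q ≃* Cfsg.Omega (ZMod 2) (Cfsg.quadFormPlus 4 (ZMod 2)))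
    (hnwc : ∃ g : G, (∃ hq : g * z * g⁻¹ ∈ Subgroup.centralizer ({z} : Set G),
      (⟨g * z * g⁻¹, hq⟩ : Subgroup.centralizer ({z} : Set G)) ∈ Q) ∧ g * z * g⁻¹ ≠ z) :
    ∃ S : Setting G, S.z = z ∧ S.F = Q.map (Subgroup.centralizer ({z} : Set G)).subtype := by
  classical
  let F : Subgroup G := Q.map (Subgroup.centralizer ({z} : Set G)).subtype
  let eF : ↥Q ≃* ↥F := Q.equivMapOfInjective _ (Subgroup.centralizer ({z} : Set G)).subtype_injective
  have hQ' : Cfsg.IsExtraspecial 2 ↥F := H58.isExtraspecial_congr eF hQ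
  have hcF : Nat.card F = 2 ^ (2 * 4 + 1) := by rw [← Nat.card_congr eF.toEquiv, hcard]
  have hF' : (Cfsg.generalizedFittingSubgroup ↥(Subgroup.centralizer ({z} : Set G))).map (Subgroup.centralizer ({z} : Set G)).subtype = F := by rw [hF]
  obtain ⟨hzF, hZ, hCQ, hN⟩ := H18.fstar_conditions hz hF' hQ'
  obtain ⟨z', pt, -, hz'⟩ := H18.exists_singPt F hQ' hCQ hN
  have hzz : z' = z := by
    rcases pt.pair (hz'.symm.trans hZ ▸ Subgroup.mem_zpowers z : z ∈ Subgroup.zpowers z') with h | h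
    · rw [h, orderOf_one] at hz; omega
    · exact h.symm
  subst hzz
  obtain ⟨hm, Qs, hnd, hfr, hqs⟩ := H18.exists_quadSpace hQ' hcF
  let π : G → Additive (Abelianization F) := fun x =>
    if hx : x ∈ F then Additive.ofMul (Abelianization.of ⟨x, hx⟩) else 0
  have hπ : ∀ x (hx : x ∈ F), π x = Additive.ofMul (Abelianization.of ⟨x, hx⟩) := fun x hx => dif_pos hx
  have π_mul : ∀ x ∈ F, ∀ y ∈ F, π (x * y) = π x + π y := fun x hx y hy => by
    rw [hπ _ (mul_mem hx hy), hπ x hx, hπ y hy, ← ofMul_mul, ← map_mul]; rfl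
  have hker : ∀ w : F, Abelianization.of w = 1 ↔ (w : G) = 1 ∨ (w : G) = z' := fun w => by
    rw [← MonoidHom.mem_ker, Abelianization.ker_of, hQ'.1.2.2, pt.center_iff,
      H18.mem_zpowers_iff_pair pt.xx]
  have π_eq : ∀ x ∈ F, π x = 0 → x = 1 ∨ x = z' := fun x hx h => by
    rw [hπ x hx] at h
    exact (hker ⟨x, hx⟩).1 (by simpa using h)
  have π_z : π z' = 0 := by
    rw [hπ _ pt.mem, (hker ⟨z', pt.mem⟩).2 (Or.inr rfl)]; rfl
  have π_surj : ∀ v, ∃ x ∈ F, π x = v := fun v => by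
    obtain ⟨x, hx⟩ := QuotientGroup.mk_surjective (Additive.toMul v)
    exact ⟨x, x.2, by rw [hπ _ x.2]; exact hx⟩
  have π_q : ∀ x ∈ F, x * x = 1 ↔ Qs (π x) = 0 := fun x hx => by
    rw [hπ x hx, hqs, H18.sqForm_eq_zero_iff]
    exact ⟨fun h => Subtype.ext h, fun h => congrArg Subtype.val h⟩
  haveI : Finite (Additive (Abelianization F)) := inferInstanceAs (Finite (Abelianization F))
  have hcardC : Nat.card (Subgroup.centralizer ({z'} : Set G)) = 512 * 174182400 := by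
    rw [Q.card_eq_card_quotient_mul_card_subgroup, hcard,
      Nat.card_congr (e.trans (H5.omegaEquiv Q8 (H5.coe_qPlus 4))).toEquiv, card_Om]
    norm_num
  obtain ⟨ρ₀, hact₀, hker₀⟩ := exists_rep pt Qs π π_mul π_eq π_z π_surj π_q
  have hQker : ρ₀.ker = Q := by
    ext c
    rw [MonoidHom.mem_ker, hker₀]
    exact ⟨fun ⟨q, hq, hqc⟩ => (Subtype.ext hqc : q = c) ▸ hq, fun h => ⟨c, h, rfl⟩⟩
  have hrange₀ : Nat.card ρ₀.range = 174182400 := by
    have h := ρ₀.ker.card_mul_index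
    rw [Subgroup.index_ker, hQker, hcard, hcardC] at h
    exact Nat.eq_of_mul_eq_mul_left (by norm_num : 0 < 512) h
  have hfr' : Module.finrank (ZMod 2) (Additive (Abelianization F)) = 2 * 4 := hfr
  rcases H4.isom_std_even hnd hfr' with ⟨θ, hθ⟩ | ⟨-, ζ, hζ, θ, hθ⟩
  · have co_mul : ∀ x ∈ F, ∀ y ∈ F, θ (π (x * y)) = θ (π x) + θ (π y) := fun x hx y hy => by
      rw [π_mul x hx y hy, map_add]
    have co_eq : ∀ x ∈ F, θ (π x) = 0 → x = 1 ∨ x = z' := fun x hx h =>
      π_eq x hx (θ.map_eq_zero_iff.1 h)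
    have co_surj : ∀ v : F8, ∃ x ∈ F, θ (π x) = v := fun v => by
      obtain ⟨x, hx, h⟩ := π_surj (θ.symm v)
      exact ⟨x, hx, by rw [h, θ.apply_symm_apply]⟩
    have hqc : ∀ x ∈ F, x * x = 1 ↔ Q8 (θ (π x)) = 0 := fun x hx => by
      rw [show Q8 (θ (π x)) = Qs (π x) by
        rw [← hθ, coe_Q8, H4.coe_qPlus]; rfl]
      exact π_q x hx
    obtain ⟨ρ, hact, hk⟩ := exists_rep pt Q8 (fun x => θ (π x)) co_mul co_eq
      (by rw [π_z, map_zero]) co_surj hqc
    have hrange : ρ.range = Om := by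
      have hk' : ρ.ker = Q := by
        ext c
        rw [MonoidHom.mem_ker, hk]
        exact ⟨fun ⟨q, hq, hqc⟩ => (Subtype.ext hqc : q = c) ▸ hq, fun h => ⟨c, h, rfl⟩⟩
      have hc : Nat.card ρ.range = 174182400 := by
        have h := ρ.ker.card_mul_index
        rw [Subgroup.index_ker, hk', hcard, hcardC] at h
        exact Nat.eq_of_mul_eq_mul_left (by norm_num : 0 < 512) h
      have hi : ρ.range.index = 2 := by
        have h := ρ.range.card_mul_index
        rw [hc, card_O8] at h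
        omega
      haveI : Finite O8 := Nat.finite_of_card_ne_zero (by rw [card_O8]; norm_num)
      refine (Subgroup.eq_of_le_of_card_ge ?_ (by rw [hc, card_Om])).symm
      rw [Om, commutator_def, Subgroup.commutator_le]
      intro a _ b _
      have hmem := fun a b : O8 => Subgroup.mul_mem_iff_of_index_two hi (a := a) (b := b)
      simp only [commutatorElement_def, hmem, inv_mem_iff]
      tauto
    obtain ⟨g, ⟨hgC, hgQ⟩, hgne⟩ := hnwc
    exact ⟨⟨F, z', fun x => θ (π x), ρ, pt, co_mul, co_eq, by simp [π_z], co_surj,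
      fun x hx => by rw [← coe_Q8]; exact hqc x hx, hact, hrange,
      ⟨g, ⟨_, hgQ, rfl⟩, hgne⟩⟩, rfl, rfl⟩
  · exfalso
    have hqc : ∀ x ∈ F, x * x = 1 ↔ H5.qMinus 3 (ZMod 2) 1 ζ (θ (π x)) = 0 := fun x hx => by
      rw [show H5.qMinus 3 (ZMod 2) 1 ζ (θ (π x)) = Qs (π x) by
        rw [← hθ, H4.coe_qMinus, H5.coe_qMinus]]
      exact π_q x hx
    obtain ⟨ρ, hact, hk⟩ := exists_rep pt (H5.qMinus 3 (ZMod 2) 1 ζ) (fun x => θ (π x))
      (fun x hx y hy => by rw [π_mul x hx y hy, map_add])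
      (fun x hx h => π_eq x hx (θ.map_eq_zero_iff.1 h)) (by rw [π_z, map_zero])
      (fun v => by
        obtain ⟨x, hx, h⟩ := π_surj (θ.symm v)
        exact ⟨x, hx, by rw [h, θ.apply_symm_apply]⟩) hqc
    have hk' : ρ.ker = ρ₀.ker := by
      ext c; rw [MonoidHom.mem_ker, MonoidHom.mem_ker, hk, hker₀]
    have hd : Nat.card ρ₀.range ∣ Nat.card (H5.orth (H5.qMinus 3 (ZMod 2) 1 ζ)) := by
      rw [← Subgroup.index_ker, ← hk', Subgroup.index_ker]
      exact Subgroup.card_subgroup_dvd_card _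
    rw [hrange₀, ← Nat.card_congr (H5.isoEquiv _ (H5.coe_qMinus 3 1 ζ)).toEquiv,
      Cfsg.Agent.S0288.result (q := 2) (ZMod.card 2) 4 (by norm_num) 1 ζ
        (by have : ζ = 1 := (bit ζ).resolve_left (fun h => hζ 0 (by simp [h]))
            subst this; decide)] at hd
    revert hd
    decide

end Cfsg.Agent.H41.CoType
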