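import Cfsg.Agent.H41.CoType.Separate

/-! The two types of radical involutions are not conjugate. -/

set_option autoImplicit false
set_option linter.unusedSimpArgs false
set_option linter.unusedSectionVars false

namespace Cfsg.Agent.H41.CoType

open Cfsg.Agent
open Cfsg.Agent.H18 (SingPt OrthPair)

/-- Subgroup generated by a normal 2-subgroup lies in a Sylow subgroup with it. -/
theorem card_sylow_eq {X : Type*} [Group X] [Finite X] (P : Sylow 2 X) :
    Nat.card P = 2 ^ (Nat.card X).factorization 2 := by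
  exact P.card_eq_multiplicity

namespace Frame

variable {G : Type*} [Group G] [Finite G] (T : Frame G)

/-- The centralizer of a radical element in `D`. -/
abbrev CD (r : G) : Subgroup G := T.D ⊓ Subgroup.centralizer ({r} : Set G)

theorem _root_.Cfsg.Agent.H41.CoType.conj_comm {X : Type*} [Group X] {x d y : X}
    (h : d * (x⁻¹ * y * x) = x⁻¹ * y * x * d) : x * d * x⁻¹ * y = y * (x * d * x⁻¹) :=
  calc x * d * x⁻¹ * y = x * (d * (x⁻¹ * y * x)) * x⁻¹ := by group
    _ = _ := by rw [h]; group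

theorem mem_CD {r d : G} : d ∈ T.CD r ↔ d ∈ T.D ∧ d * r = r * d :=
  and_congr Iff.rfl Subgroup.mem_centralizer_singleton_iff

/-- The orbit count. -/
theorem card_D {k : ZMod 2} {r : G} (hr : T.IsCl r (sa k) (sc k)) :
    Nat.card T.D = Nat.card (T.CD r) * (4 * numPairs k) := by
  classical
  let O := {x : G // ∃ a c, T.IsCl x a c ∧ IsPair k a c}
  -- the class map
  have hO : Nat.card O = 4 * numPairs k := by
    choose ex hexR hexc using fun x : {x : F8 × F8 // IsPair k x.1 x.2} =>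
      T.exists_isCl_of x.2.1 x.2.2.1
    rw [← card_isPair k, show 4 * Nat.card {x : F8 × F8 // IsPair k x.1 x.2} =
      Nat.card ((ZMod 2 × ZMod 2) × {x : F8 × F8 // IsPair k x.1 x.2}) by
        rw [Nat.card_prod, Nat.card_prod, Nat.card_zmod]]
    refine (Nat.card_congr (Equiv.ofBijective
      (fun y : (ZMod 2 × ZMod 2) × {x : F8 × F8 // IsPair k x.1 x.2} =>
        (⟨T.vv y.1.1 y.1.2 * ex y.2, _, _, T.isCl_of_four (hexc y.2), y.2.2⟩ : O))
      ⟨fun y y' e => ?_, fun x => ?_⟩)).symm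
    · have e' : T.vv y.1.1 y.1.2 * ex y.2 = T.vv y'.1.1 y'.1.2 * ex y'.2 := congrArg Subtype.val e
      obtain ⟨h1, h2⟩ := T.isCl_uniq (T.isCl_of_four (i := y.1.1) (j := y.1.2) (hexc y.2))
        (e' ▸ T.isCl_of_four (i := y'.1.1) (j := y'.1.2) (hexc y'.2))
      have h3 : y.2 = y'.2 := Subtype.ext (Prod.ext h1 h2)
      rw [h3] at e'
      obtain ⟨g1, g2⟩ := T.vv_inj (mul_right_cancel e')
      exact Prod.ext (Prod.ext g1 g2) h3
    · obtain ⟨a, c, hx, hp⟩ := x.2
      obtain ⟨i, j, hij⟩ := T.isCl_eq (hexc ⟨(a, c), hp⟩) hx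
      exact ⟨((i, j), ⟨(a, c), hp⟩), Subtype.ext hij.symm⟩
  rw [← hO]
  -- fibres of the orbit map
  have hOconj : ∀ d ∈ T.D, ∃ a c, T.IsCl (d * r * d⁻¹) a c ∧ IsPair k a c := by
    intro d hd
    have hcl := T.isCl_conj hd hr
    refine ⟨_, _, hcl, ?_⟩
    obtain ⟨hsa, hsc, hqa, hqc, hB, ha, hc, hac⟩ := sa_sc k
    set ω := T.im (T.D_le_C hd) with hω
    have he : ap ω (eps 0) = eps 0 := T.rho_D hd
    have hea : B8 (eps 0) (sa k) = 0 := by rw [← hsa, B_eps_pr]
    have hec : B8 (eps 0) (sc k) = 0 := by rw [← hsc, B_eps_pr]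
    have hia : B8 (eps 0) (ap ω (sa k)) = 0 := by rw [B_fix he, hea]
    have hic : B8 (eps 0) (ap ω (sc k)) = 0 := by rw [B_fix he, hec]
    have hinj : ∀ x, B8 (eps 0) x = 0 → pr x = x → pr (ap ω x) = 0 → x = 0 := by
      intro x hx hxp h0
      rcases pr_eq_zero (by rw [B_fix he, hx]) h0 with e | e
      · exact ap_inj ω (e.trans (ap_zero ω).symm)
      · rw [← he] at e
        have := ap_inj ω e
        rw [this, pr_eps] at hxp
        rw [this]; exact hxp.symm
    refine ⟨pr_pr _, pr_pr _, by rw [q_pr hia, ap_q, hqa], by rw [q_pr hic, ap_q, hqc],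
      by rw [B_pr hia hic, ap_B, hB], fun e => ha (hinj _ hea hsa e), fun e => hc (hinj _ hec hsc e),
      fun e => hac (eq_of_add8 (hinj _ (by rw [B_add_right, hea, hec, add_zero])
        (by rw [pr_add, hsa, hsc]) (by rw [ap_add, pr_add, e, two8])))⟩
  let f : T.D → O := fun d => ⟨(d : G) * r * (d : G)⁻¹, hOconj d d.2⟩
  have hsurj : Function.Surjective f := by
    intro x
    obtain ⟨a, c, hx, hp⟩ := x.2
    obtain ⟨ω, hω, he, hωa, hωc⟩ := witt_pair hp
    obtain ⟨d, hd, him⟩ := T.exists_D hω he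
    have h1 := T.isCl_conj hd hx
    rw [him, hωa, hωc, (sa_sc k).1, (sa_sc k).2.1] at h1
    obtain ⟨i, j, hij⟩ := T.isCl_eq h1 hr
    obtain ⟨y, hy, hya, hyc⟩ := exists_dual k (i + j) j
    obtain ⟨p, hp', hpy⟩ := T.exists_cl y hy
    have hcomm := T.comm_R (T.isCl_P hp') h1
    rw [hpy, hya, hyc, B_zero_left, B_zero_right, add_zero, zero_add, add_zero,
      show i + j + j = i by rw [add_assoc, two0, add_zero]] at hcomm
    refine ⟨⟨(p * d)⁻¹, inv_mem (mul_mem (T.P_le_D hp') hd)⟩, Subtype.ext ?_⟩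
    show (p * d)⁻¹ * r * (p * d)⁻¹⁻¹ = x.1
    rw [hij, show T.vv i j * (d * x.1 * d⁻¹) = p * (d * x.1 * d⁻¹) * p⁻¹ by rw [hcomm]; group]
    group
  choose sec hsec using hsurj
  rw [← Nat.card_prod]
  refine Nat.card_congr (Equiv.ofBijective
    (fun d : T.D => ((⟨((sec (f d) : T.D) : G)⁻¹ * d, T.mem_CD.2
      ⟨mul_mem (inv_mem (sec (f d)).2) d.2, by
        have e : ((sec (f d) : T.D) : G) * r * ((sec (f d) : T.D) : G)⁻¹ = (d : G) * r * (d : G)⁻¹ :=
          congrArg Subtype.val (hsec (f d))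
        calc ((sec (f d) : T.D) : G)⁻¹ * d * r
            = ((sec (f d) : T.D) : G)⁻¹ * ((d : G) * r * (d : G)⁻¹) * d := by group
          _ = _ := by rw [← e]; group⟩⟩ : T.CD r), f d))
    ⟨fun d d' e => ?_, fun y => ?_⟩)
  · simp only [Prod.mk.injEq, Subtype.mk.injEq] at e
    obtain ⟨e1, e2⟩ := e
    rw [e2] at e1
    exact Subtype.ext (mul_left_cancel e1)
  · have hm := (T.mem_CD.1 y.1.2)
    refine ⟨⟨(sec y.2 : G) * y.1, mul_mem (sec y.2).2 hm.1⟩, ?_⟩
    have hf : f ⟨(sec y.2 : G) * y.1, mul_mem (sec y.2).2 hm.1⟩ = y.2 := by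
      refine Eq.trans (Subtype.ext ?_) (hsec y.2)
      show (sec y.2 : G) * y.1 * r * ((sec y.2 : G) * y.1)⁻¹ = (sec y.2 : G) * r * (sec y.2 : G)⁻¹
      calc (sec y.2 : G) * y.1 * r * ((sec y.2 : G) * y.1)⁻¹
          = (sec y.2 : G) * (y.1 * r) * (y.1 : G)⁻¹ * (sec y.2 : G)⁻¹ := by group
        _ = _ := by rw [hm.2]; group
    refine Prod.ext (Subtype.ext ?_) hf
    show (sec (f _) : G)⁻¹ * ((sec y.2 : G) * y.1) = y.1
    rw [hf, inv_mul_cancel_left]

/-- The facts about the nonsingular type: the centralizer of `z` and `r` normalizes the pair,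
moves `b`, and the two-part of the centralizer of `r` is that of this group. -/
theorem two_part {r : G} (hr : T.IsCl r (sa 1) (sc 1)) :
    (Nat.card ↥(Subgroup.centralizer ({r} : Set G))).factorization 2 =
      (2 * Nat.card (T.CD r)).factorization 2 := by
  classical
  obtain ⟨hsa, hsc, hqa, hqc, hB, ha0, hc0, hac⟩ := sa_sc 1
  have hrR := T.isCl_mem hr
  have hrD := T.R_le_D hrR
  have hrC := T.D_le_C hrD
  set H : Subgroup G := T.S.C ⊓ Subgroup.centralizer ({r} : Set G) with hH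
  have memH : ∀ {x}, x ∈ H ↔ x ∈ T.S.C ∧ x * r = r * x := fun {x} =>
    and_congr Iff.rfl Subgroup.mem_centralizer_singleton_iff
  set τ := T.im hrC with hτ
  -- the image of `b` is determined
  have hfix : ∀ {x} (hx : x ∈ T.S.C), x * r = r * x → ap (T.im hx) (eps 0) = eps 0 := by
    intro x hx hxr
    set ω := T.im hx
    obtain ⟨y, hy, -, hy1⟩ := exists_dual 1 0 1
    have hye : B8 (eps 0) y = 0 := by rw [← hy, B_eps_pr]
    have h1 := T.im_R hr hye
    rw [hy1, one_smul] at h1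
    have hcom : ∀ w, ap τ (ap ω w) = ap ω (ap τ w) := fun w => by
      rw [← ap_mul, ← ap_mul, hτ, ← T.im_mul, ← T.im_mul]
      congr 2
      exact hxr.symm
    have h2 : ap τ (ap ω y) + ap ω y = ap ω (eps 0) := by rw [hcom, ← ap_add, h1]
    set v := ap ω y
    have hv0 : B8 (eps 0) (v + B8 (eps 0) v • eta 0) = 0 := by
      rw [B_add_right, B_smul_right, show B8 (eps 0) (eta 0) = 1 by decide +kernel, mul_one, two0]
    have h3 := T.im_R hr hv0
    have hq : q8 (ap ω (eps 0)) = 0 := by rw [ap_q]; decide +kernel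
    have hne : ap ω (eps 0) ≠ 0 := fun e => by
      have e1 := ap_inj ω (e.trans (ap_zero ω).symm)
      simpa [eps] using congrFun e1 (Sum.inl 0)
    rcases bit (B8 (eps 0) v) with e | e
    · rw [e, zero_smul, add_zero, h2] at h3
      rcases bit (B8 v (sc 1)) with e' | e'
      · rw [e', zero_smul] at h3; exact absurd h3 hne
      · rw [e', one_smul] at h3; exact h3
    · exfalso
      rw [e, one_smul, ap_add] at h3
      have h4 : ap ω (eps 0) = B8 (v + eta 0) (sc 1) • eps 0 + (ap τ (eta 0) + eta 0) := by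
        rw [← h3, ← h2, show ap τ v + ap τ (eta 0) + (v + eta 0) + (ap τ (eta 0) + eta 0) =
          ap τ v + v + ((ap τ (eta 0) + eta 0) + (ap τ (eta 0) + eta 0)) by abel, two8, add_zero]
      have he : B8 (eps 0) (ap τ (eta 0) + eta 0) = 0 := by
        rw [B_add_right, B_fix (show ap τ (eps 0) = eps 0 from T.rho_D hrD), two0]
      rw [h4, q_add, q_smul, show q8 (eps 0) = 0 by decide +kernel, mul_zero, B_smul_left, he, mul_zero,
        ← q_pr he, pr_add, T.im_R_eta hr, pr_eta, add_zero, add_zero, zero_add, hqc] at hq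
      exact absurd hq (by decide)
  have hbz : ∀ {x}, x ∈ H → ∃ i, x * T.b * x⁻¹ = T.b * T.S.zp i := by
    intro x hx
    obtain ⟨hxC, hxr⟩ := memH.1 hx
    exact T.S.exists_zp T.b_mem (T.S.norm hxC T.b_mem) (by rw [T.co_conj hxC T.b_mem, T.hb, hfix hxC hxr])
  have hnormD : ∀ {x}, x ∈ H → ∀ d ∈ T.D, x * d * x⁻¹ ∈ T.D := by
    intro x hx d hd
    obtain ⟨i, hi⟩ := hbz (inv_mem hx)
    refine T.mem_D.2 ⟨T.S.mem_C.1 (mul_mem (mul_mem hx.1 (T.D_le_C hd)) (inv_mem hx.1)), ?_⟩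
    have h1 : d * (T.b * T.S.zp i) = T.b * T.S.zp i * d := by
      rw [← mul_assoc, (T.mem_D.1 hd).2, mul_assoc T.b d, T.S.zp_comm i (T.mem_D.1 hd).1, ← mul_assoc]
    rw [← hi, inv_inv] at h1
    exact conj_comm h1
  -- an element moving `b`
  obtain ⟨σ, hσH, hσb⟩ : ∃ σ ∈ H, σ ∉ T.D := by
    have hp : IsPair 1 (sa 1 + sc 1) (sc 1) := by
      refine ⟨by rw [pr_add, hsa, hsc], hsc, ?_, hqc, ?_, fun e => hac (eq_of_add8 e), hc0, fun e => ha0 ?_⟩
      · rw [q_add, hqa, hqc, hB]; decide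
      · rw [B_add_left, hB, B_self, add_zero]
      · exact add_eq_right.1 e
    obtain ⟨ω, hω, he, hωa, hωc⟩ := witt_pair hp
    obtain ⟨d, hd, him⟩ := T.exists_D hω he
    have h1 := T.isCl_conj hd (T.isCl_conj_u hr)
    rw [him, hωa, hωc, hsa, hsc] at h1
    obtain ⟨i, j, hij⟩ := T.isCl_eq h1 hr
    obtain ⟨y, hy, hya, hyc⟩ := exists_dual 1 (i + j) j
    obtain ⟨p, hp', hpy⟩ := T.exists_cl y hy
    have hcomm := T.comm_R (T.isCl_P hp') h1
    rw [hpy, hya, hyc, B_zero_left, B_zero_right, add_zero, zero_add, add_zero,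
      show i + j + j = i by rw [add_assoc, two0, add_zero]] at hcomm
    have hpd := mul_mem (T.P_le_D hp') hd
    refine ⟨p * d * T.u, memH.2 ⟨mul_mem (T.D_le_C hpd) (T.S.F_le_C T.hu), ?_⟩, fun hmem => ?_⟩
    · calc p * d * T.u * r = (p * (d * (T.u * r * T.u⁻¹) * d⁻¹) * p⁻¹) * (p * d * T.u) := by group
        _ = r * (p * d * T.u) := by
          congr 1
          rw [hcomm, ← mul_assoc, mul_inv_cancel_right, ← hij]
    · have h2 : T.u ∈ T.D := by
        have e : T.u = (p * d)⁻¹ * (p * d * T.u) := by group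
        rw [e]; exact mul_mem (inv_mem hpd) hmem
      have h3 := T.hub
      rw [(T.mem_D.1 h2).2, mul_inv_cancel_right, right_eq_mul] at h3
      exact T.S.pt.xne h3
  have hcardH : Nat.card H = 2 * Nat.card (T.CD r) := by
    rw [show 2 * Nat.card (T.CD r) = Nat.card (ZMod 2 × T.CD r) by rw [Nat.card_prod, Nat.card_zmod]]
    obtain ⟨i₀, hi₀⟩ := hbz hσH
    have hi1 : i₀ = 1 := (bit i₀).resolve_left fun e => hσb (T.mem_D.2
      ⟨T.S.mem_C.1 hσH.1, by rw [e, Setting.zp_zero, mul_one] at hi₀; exact mul_inv_eq_iff_eq_mul.1 hi₀⟩)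
    rw [hi1] at hi₀
    let sel : ZMod 2 → G := fun a => if a = 0 then 1 else σ
    have hselH : ∀ a, sel a ∈ H := fun a => by
      show (if a = 0 then 1 else σ) ∈ H
      split
      · exact one_mem _
      · exact hσH
    refine (Nat.card_congr (Equiv.ofBijective
      (fun y : ZMod 2 × T.CD r => (⟨sel y.1 * y.2, mul_mem (hselH _)
        (memH.2 ⟨T.D_le_C (T.mem_CD.1 y.2.2).1, (T.mem_CD.1 y.2.2).2⟩)⟩ : H))
      ⟨fun y y' e => ?_, fun x => ?_⟩)).symm
    · have e' : sel y.1 * y.2 = sel y'.1 * y'.2 := congrArg Subtype.val e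
      have hy : y.1 = y'.1 := by
        have hDD : (sel y.1)⁻¹ * sel y'.1 ∈ T.D := by
          have : (sel y.1)⁻¹ * sel y'.1 = (y.2 : G) * (y'.2 : G)⁻¹ := by
            rw [eq_mul_inv_iff_mul_eq, mul_assoc, ← e', inv_mul_cancel_left]
          rw [this]
          exact mul_mem (T.mem_CD.1 y.2.2).1 (inv_mem (T.mem_CD.1 y'.2.2).1)
        rcases bit y.1 with h | h <;> rcases bit y'.1 with h' | h' <;> rw [h, h'] <;>
          simp [sel, h, h'] at hDD
        · exact absurd hDD hσb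
        · exact absurd hDD hσb
      rw [hy] at e'
      exact Prod.ext hy (Subtype.ext (mul_left_cancel e'))
    · obtain ⟨hxC, hxr⟩ := memH.1 x.2
      obtain ⟨i, hi⟩ := hbz x.2
      have hσr := (memH.1 hσH).2
      rcases bit i with e | e <;> rw [e] at hi
      · rw [Setting.zp_zero, mul_one] at hi
        exact ⟨(0, ⟨x, T.mem_CD.2 ⟨T.mem_D.2 ⟨T.S.mem_C.1 hxC, mul_inv_eq_iff_eq_mul.1 hi⟩, hxr⟩⟩),
          Subtype.ext (one_mul _)⟩
      · have hd : σ⁻¹ * x ∈ T.D := by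
          refine T.mem_D.2 ⟨T.S.mem_C.1 (mul_mem (inv_mem hσH.1) hxC), mul_inv_eq_iff_eq_mul.1 ?_⟩
          calc σ⁻¹ * (x : G) * T.b * (σ⁻¹ * (x : G))⁻¹ = σ⁻¹ * ((x : G) * T.b * (x : G)⁻¹) * σ := by group
            _ = σ⁻¹ * (σ * T.b * σ⁻¹) * σ := by rw [hi, hi₀]
            _ = T.b := by rw [mul_assoc σ, inv_mul_cancel_left, inv_mul_cancel_right]
        exact ⟨(1, ⟨σ⁻¹ * x, T.mem_CD.2 ⟨hd, (memH.1 (mul_mem (inv_mem hσH) x.2)).2⟩⟩),
          Subtype.ext (show sel 1 * (σ⁻¹ * (x : G)) = x by simp [sel])⟩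
  rw [← hcardH]
  -- a Sylow subgroup containing the radical part
  set N : Subgroup H := (T.R ⊓ Subgroup.centralizer ({r} : Set G)).subgroupOf H with hN
  have memN : ∀ {x : H}, x ∈ N ↔ (x : G) ∈ T.R := fun {x} => by
    rw [hN, Subgroup.mem_subgroupOf, Subgroup.mem_inf]
    exact and_iff_left x.2.2
  have hNn : N.Normal := ⟨fun n hn h => by
    rw [memN] at hn ⊢
    push_cast
    have hd := hnormD h.2 _ (T.R_le_D hn)
    refine T.mem_R_of_trivial hd fun y hy => ?_
    obtain ⟨hhC, hhr⟩ := memH.1 h.2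
    set ω := T.im hhC
    have hωe : ap ω (eps 0) = eps 0 := hfix hhC hhr
    obtain ⟨y', rfl⟩ := (ω : F8 ≃ₗ[ZMod 2] F8).surjective y
    change B8 (eps 0) (ap ω y') = 0 at hy
    rw [B_fix hωe] at hy
    obtain ⟨a, c, hac'⟩ := T.exists_isCl hn
    have h1 := T.im_R hac' hy
    show pr (ap (T.im (T.D_le_C hd)) (ap ω y')) = pr (ap ω y')
    rw [show ap (T.im (T.D_le_C hd)) (ap ω y') = ap ω (ap (T.im (T.D_le_C (T.R_le_D hn))) y') by
      rw [← ap_mul, ← ap_mul, ← T.im_mul, ← T.im_mul]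
      congr 2
      group]
    rw [show ap (T.im (T.D_le_C (T.R_le_D hn))) y' = B8 y' c • eps 0 + y' by
      rw [← h1, add_assoc, two8, add_zero], ap_add, ap_smul, hωe, pr_add]
    rcases bit (B8 y' c) with e | e <;> simp [e, pr_zero, pr_eps]⟩
  have hNp : IsPGroup 2 N :=
    (T.o.R_isPGroup.to_le (inf_le_left (b := Subgroup.centralizer ({r} : Set G)))).comap_of_injective
      H.subtype H.subtype_injective
  obtain ⟨P, hP⟩ := hNp.exists_le_sylow
  set S := (P : Subgroup H).map H.subtype with hS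
  have hSH : S ≤ H := Subgroup.map_subtype_le _
  have hSp : IsPGroup 2 S := P.isPGroup'.map _
  have hNS : ∀ {x}, x ∈ T.R → x * r = r * x → x ∈ S := fun {x} hx hxr =>
    ⟨⟨x, memH.2 ⟨T.D_le_C (T.R_le_D hx), hxr⟩⟩, hP (memN.2 hx), rfl⟩
  have hScard : Nat.card S = 2 ^ (Nat.card H).factorization 2 := by
    rw [hS, Subgroup.card_map_of_injective H.subtype_injective]
    exact card_sylow_eq P
  -- some element of it moves `b`
  obtain ⟨s, hs, hsD⟩ : ∃ s ∈ S, s ∉ T.D := by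
    by_contra hcon
    push Not at hcon
    have hle : S ≤ T.CD r := fun x hx => T.mem_CD.2 ⟨hcon x hx, (memH.1 (hSH hx)).2⟩
    have hd := Subgroup.card_dvd_of_le hle
    rw [hScard, hcardH, Nat.factorization_mul two_ne_zero Nat.card_pos.ne'] at hd
    rw [Finsupp.add_apply, Nat.Prime.factorization_self Nat.prime_two] at hd
    exact Nat.pow_succ_factorization_not_dvd Nat.card_pos.ne' Nat.prime_two (by rwa [add_comm])
  -- central elements of the Sylow subgroup
  have hcen : ∀ y ∈ S, (∀ x ∈ S, x * y = y * x) → IsConj y T.z → y = T.z := by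
    intro y hy hycom hyz
    obtain ⟨hyC, hyr⟩ := memH.1 (hSH hy)
    have hbS : T.b ∈ S := hNS (T.P_le_R (T.four_le_P T.o.b_mem_four)) ((T.mem_D.1 hrD).2.symm)
    have hyD : y ∈ T.D := T.mem_D.2 ⟨T.S.mem_C.1 hyC, (hycom _ hbS).symm⟩
    -- elements of the radical part of every class
    have hex : ∀ c', pr c' = c' → ∃ a' x, x ∈ S ∧ T.IsCl x a' c' := by
      intro c' hc'
      obtain ⟨a', ha', h1, h2⟩ := exists_dual 1 (B8 (sc 1) c') (B8 (sc 1) c' + B8 (sa 1) c')
      obtain ⟨x, hx, hcl⟩ := T.exists_isCl_of ha' hc'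
      refine ⟨a', x, hNS hx ?_, hcl⟩
      have h3 := T.comm_R hcl hr
      rw [h1, h2, B_comm c' (sc 1)] at h3
      rw [h3, show B8 (sc 1) c' + (B8 (sc 1) c' + B8 (sa 1) c') + B8 (sa 1) c' = 0 by
          generalize B8 (sc 1) c' = p; generalize B8 (sa 1) c' = q; revert p q; decide,
        vv_zero, one_mul]
    have hyR : y ∈ T.R := by
      refine T.mem_R_of_trivial hyD fun w hw => ?_
      set ω := T.im (T.D_le_C hyD)
      have he : ap ω (eps 0) = eps 0 := T.rho_D hyD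
      have hw' : B8 (eps 0) (ap ω w) = 0 := by rw [B_fix he, hw]
      refine eq_of_add8 (eq_zero_of_B fun x => ?_)
      rw [← pr_add, ← B_pr_left]
      obtain ⟨a', g, hg, hcl⟩ := hex (pr x) (pr_pr x)
      have h1 := T.im_R hcl hw
      have h2 := T.im_R hcl hw'
      set σg := T.im (T.D_le_C (T.R_le_D (T.isCl_mem hcl)))
      have hcom : ap ω (ap σg w) = ap σg (ap ω w) := by
        rw [← ap_mul, ← ap_mul, ← T.im_mul, ← T.im_mul]
        congr 2
        exact (hycom g hg).symm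
      have h1' := congrArg (ap ω) h1
      rw [ap_add, hcom, ap_smul, he, h2] at h1'
      have h3 : B8 (ap ω w) (pr x) = B8 w (pr x) := by
        simpa [eps] using congrFun h1' (Sum.inl 0)
      rw [pr_add, B_add_left, B_pr_flip hw' (pr_pr x), B_pr_flip hw (pr_pr x), B_comm (pr x),
        B_comm (pr x), h3, two0]
    obtain ⟨a, c, hac'⟩ := T.exists_isCl hyR
    obtain ⟨hpa, hpc⟩ := T.isCl_pr hac'
    -- commutation equations
    have heq : ∀ {a' c' x}, x ∈ S → T.IsCl x a' c' →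
        B8 a a' + B8 a c' + B8 a' c = 0 ∧ B8 c c' + B8 a c' + B8 a' c = 0 := by
      intro a' c' x hx hcl
      have h := T.comm_R hac' hcl
      rw [hycom x hx] at h
      exact T.vv_inj ((mul_eq_right.1 h.symm).trans T.vv_zero.symm)
    have hX : ∀ i, B8 (xb 1 i) a = 0 ∧ B8 (xb 1 i) c = 0 := by
      intro i
      obtain ⟨g0, g1, g2⟩ := xb_mem 1 i
      obtain ⟨p, hp, hpx⟩ := T.exists_cl (pr (xb 1 i)) (pr_pr _)
      have hcl := T.isCl_P hp
      rw [hpx] at hcl
      have hpr : ∀ w, pr w = w → B8 (pr (xb 1 i)) w = B8 w (xb 1 i) := fun w hw => B_pr_flip g0 hw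
      have hpS : p ∈ S := by
        refine hNS (T.P_le_R hp) ?_
        have h3 := T.comm_R hcl hr
        rw [h3, hpr _ hsa, hpr _ hsc, B_zero_left, B_zero_right, g1, g2]
        simp [vv_zero]
      obtain ⟨e1, e2⟩ := heq hpS hcl
      rw [B_zero_right, B_zero_right, zero_add, zero_add, hpr _ hpc, B_comm] at e2
      rw [B_zero_right, add_zero, B_comm a, hpr _ hpa, hpr _ hpc, B_comm a, B_comm c, e2, add_zero] at e1
      exact ⟨e1, e2⟩
    obtain ⟨a0, a1, a2, hadec⟩ := xb_perp 1 a fun i => (hX i).1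
    obtain ⟨c0, c1, c2, hcdec⟩ := xb_perp 1 c fun i => (hX i).2
    have hclean : ∀ d0 d1 d2 : ZMod 2, pr (d0 • eps 0 + d1 • sa 1 + d2 • sc 1) =
        d1 • sa 1 + d2 • sc 1 := by decide +kernel
    rw [hadec, hclean] at hpa
    rw [hcdec, hclean] at hpc
    rw [← hpa] at hadec
    rw [← hpc] at hcdec
    have ha' : a = a1 • sa 1 + a2 • sc 1 := hadec
    have hc' : c = c1 • sa 1 + c2 • sc 1 := hcdec
    -- the element moving `b`
    obtain ⟨hsC, hsr⟩ := memH.1 (hSH hs)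
    obtain ⟨i, hi⟩ := hbz (hSH hs)
    have hi1 : i = 1 := (bit i).resolve_left fun e => hsD (T.mem_D.2
      ⟨T.S.mem_C.1 hsC, by rw [e, Setting.zp_zero, mul_one] at hi; exact mul_inv_eq_iff_eq_mul.1 hi⟩)
    rw [hi1, Setting.zp_one, ← T.zb] at hi
    obtain ⟨d, hd, hsd⟩ : ∃ d ∈ T.D, s = T.u * d := by
      refine ⟨T.u⁻¹ * s, T.mem_D.2 ⟨T.S.mem_C.1 (mul_mem (inv_mem (T.S.F_le_C T.hu)) hsC),
        mul_inv_eq_iff_eq_mul.1 ?_⟩, by group⟩
      calc T.u⁻¹ * s * T.b * (T.u⁻¹ * s)⁻¹ = T.u⁻¹ * (s * T.b * s⁻¹) * T.u := by group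
        _ = T.u⁻¹ * (T.u * T.b * T.u⁻¹) * T.u := by rw [hi, T.hub]
        _ = T.b := by rw [mul_assoc T.u, inv_mul_cancel_left, inv_mul_cancel_right]
    set ω := T.im (T.D_le_C hd)
    have hconj : ∀ {x a' c'}, T.IsCl x a' c' →
        T.IsCl (s * x * s⁻¹) (pr (ap ω a') + pr (ap ω c')) (pr (ap ω c')) := by
      intro x a' c' hcl
      rw [hsd, show T.u * d * x * (T.u * d)⁻¹ = T.u * (d * x * d⁻¹) * T.u⁻¹ by group]
      exact T.isCl_conj_u (T.isCl_conj hd hcl)
    obtain ⟨k1, k2⟩ := T.isCl_uniq (hconj hr)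
      (show T.IsCl (s * r * s⁻¹) (sa 1) (sc 1) by rwa [hsr, mul_inv_cancel_right])
    have k3 : pr (ap ω (sa 1)) = sa 1 + sc 1 := by
      rw [← k2]; exact eq_of_add8 (by rw [← add_assoc]; nth_rw 2 [← k1]; rw [← add_assoc, two8, zero_add, k2, two8])
    obtain ⟨l1, l2⟩ := T.isCl_uniq (hconj hac')
      (show T.IsCl (s * y * s⁻¹) a c by rwa [hycom s hs, mul_inv_cancel_right])
    have hlin : ∀ d1 d2 : ZMod 2, pr (ap ω (d1 • sa 1 + d2 • sc 1)) =
        d1 • (sa 1 + sc 1) + d2 • sc 1 := by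
      intro d1 d2
      rcases bit d1 with rfl | rfl <;> rcases bit d2 with rfl | rfl <;>
        simp [ap_zero, pr_zero, ap_add, pr_add, k2, k3]
    rw [l2, ha', hc', hlin] at l1
    rw [hc', hlin] at l2
    -- a witness killing the extra component
    obtain ⟨w, hw, hwa, hwc⟩ := exists_dual 1 0 1
    obtain ⟨a'', g, hg, hgcl⟩ := hex w hw
    obtain ⟨e1, e2⟩ := heq hg hgcl
    have hga := T.comm_R hgcl hr
    have hgr : g * r = r * g := (memH.1 (hSH hg)).2
    rw [hgr] at hga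
    obtain ⟨f1, f2⟩ := T.vv_inj ((mul_eq_right.1 hga.symm).trans T.vv_zero.symm)
    have hkey : a2 = 0 ∧ c1 = 0 ∧ a1 = c2 := by
      have m1 : ∀ a1 a2 c1 c2 : ZMod 2, a1 • (sa 1 + sc 1) + a2 • sc 1 + (c1 • sa 1 + c2 • sc 1) =
          a1 • sa 1 + a2 • sc 1 → c1 • (sa 1 + sc 1) + c2 • sc 1 = c1 • sa 1 + c2 • sc 1 →
          c1 = 0 ∧ a1 = c2 := by decide +kernel
      obtain ⟨hc1, ha1⟩ := m1 a1 a2 c1 c2 l1 l2
      refine ⟨?_, hc1, ha1⟩
      rw [ha', hc', hc1, ha1] at e1 e2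
      simp only [B_add_left, B_add_right, B_smul_left, B_smul_right, zero_smul, zero_mul, B_zero_left,
        B_zero_right, zero_add, add_zero, B_comm w, B_comm a'' (sa 1), B_comm a'' (sc 1)] at e1 e2 f1 f2
      rw [B_comm] at hwa hwc
      simp only [hwa, hwc] at e1 e2 f1 f2
      exact (by decide : ∀ a c p q : ZMod 2, c * p + a * q + (c * 0 + a * 1) + c * q = 0 →
        c * 1 + (c * 0 + a * 1) + c * q = 0 → p + q + 0 = 0 → 1 + q + 0 = 0 → a = 0) _ _ _ _ e1 e2 f1 f2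
    obtain ⟨ha2, hc1, ha1⟩ := hkey
    have hs_four : ∀ i j, s * T.vv i j * s⁻¹ = T.vv (i + j) j := fun i j => by
      rw [hsd, show T.u * d * T.vv i j * (T.u * d)⁻¹ = T.u * (d * T.vv i j * d⁻¹) * T.u⁻¹ by group,
        T.vv_comm hd, mul_inv_cancel_right, T.u_vv]
    rw [ha2, zero_smul, add_zero] at ha'
    rw [hc1, zero_smul, zero_add, ← ha1] at hc'
    rcases bit a1 with e | e
    · rw [e, zero_smul] at ha' hc'
      subst ha' hc'
      obtain ⟨i', j', hij⟩ := T.isCl_eq (T.isCl_vv 0 0) hac'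
      rw [vv_mul, add_zero, add_zero] at hij
      have hj : j' = 0 := by
        have h := hs_four i' j'
        rw [← hij, hycom s hs, mul_inv_cancel_right, hij] at h
        linear_combination -(T.vv_inj h).1
      rw [hij, hj, vv, bp_zero, mul_one]
      rcases bit i' with e' | e'
      · exfalso
        rw [hij, hj, e', vv_zero] at hyz
        exact T.S.pt.xne (isConj_one_right.1 hyz)
      · rw [e', Setting.zp_one]
    · exfalso
      rw [e, one_smul] at ha' hc'
      subst ha' hc'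
      exact T.not_isConj_z hr ((T.isConj_of_pair hr (sa_sc 1) hac' (sa_sc 1)).trans hyz)
  -- `S` is Sylow in the centralizer of `r`
  set Cr := Subgroup.centralizer ({r} : Set G) with hCr
  have hSCr : S ≤ Cr := fun x hx => (hSH hx).2
  obtain ⟨P2, hP2⟩ := (hSp.comap_of_injective Cr.subtype Cr.subtype_injective).exists_le_sylow
  have hSP : ∀ {x} (hx : x ∈ S), (⟨x, hSCr hx⟩ : Cr) ∈ (P2 : Subgroup Cr) := fun {x} hx => hP2 hx
  have hmeet : ∀ x : Cr, x ∈ (P2 : Subgroup Cr) → (x : G) ∈ T.S.C → (x : G) ∈ S := by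
    intro x hx hxC
    have hK : IsPGroup 2 (((P2 : Subgroup Cr).map Cr.subtype).comap H.subtype) :=
      (P2.isPGroup'.map _).comap_of_injective H.subtype H.subtype_injective
    have hle : (P : Subgroup H) ≤ ((P2 : Subgroup Cr).map Cr.subtype).comap H.subtype := fun w hw =>
      ⟨_, hSP ⟨w, hw, rfl⟩, rfl⟩
    have := P.is_maximal' hK hle
    refine ⟨⟨x, memH.2 ⟨hxC, Subgroup.mem_centralizer_singleton_iff.1 x.2⟩⟩, ?_, rfl⟩
    show _ ∈ (P : Subgroup H)
    rw [← this]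
    exact ⟨x, hx, rfl⟩
  have hall : ∀ x : Cr, x ∈ (P2 : Subgroup Cr) → (x : G) ∈ S := by
    by_contra hcon
    push Not at hcon
    set K : Subgroup ↥(P2 : Subgroup Cr) := S.comap (Cr.subtype.comp (P2 : Subgroup Cr).subtype)
    obtain ⟨x0, hx0, hx0S⟩ := hcon
    haveI : Group.IsNilpotent ↥(P2 : Subgroup Cr) := P2.isPGroup'.isNilpotent
    have hlt : K < Subgroup.normalizer (K : Set _) := Group.normalizerCondition_of_isNilpotent K
      (lt_top_iff_ne_top.2 fun e => hx0S (by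
        have : (⟨x0, hx0⟩ : (P2 : Subgroup Cr)) ∈ K := e ▸ Subgroup.mem_top _
        exact this))
    obtain ⟨n, hn, hnK⟩ := SetLike.exists_of_lt hlt
    have hzS : T.z ∈ S := hNS (T.P_le_R (T.four_le_P T.o.z_mem_four)) ((T.mem_D.1 hrD).1.symm)
    refine hnK (hmeet n.1 n.2 (T.S.mem_C.2 ?_))
    set m : G := ((n : Cr) : G) with hm
    have hnz : m * T.z * m⁻¹ ∈ S := by
      have h1 := (Subgroup.mem_normalizer_iff.1 hn (⟨⟨T.z, hSCr hzS⟩, hSP hzS⟩)).1 hzS
      exact h1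
    have hcz : ∀ x ∈ S, x * (m * T.z * m⁻¹) = m * T.z * m⁻¹ * x := by
      intro x hx
      have h1 := (Subgroup.mem_normalizer_iff''.1 hn (⟨⟨x, hSCr hx⟩, hSP hx⟩)).1 hx
      have h2 : m⁻¹ * x * m * T.z = T.z * (m⁻¹ * x * m) :=
        T.S.mem_C.1 (hSH (h1 : m⁻¹ * x * m ∈ S)).1
      calc x * (m * T.z * m⁻¹) = m * (m⁻¹ * x * m * T.z) * m⁻¹ := by group
        _ = _ := by rw [h2]; group
    exact mul_inv_eq_iff_eq_mul.1 (hcen _ hnz hcz (isConj_conj m T.z).symm)
  have hcard : Nat.card S = Nat.card (P2 : Subgroup Cr) :=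
    Nat.card_congr
      { toFun := fun x => ⟨⟨x, hSCr x.2⟩, hSP x.2⟩
        invFun := fun x => ⟨(x : Cr), hall x x.2⟩
        left_inv := fun x => rfl
        right_inv := fun x => rfl }
  rw [hScard, card_sylow_eq P2] at hcard
  exact (Nat.pow_right_injective le_rfl hcard).symm

/-- The two types are not conjugate. -/
theorem not_isConj_types {r₀ r₁ : G} (h0 : T.IsCl r₀ (sa 0) (sc 0)) (h1 : T.IsCl r₁ (sa 1) (sc 1)) :
    ¬ IsConj r₀ r₁ := by
  intro h
  obtain ⟨g, hg⟩ := isConj_iff.1 h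
  have hcard : Nat.card ↥(Subgroup.centralizer ({r₀} : Set G)) =
      Nat.card ↥(Subgroup.centralizer ({r₁} : Set G)) := by
    refine Nat.card_congr ((MulAut.conj g).toEquiv.subtypeEquiv fun x => ?_)
    show x ∈ _ ↔ g * x * g⁻¹ ∈ _
    rw [Subgroup.mem_centralizer_singleton_iff, Subgroup.mem_centralizer_singleton_iff, ← hg]
    constructor
    · intro e
      calc g * x * g⁻¹ * (g * r₀ * g⁻¹) = g * (x * r₀) * g⁻¹ := by group
        _ = _ := by rw [e]; group
    · intro e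
      calc x * r₀ = g⁻¹ * (g * x * g⁻¹ * (g * r₀ * g⁻¹)) * g := by group
        _ = _ := by rw [e]; group
  have hn0 := T.card_D h0
  have hn1 := T.card_D h1
  rw [numPairs_zero] at hn0
  rw [numPairs_one] at hn1
  have hx : 0 < Nat.card (T.CD r₁) := Nat.card_pos
  have hy : 0 < Nat.card (T.CD r₀) := Nat.card_pos
  obtain ⟨m, hm⟩ : 15 ∣ Nat.card (T.CD r₁) := by omega
  have hy8 : Nat.card (T.CD r₀) = 8 * m := by omega
  have hdvd : Nat.card (T.CD r₀) ∣ Nat.card ↥(Subgroup.centralizer ({r₁} : Set G)) := by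
    rw [← hcard]; exact Subgroup.card_dvd_of_le inf_le_right
  have hf := (Nat.factorization_le_iff_dvd hy.ne' Nat.card_pos.ne').2 hdvd 2
  rw [T.two_part h1, hy8, hm, show 2 * (15 * m) = (2 * 15) * m by ring] at hf
  have hm0 : m ≠ 0 := by omega
  rw [Nat.factorization_mul (by norm_num) hm0, Nat.factorization_mul (by norm_num) hm0,
    Finsupp.add_apply, Finsupp.add_apply] at hf
  have e8 : (8 : ℕ).factorization 2 = 3 := by
    rw [show (8 : ℕ) = 2 ^ 3 by norm_num, Nat.Prime.factorization_pow Nat.prime_two, Finsupp.single_eq_same]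
  have e30 : (2 * 15 : ℕ).factorization 2 = 1 := by
    rw [Nat.factorization_mul (by norm_num) (by norm_num), Finsupp.add_apply,
      Nat.Prime.factorization_self Nat.prime_two,
      Nat.factorization_eq_zero_of_not_dvd (by norm_num : ¬ 2 ∣ 15)]
  omega

end Frame

/-- Exactly three classes of involutions. -/
theorem three_classes {G : Type*} [Group G] [Finite G] (S : Setting G) :
    ∃ a b c : G, orderOf a = 2 ∧ orderOf b = 2 ∧ orderOf c = 2 ∧ ¬ IsConj a b ∧ ¬ IsConj a c ∧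
      ¬ IsConj b c ∧ ∀ x : G, orderOf x = 2 → IsConj x a ∨ IsConj x b ∨ IsConj x c := by
  obtain ⟨T, rfl⟩ := exists_frame S
  obtain ⟨r₀, -, h0⟩ := T.exists_isCl_of (sa_sc 0).1 (sa_sc 0).2.1
  obtain ⟨r₁, -, h1⟩ := T.exists_isCl_of (sa_sc 1).1 (sa_sc 1).2.1
  refine ⟨T.z, r₀, r₁, orderOf_eq_prime (by rw [pow_two]; exact T.S.pt.xx) T.S.pt.xne,
    T.order_two h0, T.order_two h1, fun h => T.not_isConj_z h0 h.symm,
    fun h => T.not_isConj_z h1 h.symm, T.not_isConj_types h0 h1, fun x hx => ?_⟩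
  rcases T.exists_conj hx with h | ⟨r, hr, h⟩
  · exact Or.inl h
  obtain ⟨g, hg⟩ := isConj_iff.1 h
  rcases T.radical_cases hr (hg ▸ conj_involution hx g) with h' | ⟨k, a, c, hcl, hp⟩
  · exact Or.inl (h.trans h')
  rcases bit k with rfl | rfl
  · exact Or.inr (Or.inl (h.trans (T.isConj_of_pair hcl hp h0 (sa_sc 0))))
  · exact Or.inr (Or.inr (h.trans (T.isConj_of_pair hcl hp h1 (sa_sc 1))))

end Cfsg.Agent.H41.CoType
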